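import Cfsg.Agent.Lib.ML.Defs

/-!
# Maximal 2-local subgroups of the Monster: basic lemmas (design helper10)
-/

set_option autoImplicit false

namespace Cfsg.Lib.ML

open Subgroup Cfsg.Lib.ES
open scoped commutatorElement

variable {G : Type*} [Group G] {Γ : Dat G} {u v x y g a c z : G} {A K U V R Y P E : Subgroup G}

namespace Dat

section Cj

variable (φ : G ≃* G)

theorem cj_mem : φ x ∈ A.map φ.toMonoidHom ↔ x ∈ A := mem_map_iff_mem φ.injective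

theorem cj_cen (A : Subgroup G) : 𝐂(A.map φ.toMonoidHom) = 𝐂(A).map φ.toMonoidHom := by
  ext x
  obtain ⟨x, rfl⟩ := φ.surjective x
  rw [cj_mem]
  constructor
  · intro hx a ha
    exact φ.injective (by rw [map_mul, map_mul]; exact hx _ ((cj_mem φ).2 ha))
  · rintro hx _ ⟨a, ha, rfl⟩
    change φ a * φ x = φ x * φ a
    rw [← map_mul, ← map_mul, hx a ha]

theorem cj_inf (A K : Subgroup G) : (A ⊓ K).map φ.toMonoidHom = A.map φ.toMonoidHom ⊓ K.map φ.toMonoidHom :=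
  map_inf_eq _ _ _ φ.injective

theorem cj_card (A : Subgroup G) : Nat.card (A.map φ.toMonoidHom) = Nat.card A :=
  card_map_of_injective φ.injective

theorem cj_comm (x y : G) : ⁅φ x, φ y⁆ = φ ⁅x, y⁆ := (map_commutatorElement φ x y).symm

theorem cj_all {P : G → Prop} : (∀ x ∈ A.map φ.toMonoidHom, P x) ↔ ∀ x ∈ A, P (φ x) :=
  ⟨fun h _ hx => h _ ((cj_mem φ).2 hx), by rintro h _ ⟨x, hx, rfl⟩; exact h x hx⟩

end Cj

theorem b_one_left : Γ.b 1 c = 0 := by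
  rw [b, one_mul, q_one, add_zero, CharTwo.add_self_eq_zero]

theorem b_one_right : Γ.b a 1 = 0 := by
  rw [b, mul_one, q_one, add_zero, CharTwo.add_self_eq_zero]

theorem b_comm (h : a * c = c * a) : Γ.b a c = Γ.b c a := by
  rw [b, b, h, add_right_comm]

theorem b_self (h : a * a = 1) : Γ.b a a = 0 := by
  rw [b, h, q_one, zero_add, CharTwo.add_self_eq_zero]

theorem Sg.mono (h : Γ.Sg U) (hV : V ≤ U) : Γ.Sg V := fun u hu u1 => ⟨(h u (hV hu) u1).1, hV.trans (h u (hV hu) u1).2⟩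

theorem Sg.le_QU (h : Γ.Sg U) : U ≤ Γ.QU U := fun _ hx => Γ.mem_QU.2 fun u hu u1 => (h u hu u1).2 hx

theorem QU_anti (h : V ≤ U) : Γ.QU U ≤ Γ.QU V := fun _ hx => Γ.mem_QU.2 fun u hu u1 => Γ.mem_QU.1 hx u (h hu) u1

/-- `PGroup.exists_mem_centralizer_orderOf_eq` and `Loc.fix`. -/
theorem Loc.fixpt [Finite G] (h : Loc R Y) (hV : V ≠ ⊥) (h2 : ∀ x ∈ V, x * x = 1) (hn : R ≤ 𝐍(V)) :
    ∃ w ∈ V, w ≠ 1 ∧ w ∈ Y := by
  obtain ⟨w, hw, hc, ho⟩ := PGroup.exists_mem_centralizer_orderOf_eq (p := 2)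
    (fun x => ⟨1, Subtype.ext (by simpa [pow_two] using h2 x x.2)⟩) h.pR hn hV
  exact ⟨w, hw, ne_one_of_orderOf_two ho, h.fix w hc (h2 w hw)⟩

theorem Loc.comm (h : Loc R Y) (hx : x ∈ Y) (hy : y ∈ Y) : x * y = y * x := by
  have h1 := h.sq _ (Y.mul_mem hx hy)
  calc x * y = (x * y)⁻¹ := (inv_eq_of_mul_eq_one_left h1).symm
    _ = _ := by rw [_root_.mul_inv_rev, inv_eq_of_mul_eq_one_left (h.sq x hx), inv_eq_of_mul_eq_one_left (h.sq y hy)]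

namespace Ax0

variable (h : Γ.Ax0)
include h

theorem sq (hu : Γ.B u) : u * u = 1 := (h.lg hu).mul_self

theorem ne_one (hu : Γ.B u) : u ≠ 1 := (h.lg hu).ne_one

theorem self_mem (hu : Γ.B u) : u ∈ Γ.Q u := (h.lg hu).mem

theorem comm_of_mem (hu : Γ.B u) (hx : x ∈ Γ.Q u) : x * u = u * x := (h.lg hu).comm hx

theorem conj_iff (g : G) : Γ.B (g * u * g⁻¹) ↔ Γ.B u := by
  refine ⟨fun hu => ?_, h.conj g⟩
  have := h.conj g⁻¹ hu
  rwa [show g⁻¹ * (g * u * g⁻¹) * g⁻¹⁻¹ = u by group] at this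

theorem qconj_iff (g : G) (hu : Γ.B u) : g * x * g⁻¹ ∈ Γ.Q (g * u * g⁻¹) ↔ x ∈ Γ.Q u := by
  refine ⟨fun hx => ?_, h.qconj g hu⟩
  have := h.qconj g⁻¹ (h.conj g hu) hx
  rwa [show g⁻¹ * (g * u * g⁻¹) * g⁻¹⁻¹ = u by group, show g⁻¹ * (g * x * g⁻¹) * g⁻¹⁻¹ = x by group] at this

theorem Q_conj (g : G) (hu : Γ.B u) : Γ.Q (g * u * g⁻¹) = (Γ.Q u) ⋆⋆ g := by
  ext x
  obtain ⟨x, rfl⟩ := (MulAut.conj g).surjective x
  rw [cj_mem]
  exact h.qconj_iff g hu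

theorem cen_conj (hu : Γ.B u) (hg : g * u = u * g) (hx : x ∈ Γ.Q u) : g * x * g⁻¹ ∈ Γ.Q u := by
  have := h.qconj g hu hx
  rwa [hg, mul_inv_cancel_right] at this

theorem q_conj (g a : G) : Γ.q (g * a * g⁻¹) = Γ.q a := by
  classical
  unfold q
  exact if_congr (by rw [h.conj_iff, conj_eq_one_iff]) rfl rfl

theorem b_conj (g a c : G) : Γ.b (g * a * g⁻¹) (g * c * g⁻¹) = Γ.b a c := by
  rw [b, b, conj_mul, h.q_conj, h.q_conj, h.q_conj]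

theorem B_cj (g u : G) : Γ.B (MulAut.conj g u) ↔ Γ.B u := h.conj_iff g

theorem Q_cj (g : G) (hu : Γ.B u) : Γ.Q (MulAut.conj g u) = (Γ.Q u) ⋆⋆ g := h.Q_conj g hu

theorem b_cj (g a c : G) : Γ.b (MulAut.conj g a) (MulAut.conj g c) = Γ.b a c := h.b_conj g a c

theorem sg_conj (hU : Γ.Sg U) (g : G) : Γ.Sg (U ⋆⋆ g) := by
  refine (cj_all _).2 fun u hu u1 => ?_
  have := hU u hu fun e => u1 (by rw [e, map_one])
  rw [h.B_cj, h.Q_cj g this.1]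
  exact ⟨this.1, map_mono this.2⟩

theorem QU_conj (hU : Γ.Sg U) (g : G) : Γ.QU (U ⋆⋆ g) = (Γ.QU U) ⋆⋆ g := by
  ext x
  obtain ⟨x, rfl⟩ := (MulAut.conj g).surjective x
  rw [cj_mem, mem_QU, mem_QU, cj_all]
  refine forall₂_congr fun u hu => ?_
  rw [ne_eq, ne_eq, EmbeddingLike.map_eq_one_iff]
  refine forall_congr' fun u1 => ?_
  rw [h.Q_cj g (hU u hu u1).1, cj_mem]

/-- `MonoidHom.map_closure`, `QU_conj`, `conj_iff`, `qconj_iff`. -/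
theorem tri_conj (hU : Γ.Sg U) (g : G) : Γ.tri (U ⋆⋆ g) = (Γ.tri U) ⋆⋆ g := by
  rw [tri, tri, MonoidHom.map_closure, h.QU_conj hU]
  congr 1
  ext x
  obtain ⟨x, rfl⟩ := (MulAut.conj g).surjective x
  rw [show ((MulAut.conj g).toMonoidHom : G → G) = MulAut.conj g from rfl,
    (MulAut.conj g).injective.mem_set_image, Set.mem_setOf_eq, Set.mem_setOf_eq, cj_mem, h.B_cj, cj_all]
  refine and_congr_right fun _ => and_congr_right fun hx => forall₂_congr fun d _ => ?_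
  rw [h.Q_cj g hx, cj_mem, h.B_cj, EmbeddingLike.map_eq_one_iff]

theorem pure_conj (hV : Γ.Pure V) (g : G) : Γ.Pure (V ⋆⋆ g) := by
  refine (cj_all _).2 fun x hx => ?_
  rw [h.B_cj, ← map_mul, (hV x hx).1, map_one]
  exact ⟨rfl, (hV x hx).2⟩

theorem tab_conj {d : Fin 3 → G} {e : G} (hU : Γ.Sg U) (ht : Γ.Tab U d e) (g : G) :
    Γ.Tab (U ⋆⋆ g) (fun i => g * d i * g⁻¹) (g * e * g⁻¹) := by
  change Γ.Tab (U ⋆⋆ g) (fun i => MulAut.conj g (d i)) (MulAut.conj g e)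
  refine ⟨by rw [ht.he, map_mul, map_mul], fun i => ?_, ?_, fun i => (cj_all _).2 fun u hu => ?_,
    fun i => (cj_all _).2 fun u hu => ?_, (cj_all _).2 fun u hu => ?_⟩
  · rw [h.QU_conj hU, cj_mem]
    exact ht.mem i
  · rw [h.QU_conj hU]
    refine (cj_all _).2 fun x hx => ?_
    rcases ht.cov x hx with m | ⟨i, u, hu, rfl⟩ | ⟨i, u, hu, rfl⟩ | ⟨u, hu, rfl⟩
    · exact .inl ((cj_mem _).2 m)
    · exact .inr (.inl ⟨i, _, (cj_mem _).2 hu, map_mul _ _ _⟩)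
    · exact .inr (.inr (.inl ⟨i, _, (cj_mem _).2 hu, by rw [map_mul, map_mul]⟩))
    · exact .inr (.inr (.inr ⟨_, (cj_mem _).2 hu, map_mul _ _ _⟩))
  · rw [← map_mul, h.B_cj, ne_eq, EmbeddingLike.map_eq_one_iff]
    exact ht.nB i u hu
  · rw [← map_mul, ← map_mul, h.B_cj, h.Q_cj g (ht.c1 i u hu).1]
    simp only [cj_mem]
    exact ht.c1 i u hu
  · rw [← map_mul, h.B_cj, h.Q_cj g (ht.c0 u hu).1]
    simp only [cj_mem]
    exact ht.c0 u hu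

/-- Transport: write every element as `g * x * g⁻¹` (`(MulAut.conj g).surjective`), use `b_conj`, `Core.card_map_conj`,
and `g * x * g⁻¹ ∈ 𝐂(A ⋆⋆ g) ↔ x ∈ 𝐂(A)`. -/
theorem frm_conj (hA : Γ.Frm A) (g : G) : Γ.Frm (A ⋆⋆ g) := by
  refine ⟨(cj_all _).2 fun a ha => by rw [← map_mul, hA.sq a ha, map_one], (cj_card _ _).trans hA.card,
    (cj_all _).2 fun a ha => (cj_all _).2 fun a' ha' => (cj_all _).2 fun c hc => ?_, (cj_all _).2 fun a ha e => ?_,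
    by rw [cj_cen, cj_cen]; exact map_mono hA.cc, ?_, by rw [cj_cen, cj_card, hA.cardO]⟩
  · rw [← map_mul, h.b_cj, h.b_cj, h.b_cj, hA.b_mul a ha a' ha' c hc]
  · rw [hA.nondeg a ha fun c hc => (h.b_cj g a c).symm.trans (e _ ((cj_mem _).2 hc)), map_one]
  · rw [cj_cen]
    exact (cj_all _).2 fun o ho => by rw [← map_mul, cj_mem]; exact hA.sqO o ho

theorem at_conj (hu : Γ.B u) (hA : Γ.At A u) (g : G) : Γ.At (A ⋆⋆ g) (g * u * g⁻¹) := by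
  change Γ.At (A ⋆⋆ g) (MulAut.conj g u)
  refine ⟨(cj_all _).2 fun a ha => ?_, ?_, ?_, (cj_all _).2 fun a ha n => (cj_all _).2 fun c hc m => ?_, ?_,
    (cj_all _).2 fun v hv Bv n => ?_⟩
  · rw [h.Q_cj g hu, cj_mem, h.b_cj, hA.memQ a ha]
  · rw [h.Q_cj g hu]
    exact (map_mono hA.norm).trans (le_normalizer_map _)
  · rw [h.Q_cj g hu, ← cj_inf, cj_cen, cj_cen]
    exact map_mono hA.cen
  · rw [h.Q_cj g hu, cj_mem] at n m
    obtain ⟨p, hp, e⟩ := hA.comm a ha n c hc m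
    refine ⟨MulAut.conj g p, by rwa [h.Q_cj g hu, cj_mem], ?_⟩
    rw [cj_comm, ← map_mul]
    exact e.imp (congrArg _) (congrArg _)
  · rw [cj_cen]
    refine (cj_all _).2 fun t ht e => ?_
    obtain ⟨a, ha, m⟩ := hA.key t ht fun o ho => by
      have := e _ ((cj_mem _).2 ho)
      rwa [cj_comm, h.Q_cj g hu, cj_mem] at this
    exact ⟨_, (cj_mem _).2 ha, by rwa [← map_mul, h.Q_cj g hu, cj_mem]⟩
  · rw [h.B_cj] at Bv
    rw [h.Q_cj g hu, cj_mem] at n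
    rw [h.Q_cj g hu, h.Q_cj g Bv, ← cj_inf]
    exact map_mono (hA.disj v hv Bv n)

theorem oc_conj (hu : Γ.B u) (hA : Γ.Oc A u) (g : G) : Γ.Oc (A ⋆⋆ g) (g * u * g⁻¹) := by
  change Γ.Oc (A ⋆⋆ g) (MulAut.conj g u)
  have k1 : ∀ {x}, MulAut.conj g x * MulAut.conj g x = 1 → x * x = 1 := fun e => by
    rwa [← map_mul, EmbeddingLike.map_eq_one_iff] at e
  have k2 : ∀ {x y}, MulAut.conj g x * MulAut.conj g y = MulAut.conj g y * MulAut.conj g x → x * y = y * x := fun e =>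
    (MulAut.conj g).injective (by rwa [map_mul, map_mul])
  have k3 : ∀ {w x y}, Γ.B w → ⁅x, y⁆ ∈ Γ.Q w → ⁅MulAut.conj g x, MulAut.conj g y⁆ ∈ Γ.Q (MulAut.conj g w) :=
    fun Bw m => by rwa [cj_comm, h.Q_cj g Bw, cj_mem]
  have k4 : ∀ {x y}, x ≠ y → MulAut.conj g x ≠ MulAut.conj g y := fun n => (MulAut.conj g).injective.ne n
  constructor
  all_goals rw [h.Q_cj g hu, cj_cen, ← cj_inf]
  · refine (cj_all _).2 fun t ht t2 n => (cj_all _).2 fun c hc e => ?_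
    rw [h.B_cj, EmbeddingLike.map_eq_one_iff]
    refine hA.b1 t ht (k1 t2) (fun m => n ((cj_mem _).2 m)) c hc fun o ho => ?_
    rw [← h.b_cj g, ← cj_comm]
    exact e _ ((cj_mem _).2 ho)
  · refine (cj_all _).2 fun t ht t2 => (cj_all _).2 fun o ho => ?_
    rw [cj_comm, h.B_cj, EmbeddingLike.map_eq_one_iff]
    exact hA.b2 t ht (k1 t2) o ho
  · refine (cj_all _).2 fun t₁ h1 => (cj_all _).2 fun t₂ h2 => (cj_all _).2 fun t₃ h3 q1 q2 q3 c1 c2 c3 => ?_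
    obtain ⟨w, hw, Bw, m, n, e⟩ := hA.b3 t₁ h1 t₂ h2 t₃ h3 (k1 q1) (k1 q2) (k1 q3) (k2 c1) (k2 c2) (k2 c3)
    exact ⟨_, (cj_mem _).2 hw, h.conj g Bw, (cj_mem _).2 m, k4 n, (cj_all _).2 fun o ho =>
      ⟨k3 Bw (e o ho).1, k3 Bw (e o ho).2.1, k3 Bw (e o ho).2.2⟩⟩
  · refine (cj_all _).2 fun t₁ h1 => (cj_all _).2 fun t₂ h2 => (cj_all _).2 fun t₃ h3 q1 q2 q3 c1 c2 c3 => ?_
    obtain ⟨w, hw, Bw, m, n, e, e'⟩ := hA.b4 t₁ h1 t₂ h2 t₃ h3 (k1 q1) (k1 q2) (k1 q3) (k2 c1) (k2 c2) (k2 c3)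
    exact ⟨_, (cj_mem _).2 hw, h.conj g Bw, (cj_mem _).2 m, k4 n, (cj_all _).2 fun o ho =>
      ⟨k3 Bw (e o ho).1, k3 Bw (e o ho).2⟩, (cj_all _).2 fun o ho => k3 Bw (e' o ho)⟩
  · refine (cj_all _).2 fun t₁ h1 => (cj_all _).2 fun t₂ h2 q1 q2 c1 => ?_
    obtain ⟨w, hw, w', hw', Bw, Bw', m, m', n1, n2, n3, n4, e⟩ := hA.b5 t₁ h1 t₂ h2 (k1 q1) (k1 q2) (k2 c1)
    exact ⟨_, (cj_mem _).2 hw, _, (cj_mem _).2 hw', h.conj g Bw, h.conj g Bw', (cj_mem _).2 m, (cj_mem _).2 m', k4 n1,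
      k4 n2, k4 n3, by rw [← map_mul]; exact k4 n4, (cj_all _).2 fun o ho =>
      ⟨k3 Bw (e o ho).1, k3 Bw (e o ho).2.1, k3 Bw' (e o ho).2.2.1, k3 Bw' (e o ho).2.2.2⟩⟩

variable [Finite G]

/-- `Lg.mem_conj` with `v = g u g⁻¹` (`tr`), `Q_conj`. -/
theorem sym (hu : Γ.B u) (hv : Γ.B v) (m : v ∈ Γ.Q u) : u ∈ Γ.Q v := by
  obtain ⟨g, rfl⟩ := h.tr hu hv
  rw [h.Q_conj g hu]
  exact (h.lg hu).mem_conj m

omit [Finite G] in
theorem ord (hu : Γ.B u) : orderOf u = 2 := (h.lg hu).ord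

omit [Finite G] in
theorem exists_cj (hu : Γ.B u) (hv : Γ.B v) (m : v ∈ Γ.Q u) (ne : v ≠ u) : ∃ s ∈ Γ.Q u, s * v * s⁻¹ = u * v :=
  (h.lg hu).exists_conj m ((h.lg hu).not_mem_centralizer m (h.ord hv) ne)

/-- `v ∉ C(Q u)` (`Sy.not_mem_centralizer`), so `s v s⁻¹ = u v` for some `s ∈ Q u` (`Sy.exists_conj`). -/
theorem mulB (hu : Γ.B u) (hv : Γ.B v) (m : v ∈ Γ.Q u) (ne : v ≠ u) : Γ.B (u * v) := by
  obtain ⟨s, -, e⟩ := h.exists_cj hu hv m ne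
  exact e ▸ h.conj s hv

/-- With `s` as in `mulB`: `s x s⁻¹ ∈ Q (u v)` is `x` or `u x` (`Sy.conj_eq_or`), and `u ∈ Q (u v)` by `sym`. -/
theorem inf (hu : Γ.B u) (hv : Γ.B v) (m : v ∈ Γ.Q u) (ne : v ≠ u) (h1 : x ∈ Γ.Q u) (h2 : x ∈ Γ.Q v) :
    x ∈ Γ.Q (u * v) := by
  obtain ⟨s, hs, e⟩ := h.exists_cj hu hv m ne
  have k := h.qconj s hv h2
  rw [e] at k
  rcases (h.lg hu).conj_eq_or hs h1 with e' | e'
  · rwa [e'] at k
  · rw [e'] at k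
    exact (mul_mem_cancel_left (h.sym hu (h.mulB hu hv m ne) (mul_mem (h.self_mem hu) m))).1 k

/-- `x, y ∈ Q u`: they commute or `⁅x, y⁆ = u`. -/
theorem comm_or (hu : Γ.B u) (hx : x ∈ Γ.Q u) (hy : y ∈ Γ.Q u) : ⁅x, y⁆ = 1 ∨ ⁅x, y⁆ = u := (h.lg hu).mem_iff.1 ((h.lg hu).commutator_mem hx hy)

theorem sq_or (hu : Γ.B u) (hx : x ∈ Γ.Q u) : x * x = 1 ∨ x * x = u := by
  rw [← pow_two]
  exact (h.lg hu).mem_iff.1 ((h.lg hu).sq_mem x hx)

/-- `Sy.exists_conj_of_not_mem`. -/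
theorem sep (hu : Γ.B u) (hK : K ≤ Γ.Q u) (m : u ∈ K) (hx : x ∈ Γ.Q u) (n : x ∉ K) :
    ∃ g ∈ Γ.Q u, g ∈ 𝐂(K) ∧ g * x * g⁻¹ = u * x := by
  obtain ⟨g, hg, e⟩ := (h.lg hu).exists_conj_of_not_mem (h.es hu) hK m hx n
  exact ⟨g, hg.1, hg.2, e⟩

/-- The right side is closed under products (`mulB`, `inf`; `u * u = 1`) and inverses. -/
theorem mem_rad : u ∈ Γ.rad K ↔ u = 1 ∨ Γ.B u ∧ u ∈ K ∧ K ≤ Γ.Q u := by
  constructor
  · intro hu
    induction hu using closure_induction with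
    | mem x hx => exact .inr hx
    | one => exact .inl rfl
    | mul x y _ _ hx hy =>
      rcases hx with rfl | hx
      · rwa [one_mul]
      rcases hy with rfl | hy
      · rw [mul_one]
        exact .inr hx
      by_cases e : y = x
      · exact .inl (by rw [e, h.sq hx.1])
      · exact .inr ⟨h.mulB hx.1 hy.1 (hx.2.2 hy.2.1) e, K.mul_mem hx.2.1 hy.2.1, fun k hk =>
          h.inf hx.1 hy.1 (hx.2.2 hy.2.1) e (hx.2.2 hk) (hy.2.2 hk)⟩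
    | inv x _ hx =>
      rcases hx with rfl | hx
      · exact .inl inv_one
      · rw [(h.lg hx.1).inv_eq]
        exact .inr hx
  · rintro (rfl | hu)
    · exact one_mem _
    · exact subset_closure hu

theorem norm_rad (hg : g ∈ 𝐍(K)) : g ∈ 𝐍(Γ.rad K) := by
  refine Core.mem_normalizer_of_map_conj_le fun x => ?_
  rintro ⟨x, hx, rfl⟩
  rcases h.mem_rad.1 hx with rfl | hx
  · rw [map_one]
    exact one_mem _
  · refine h.mem_rad.2 (.inr ⟨h.conj g hx.1, (mem_normalizer_iff.1 hg x).1 hx.2.1, ?_⟩)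
    refine le_of_eq_of_le (Core.map_conj_eq_iff.2 hg).symm ((map_mono hx.2.2).trans (h.Q_conj g hx.1).ge)

/-- `K = closure X ≤ Q u` for `u ∈ X`, so `X ⊆ rad K`, so `K ≤ rad K`. -/
theorem sg_closure {X : Set G} (h1 : ∀ u ∈ X, Γ.B u) (h2 : ∀ u ∈ X, ∀ v ∈ X, v ∈ Γ.Q u) : Γ.Sg (closure X) := by
  have k : closure X ≤ Γ.rad (closure X) := (closure_le _).2 fun u hu =>
    h.mem_rad.2 (.inr ⟨h1 u hu, subset_closure hu, (closure_le _).2 fun v hv => h2 u hu v hv⟩)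
  intro u hu u1
  have := (h.mem_rad.1 (k hu)).resolve_left u1
  exact ⟨this.1, this.2.2⟩

theorem sg_sq (hU : Γ.Sg U) (hx : x ∈ U) : x * x = 1 := by
  by_cases e : x = 1
  · rw [e, mul_one]
  · exact h.sq (hU x hx e).1

/-- two distinct `u, v ∈ U \ {1}`; `x * x ∈ {1, u} ∩ {1, v}`. -/
theorem QU_sq (hU : Γ.Sg U) (h4 : 4 ≤ Nat.card U) (hx : x ∈ Γ.QU U) : x * x = 1 := by
  obtain ⟨a, ha, a1⟩ : ∃ a ∈ U, a ≠ 1 := by
    by_contra! k
    rw [(eq_bot_iff_forall U).2 k, card_bot] at h4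
    omega
  obtain ⟨c, hc, c1⟩ : ∃ c ∈ U, c ∉ zpowers a := by
    by_contra! k
    have := card_le_of_le (show U ≤ zpowers a from k)
    rw [(h.lg (hU a ha a1).1).card_zpowers] at this
    omega
  have c2 : c ≠ 1 := fun e => c1 (e ▸ one_mem _)
  rcases h.sq_or (hU a ha a1).1 (Γ.mem_QU.1 hx a ha a1) with e | e
  · exact e
  rcases h.sq_or (hU c hc c2).1 (Γ.mem_QU.1 hx c hc c2) with e' | e'
  · exact e'
  exact absurd (e'.symm.trans e ▸ mem_zpowers a) c1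

/-- Put `P` and `Q z` in Sylow 2-subgroups, conjugate, `Lg.le_centralizer_of_isPGroup`. -/
theorem exists_cen (hz : Γ.B z) (hP : IsPGroup 2 P) : ∃ u, Γ.B u ∧ P ≤ centralizer {u} := by
  obtain ⟨S, hS⟩ := (h.lg hz).isPGroup.exists_le_sylow
  obtain ⟨T, hT⟩ := hP.exists_le_sylow
  obtain ⟨g, rfl⟩ := MulAction.exists_smul_eq G S T
  refine ⟨_, h.conj g hz, hT.trans (le_normalizer.trans ((h.lg (h.conj g hz)).le_centralizer_of_isPGroup
    (g • S).isPGroup' ?_))⟩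
  rw [h.Q_conj g hz]
  exact map_mono hS

/-- `|Q ∩ C(K)| |K| = 2 |Q|` for `u ∈ K ≤ Q u` (copy `M5.card_cen` from Lib/M5/Base: `card_centralizer_mul`). -/
theorem card_cen (hu : Γ.B u) (hK : K ≤ Γ.Q u) (m : u ∈ K) : Nat.card ↥(Γ.Q u ⊓ 𝐂(K)) * Nat.card K = 2 ^ 26 := by
  have h1 := card_centralizer_mul (h.es hu) (K.subgroupOf (Γ.Q u))
  rwa [← card_subtype, ← card_subtype _ (_ ⊔ _), Core.map_subtype_centralizer, Subgroup.map_sup,
    (h.lg hu).center_eq (h.es hu), subgroupOf_map_subtype, inf_eq_left.2 hK,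
    sup_eq_left.2 ((zpowers_le (G := G)).2 m), h.cardQ hu] at h1

/-- `K = E ⊔ ⟨u⟩` is elementary abelian, `K ≤ Q ∩ C(K)`, so `|K|² ≤ 2 ^ 26`. -/
theorem card_ea (hu : Γ.B u) (hE : E ≤ Γ.Q u) (h2 : ∀ x ∈ E, x * x = 1) : Nat.card E ≤ 2 ^ 13 := by
  have hc : ∀ x ∈ E, ∀ y ∈ E, x * y = y * x := fun x hx y hy =>
    calc x * y = (x * y)⁻¹ := (inv_eq_of_mul_eq_one_left (h2 _ (E.mul_mem hx hy))).symm
      _ = _ := by rw [_root_.mul_inv_rev, inv_eq_of_mul_eq_one_left (h2 x hx), inv_eq_of_mul_eq_one_left (h2 y hy)]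
  have hK : E ⊔ zpowers u ≤ Γ.Q u := sup_le hE (h.lg hu).zpowers_le
  have hE' : E ≤ 𝐂(E ⊔ zpowers u) := by
    rw [← le_centralizer_iff]
    exact sup_le (fun x hx y hy => hc y hy x hx) ((zpowers_le (G := G)).2 fun y hy => h.comm_of_mem hu (hE hy))
  have k := card_le_of_le (show E ⊔ zpowers u ≤ Γ.Q u ⊓ 𝐂(E ⊔ zpowers u) from le_inf hK
    (sup_le hE' ((zpowers_le (G := G)).2 fun y hy => h.comm_of_mem hu (hK hy))))
  have k1 := h.card_cen hu hK (mem_sup_right (mem_zpowers u))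
  have k2 := card_le_of_le (show E ≤ E ⊔ zpowers u from le_sup_left)
  nlinarith

/-- `v ∈ C(C(u)) ≤ C(Q u) = ⟨u⟩` (`Lg.centralizer_eq`). -/
theorem eq_of_cen (hu : Γ.B u) (hv : Γ.B v) (e : centralizer ({u} : Set G) = centralizer {v}) : u = v := by
  have k : v ∈ 𝐂(Γ.Q u) := fun x hx => mem_centralizer_singleton_iff.1 (e ▸ (h.lg hu).cent hx)
  exact ((h.lg hu).eq_of_mem_centralizer k (h.ord hv)).symm

theorem QU_comm (hU : Γ.Sg U) (h4 : 4 ≤ Nat.card U) (hx : x ∈ Γ.QU U) (hy : y ∈ Γ.QU U) : x * y = y * x :=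
  calc x * y = (x * y)⁻¹ := (inv_eq_of_mul_eq_one_left (h.QU_sq hU h4 (mul_mem hx hy))).symm
    _ = _ := by
      rw [_root_.mul_inv_rev, inv_eq_of_mul_eq_one_left (h.QU_sq hU h4 hx), inv_eq_of_mul_eq_one_left (h.QU_sq hU h4 hy)]

theorem le_Q_of_QU (hU : Γ.Sg U) (hx : x ∈ Γ.QU U) (Bx : Γ.B x) : U ≤ Γ.Q x := fun u hu => by
  by_cases e : u = 1
  · rw [e]
    exact one_mem _
  · exact h.sym (hU u hu e).1 Bx (Γ.mem_QU.1 hx u hu e)

end Ax0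

/-! ### The table -/

namespace Tab

variable [Finite G] {d : Fin 3 → G} {e : G} (ht : Γ.Tab U d e)
include ht

omit [Finite G] in
theorem mem_e : e ∈ Γ.QU U := ht.he ▸ mul_mem (mul_mem (ht.mem 0) (ht.mem 1)) (ht.mem 2)

omit [Finite G] in
theorem nB' (i : Fin 3) : ¬ Γ.B (d i) ∧ d i ≠ 1 := by simpa using ht.nB i 1 (one_mem _)

/-- `QU U` is covered by eight cosets of `U`. -/
theorem card_le (h16 : Nat.card U = 16) : Nat.card (Γ.QU U) ≤ 128 := by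
  classical
  have := Fintype.ofFinite G
  let f : U ⊕ (Fin 3 × U) ⊕ (Fin 3 × U) ⊕ U → G :=
    Sum.elim (↑) (Sum.elim (fun p => d p.1 * p.2) (Sum.elim (fun p => d p.1 * e * p.2) fun p => e * p))
  have k : (Γ.QU U : Set G) ⊆ Set.range f := fun x hx => by
    rcases ht.cov x hx with m | ⟨i, u, hu, rfl⟩ | ⟨i, u, hu, rfl⟩ | ⟨u, hu, rfl⟩
    · exact ⟨.inl ⟨x, m⟩, rfl⟩
    · exact ⟨.inr (.inl (i, ⟨u, hu⟩)), rfl⟩
    · exact ⟨.inr (.inr (.inl (i, ⟨u, hu⟩))), rfl⟩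
    · exact ⟨.inr (.inr (.inr ⟨u, hu⟩)), rfl⟩
  have k1 := (Nat.card_mono (Set.toFinite _) k).trans (Finite.card_range_le f)
  simp only [Nat.card_sum, Nat.card_prod, h16, Nat.card_eq_fintype_card (α := Fin 3), Fintype.card_fin] at k1
  exact k1

/-- The generating set of `tri U` is the coset `e U`: for `x ∈ U` (`x ≠ 1`) `d 0 ∈ Q x` violates the condition, `d i * u`
is not in `B`, for `x = d i * e * u` take `d j`, `j ≠ i`; for `x = e * u` an element `d j * u'` of `Q x` gives `d j ∈ Q x`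
(`U ≤ Q x` by `sym`). `QU U` is elementary abelian (`QU_sq`), so the closure of `e U` is `U ∪ e U`. -/
theorem mem_tri (h : Γ.Ax0) (hU : Γ.Sg U) (h16 : Nat.card U = 16) : x ∈ Γ.tri U ↔ x ∈ U ∨ ∃ u ∈ U, x = e * u := by
  have e2 := h.QU_sq hU (by omega) ht.mem_e
  have ec : ∀ u ∈ U, u * e = e * u := fun u hu => h.QU_comm hU (by omega) (hU.le_QU hu) ht.mem_e
  have gen : ∀ u ∈ U, e * u ∈ Γ.tri U := fun u hu => subset_closure ⟨mul_mem ht.mem_e (hU.le_QU hu), (ht.c0 u hu).1,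
    fun c hc m => by
      rcases ht.cov c hc with k | ⟨i, v, hv, rfl⟩ | ⟨i, v, hv, rfl⟩ | ⟨v, hv, rfl⟩
      · exact (em _).imp id fun n => (hU c k n).1
      · exact absurd ((mul_mem_cancel_right (h.le_Q_of_QU hU (mul_mem ht.mem_e (hU.le_QU hu)) (ht.c0 u hu).1 hv)).1 m)
          ((ht.c0 u hu).2 i)
      · exact .inr (ht.c1 i v hv).1
      · exact .inr (ht.c0 v hv).1⟩
  constructor
  · intro hx
    induction hx using closure_induction with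
    | mem x hx =>
      obtain ⟨m, Bx, k⟩ := hx
      have k' : ∀ i, d i ∉ Γ.Q x := fun i n => (k _ (ht.mem i) n).elim (ht.nB' i).2 (ht.nB' i).1
      rcases ht.cov x m with m' | ⟨i, v, hv, rfl⟩ | ⟨i, v, hv, rfl⟩ | m'
      · exact .inl m'
      · exact absurd Bx (ht.nB i v hv).1
      · obtain ⟨j, hj⟩ := exists_ne i
        exact absurd (((ht.c1 i v hv).2 j).2 hj) (k' j)
      · exact .inr m'
    | one => exact .inl (one_mem _)
    | mul x y _ _ hx hy =>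
      rcases hx with hx | ⟨u, hu, rfl⟩ <;> rcases hy with hy | ⟨v, hv, rfl⟩
      · exact .inl (mul_mem hx hy)
      · exact .inr ⟨x * v, mul_mem hx hv, by rw [← mul_assoc, ec x hx, mul_assoc]⟩
      · exact .inr ⟨u * y, mul_mem hu hy, mul_assoc _ _ _⟩
      · rw [← ec u hu, mul_assoc, ← mul_assoc e, e2, one_mul]
        exact .inl (mul_mem hu hv)
    | inv x _ hx =>
      rcases hx with hx | ⟨u, hu, rfl⟩
      · exact .inl (inv_mem hx)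
      · rw [inv_eq_of_mul_eq_one_left (h.QU_sq hU (by omega) (mul_mem ht.mem_e (hU.le_QU hu)))]
        exact .inr ⟨u, hu, rfl⟩
  · rintro (hx | ⟨u, hu, rfl⟩)
    · have := mul_mem (gen 1 (one_mem _)) (gen x hx)
      rwa [mul_one, ← mul_assoc, e2, one_mul] at this
    · exact gen u hu

/-- `z, y ∉ U` (else `y ∈ Q z` by definition of `QU` / `sym`), not in a coset `d i U`; not in the same coset (`U ≤ Q z`);
if one is in `e U` and the other in `d i e U` then `z y ∈ d i U` is not in `B`.  So `z ∈ d i e U`, `y ∈ d j e U`, `i ≠ j`;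
take `d k` for the third index `k`. -/
theorem pair (h : Γ.Ax0) (hU : Γ.Sg U) (h16 : Nat.card U = 16) (hz : z ∈ Γ.QU U) (hy : y ∈ Γ.QU U) (Bz : Γ.B z)
    (By : Γ.B y) (Bzy : Γ.B (z * y)) (n : y ∉ Γ.Q z) : ∃ c ∈ Γ.QU U, c ∈ Γ.Q z ∧ c ∈ Γ.Q y ∧ c ≠ 1 ∧ ¬ Γ.B c := by
  have e2 := h.QU_sq hU (by omega) ht.mem_e
  have ec : ∀ u ∈ Γ.QU U, u * e = e * u := fun u hu => h.QU_comm hU (by omega) hu ht.mem_e
  have lz := h.le_Q_of_QU hU hz Bz
  have k : ∀ a, ∀ u ∈ U, ∀ v ∈ U, z = a * u → y ≠ a * v := fun a u hu v hv e1 e2 =>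
    n (by
      rw [show y = z * (u⁻¹ * v) by rw [e1, e2]; group]
      exact mul_mem (h.self_mem Bz) (lz (mul_mem (inv_mem hu) hv)))
  rcases ht.cov z hz with m | ⟨i, u, hu, rfl⟩ | ⟨i, u, hu, e1⟩ | ⟨u, hu, e1⟩
  · exact absurd (Γ.mem_QU.1 hy z m (h.ne_one Bz)) n
  · exact absurd Bz (ht.nB i u hu).1
  · rcases ht.cov y hy with m | ⟨j, v, hv, rfl⟩ | ⟨j, v, hv, e3⟩ | ⟨v, hv, e3⟩
    · exact absurd (lz m) n
    · exact absurd By (ht.nB j v hv).1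
    · have ne : i ≠ j := fun e' => k _ u hu v hv e1 (e' ▸ e3)
      obtain ⟨l, l1, l2⟩ : ∃ l, l ≠ i ∧ l ≠ j := (by decide : ∀ i j : Fin 3, ∃ l, l ≠ i ∧ l ≠ j) i j
      exact ⟨d l, ht.mem l, e1 ▸ ((ht.c1 i u hu).2 l).2 l1, e3 ▸ ((ht.c1 j v hv).2 l).2 l2, (ht.nB' l).2, (ht.nB' l).1⟩
    · rw [e1, e3, mul_assoc (d i), ← ec u (hU.le_QU hu), mul_assoc, mul_assoc, ← mul_assoc e, e2, one_mul] at Bzy
      exact absurd Bzy (ht.nB i _ (mul_mem hu hv)).1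
  · rcases ht.cov y hy with m | ⟨j, v, hv, rfl⟩ | ⟨j, v, hv, e3⟩ | ⟨v, hv, e3⟩
    · exact absurd (lz m) n
    · exact absurd By (ht.nB j v hv).1
    · rw [h.QU_comm hU (by omega) hz hy, e1, e3, mul_assoc (d j), ← ec v (hU.le_QU hv), mul_assoc, mul_assoc,
        ← mul_assoc e, e2, one_mul] at Bzy
      exact absurd Bzy (ht.nB j _ (mul_mem hv hu)).1
    · exact absurd e3 (k _ u hu v hv e1)

end Tab

end Dat

end Cfsg.Lib.ML
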