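import Cfsg.Agent.Lib.Extraspecial.Structure
import Cfsg.Agent.Lib.Coprime.Nilpotent
import Cfsg.Prelude.Def_CaseTheorems

/-!
# Maximal 2-local subgroups of the Monster: the abstract geometry (helper10)

`B u`: `u` is a 2-central involution with large extraspecial group `Q u`; `Ark A`: `A` is an orthogonal `2 ^ 10`.
-/

set_option autoImplicit false

namespace Cfsg.Lib.ML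

open Subgroup Cfsg.Lib.ES
open scoped commutatorElement

/-- The data. -/
structure Dat (G : Type*) [Group G] where
  /-- the class of 2-central involutions -/
  B : G → Prop
  /-- the extraspecial group of a 2-central involution -/
  Q : G → Subgroup G
  /-- the orthogonal `2 ^ 10` subgroups -/
  Ark : Subgroup G → Prop

/-- centralizer of a subgroup -/
scoped notation "𝐂(" A ")" => Subgroup.centralizer (SetLike.coe A)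
/-- normalizer of a subgroup -/
scoped notation "𝐍(" A ")" => Subgroup.normalizer (SetLike.coe A)
/-- conjugate of a subgroup -/
scoped notation:max A " ⋆⋆ " g:max => Subgroup.map (MulEquiv.toMonoidHom (MulAut.conj g)) A

variable {G : Type*} [Group G]

namespace Dat

variable (Γ : Dat G)

open Classical in
/-- the quadratic form (on an ark) -/
noncomputable def q (a : G) : ZMod 2 := if a = 1 ∨ Γ.B a then 0 else 1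

/-- its polar form -/
noncomputable def b (a c : G) : ZMod 2 := Γ.q (a * c) + Γ.q a + Γ.q c

/-- `t ∈ Q u · A` -/
def S (A : Subgroup G) (u t : G) : Prop := ∃ a ∈ A, t * a ∈ Γ.Q u

/-- singular subgroups -/
def Sg (U : Subgroup G) : Prop := ∀ u ∈ U, u ≠ 1 → Γ.B u ∧ U ≤ Γ.Q u

/-- the intersection of the `Q u`, `1 ≠ u ∈ U` -/
def QU (U : Subgroup G) : Subgroup G := ⨅ u ∈ U, ⨅ _ : u ≠ 1, Γ.Q u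

/-- elementary abelian without 2-central involutions -/
def Pure (V : Subgroup G) : Prop := ∀ x ∈ V, x * x = 1 ∧ ¬ Γ.B x

/-- the singular radical -/
def rad (K : Subgroup G) : Subgroup G := closure {u | Γ.B u ∧ u ∈ K ∧ K ≤ Γ.Q u}

/-- the singular `2 ^ 5` of trio type over a singular `2 ^ 4` -/
def tri (U : Subgroup G) : Subgroup G :=
  closure {x | x ∈ Γ.QU U ∧ Γ.B x ∧ ∀ d ∈ Γ.QU U, d ∈ Γ.Q x → d = 1 ∨ Γ.B d}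

/-- the orthogonal complement of `V` in the ark `A` -/
def perp (A V : Subgroup G) : Subgroup G := closure {a | a ∈ A ∧ ∀ v ∈ V, Γ.b a v = 0}

/-- the orthogonal complement of `[t, C(A)]` in the ark `A` -/
def U (A : Subgroup G) (t : G) : Subgroup G := closure {a | a ∈ A ∧ ∀ o ∈ 𝐂(A), Γ.b a ⁅t, o⁆ = 0}

/-- The eight cosets of a singular `2 ^ 4` in its `QU`. -/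
structure Tab (U : Subgroup G) (d : Fin 3 → G) (e : G) : Prop where
  he : e = d 0 * d 1 * d 2
  mem : ∀ i, d i ∈ Γ.QU U
  cov : ∀ x ∈ Γ.QU U, x ∈ U ∨ (∃ i, ∃ u ∈ U, x = d i * u) ∨ (∃ i, ∃ u ∈ U, x = d i * e * u) ∨ ∃ u ∈ U, x = e * u
  nB : ∀ i, ∀ u ∈ U, ¬ Γ.B (d i * u) ∧ d i * u ≠ 1
  c1 : ∀ i, ∀ u ∈ U, Γ.B (d i * e * u) ∧ ∀ j, d j ∈ Γ.Q (d i * e * u) ↔ j ≠ i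
  c0 : ∀ u ∈ U, Γ.B (e * u) ∧ ∀ j, d j ∉ Γ.Q (e * u)

/-- Facts on an ark. -/
structure Frm (A : Subgroup G) : Prop where
  sq : ∀ a ∈ A, a * a = 1
  card : Nat.card A = 2 ^ 10
  b_mul : ∀ a ∈ A, ∀ a' ∈ A, ∀ c ∈ A, Γ.b (a * a') c = Γ.b a c + Γ.b a' c
  nondeg : ∀ a ∈ A, (∀ c ∈ A, Γ.b a c = 0) → a = 1
  cc : 𝐂(𝐂(A)) ≤ A
  sqO : ∀ o ∈ 𝐂(A), o * o ∈ A
  cardO : Nat.card 𝐂(A) = 2 ^ 26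

/-- Facts on an ark and a singular point. -/
structure At (A : Subgroup G) (u : G) : Prop where
  memQ : ∀ a ∈ A, a ∈ Γ.Q u ↔ Γ.b u a = 0
  norm : Γ.Q u ≤ 𝐍(A)
  cen : 𝐂(A ⊓ Γ.Q u) ≤ 𝐂(A)
  comm : ∀ a ∈ A, a ∉ Γ.Q u → ∀ c ∈ A, c ∈ Γ.Q u → ∃ p ∈ Γ.Q u, ⁅p, a⁆ = c ∨ ⁅p, a⁆ = u * c
  key : ∀ t ∈ 𝐂(A), (∀ o ∈ 𝐂(A), ⁅t, o⁆ ∈ Γ.Q u) → Γ.S A u t
  disj : ∀ v ∈ A, Γ.B v → v ∉ Γ.Q u → Γ.Q u ⊓ Γ.Q v ≤ A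

/-- The octonion facts. -/
structure Oc (A : Subgroup G) (u : G) : Prop where
  b1 : ∀ t ∈ Γ.Q u ⊓ 𝐂(A), t * t = 1 → t ∉ A → ∀ c ∈ A, (∀ o ∈ 𝐂(A), Γ.b c ⁅t, o⁆ = 0) → c = 1 ∨ Γ.B c
  b2 : ∀ t ∈ Γ.Q u ⊓ 𝐂(A), t * t = 1 → ∀ o ∈ 𝐂(A), ⁅t, o⁆ = 1 ∨ Γ.B ⁅t, o⁆
  b3 : ∀ t₁ ∈ Γ.Q u ⊓ 𝐂(A), ∀ t₂ ∈ Γ.Q u ⊓ 𝐂(A), ∀ t₃ ∈ Γ.Q u ⊓ 𝐂(A), t₁ * t₁ = 1 → t₂ * t₂ = 1 → t₃ * t₃ = 1 →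
    t₁ * t₂ = t₂ * t₁ → t₁ * t₃ = t₃ * t₁ → t₂ * t₃ = t₃ * t₂ →
    ∃ w ∈ A, Γ.B w ∧ w ∈ Γ.Q u ∧ w ≠ u ∧ ∀ o ∈ 𝐂(A), ⁅t₁, o⁆ ∈ Γ.Q w ∧ ⁅t₂, o⁆ ∈ Γ.Q w ∧ ⁅t₃, o⁆ ∈ Γ.Q w
  b4 : ∀ t₁ ∈ Γ.Q u ⊓ 𝐂(A), ∀ t₂ ∈ Γ.Q u ⊓ 𝐂(A), ∀ t₃ ∈ 𝐂(A), t₁ * t₁ = 1 → t₂ * t₂ = 1 → t₃ * t₃ = 1 →
    t₁ * t₂ = t₂ * t₁ → t₁ * t₃ = t₃ * t₁ → t₂ * t₃ = t₃ * t₂ →
    ∃ w ∈ A, Γ.B w ∧ w ∈ Γ.Q u ∧ w ≠ u ∧ (∀ o ∈ 𝐂(A), ⁅t₁, o⁆ ∈ Γ.Q w ∧ ⁅t₂, o⁆ ∈ Γ.Q w) ∧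
      ∀ p ∈ Γ.Q u ⊓ 𝐂(A), ⁅t₃, p⁆ ∈ Γ.Q w
  b5 : ∀ t₁ ∈ Γ.Q u ⊓ 𝐂(A), ∀ t₂ ∈ Γ.Q u ⊓ 𝐂(A), t₁ * t₁ = 1 → t₂ * t₂ = 1 → t₁ * t₂ = t₂ * t₁ →
    ∃ w ∈ A, ∃ w' ∈ A, Γ.B w ∧ Γ.B w' ∧ w ∈ Γ.Q u ∧ w' ∈ Γ.Q u ∧ w ≠ u ∧ w' ≠ u ∧ w' ≠ w ∧ w' ≠ u * w ∧
      ∀ o ∈ 𝐂(A), ⁅t₁, o⁆ ∈ Γ.Q w ∧ ⁅t₂, o⁆ ∈ Γ.Q w ∧ ⁅t₁, o⁆ ∈ Γ.Q w' ∧ ⁅t₂, o⁆ ∈ Γ.Q w'

/-- The basic axioms. -/
structure Ax0 : Prop where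
  conj : ∀ {u} (g), Γ.B u → Γ.B (g * u * g⁻¹)
  tr : ∀ {u v}, Γ.B u → Γ.B v → ∃ g, g * u * g⁻¹ = v
  qconj : ∀ {u x} (g), Γ.B u → x ∈ Γ.Q u → g * x * g⁻¹ ∈ Γ.Q (g * u * g⁻¹)
  lg : ∀ {u}, Γ.B u → Lg (Γ.Q u) u
  es : ∀ {u}, Γ.B u → IsExtraspecial 2 (Γ.Q u)
  cardQ : ∀ {u}, Γ.B u → Nat.card (Γ.Q u) = 2 ^ 25
  conjK : ∀ {A} (g), Γ.Ark A → Γ.Ark (A ⋆⋆ g)

/-- All axioms. -/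
structure Ax : Prop extends Ax0 Γ where
  rank : PRankLE 2 15 G
  exK : ∃ A, Γ.Ark A
  trK : ∀ {A A'}, Γ.Ark A → Γ.Ark A' → ∃ g, A' = A ⋆⋆ g
  frm : ∀ {A}, Γ.Ark A → Γ.Frm A
  pt : ∀ {A u}, Γ.Ark A → u ∈ A → Γ.B u → Γ.At A u
  oc : ∀ {A u}, Γ.Ark A → u ∈ A → Γ.B u → Γ.Oc A u
  dich : ∀ {z t}, Γ.B z → t * z = z * t → t * t = 1 → t ∉ Γ.Q z →
    (∃ w, Γ.B w ∧ w ∈ Γ.Q z ∧ t ∈ Γ.Q w ∧ ∀ x ∈ Γ.Q z, x * t = t * x → x ∈ Γ.Q w) ∨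
      ∃ A, Γ.Ark A ∧ z ∈ A ∧ t ∈ 𝐂(A) ∧ Γ.S A z t
  twoA : ∀ {z t}, Γ.B z → t * z = z * t → t * t = 1 → t ∉ Γ.Q z → ¬ Γ.B t → ∃ A, Γ.Ark A ∧ z ∈ A ∧ t ∈ A
  trA : ∀ {s t}, s * s = 1 → t * t = 1 → s ≠ 1 → t ≠ 1 → ¬ Γ.B s → ¬ Γ.B t → ∃ g, g * s * g⁻¹ = t
  pure4 : ∀ {z V}, Γ.B z → Γ.Pure V → V ≤ Γ.Q z → Nat.card V ≤ 4
  trP : ∀ {z V V'}, Γ.B z → Γ.Pure V → Γ.Pure V' → V ≤ Γ.Q z → V' ≤ Γ.Q z → Nat.card V = 4 → Nat.card V' = 4 →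
    ∃ g, V' = V ⋆⋆ g
  trS : ∀ {U U'}, Γ.Sg U → Γ.Sg U' → Nat.card U = Nat.card U' → Nat.card U = 4 ∨ Nat.card U = 8 ∨ Nat.card U = 16 →
    ∃ g, U' = U ⋆⋆ g
  tab : ∀ {U}, Γ.Sg U → Nat.card U = 16 → ∃ d e, Γ.Tab U d e
  lemP : ∀ {z A₁ A₂ A₃ a₁ a₂ a₃ v}, Γ.B z → Γ.Ark A₁ → Γ.Ark A₂ → Γ.Ark A₃ → z ∈ A₁ → z ∈ A₂ → z ∈ A₃ →
    a₁ ∈ A₁ → a₂ ∈ A₂ → a₃ ∈ A₃ → a₁ ∉ Γ.Q z → a₂ ∉ Γ.Q z → a₃ ∉ Γ.Q z → a₁ * a₂ * a₃ ∈ Γ.Q z →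
    v ∈ A₁ → v ∈ A₂ → v ∈ A₃ → v ∈ Γ.Q z → v = 1 ∨ Γ.B v

/-- The local situation: `R = O₂(H)`, `Y = Ω₁ Z(R)`. -/
structure Loc (R Y : Subgroup G) : Prop where
  pR : IsPGroup 2 R
  sq : ∀ y ∈ Y, y * y = 1
  cen : R ≤ 𝐂(Y)
  fix : ∀ x ∈ 𝐂(R), x * x = 1 → x ∈ Y

/-- `z` maximises `|Y ∩ Q z|`. -/
structure Mx (Y : Subgroup G) (z : G) : Prop where
  B : Γ.B z
  mem : z ∈ Y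
  max : ∀ u ∈ Y, Γ.B u → Nat.card ↥(Y ⊓ Γ.Q u) ≤ Nat.card ↥(Y ⊓ Γ.Q z)

/-- A pair of type `2a3`. -/
structure T3 (A : Subgroup G) (z y : G) : Prop where
  ark : Γ.Ark A
  Bz : Γ.B z
  By : Γ.B y
  mz : z ∈ A
  my : y ∈ 𝐂(A)
  nA : y ∉ A
  nQ : y ∉ Γ.Q z
  S : Γ.S A z y

theorem mem_QU {U : Subgroup G} {x : G} : x ∈ Γ.QU U ↔ ∀ u ∈ U, u ≠ 1 → x ∈ Γ.Q u := by
  simp only [QU, mem_iInf]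

theorem q_eq_zero {a : G} : Γ.q a = 0 ↔ a = 1 ∨ Γ.B a := by
  unfold q
  split_ifs with h <;> simp [h]

theorem q_eq_one {a : G} : Γ.q a = 1 ↔ ¬ (a = 1 ∨ Γ.B a) := by
  unfold q
  split_ifs with h <;> simp [h]

theorem q_one : Γ.q 1 = 0 := Γ.q_eq_zero.2 (.inl rfl)

end Dat

end Cfsg.Lib.ML
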