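import Cfsg.Agent.Lib.ML.Base

/-!
# Maximal 2-local subgroups of the Monster: the orthogonal geometry of an ark (design helper10)
-/

set_option autoImplicit false

namespace Cfsg.Lib.ML

open Subgroup Cfsg.Lib.ES
open scoped commutatorElement

variable {G : Type*} [Group G] [Finite G] {Γ : Dat G} {u v x y g a c z t t' o o' p : G} {A A' K U V W T : Subgroup G}

namespace Fo

theorem z2 (s : ZMod 2) : s = 0 ∨ s = 1 := by
  revert s
  decide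

theorem z2_ne {s : ZMod 2} (h : s ≠ 0) : s = 1 := (z2 s).resolve_left h

/-- the sign in `ℂˣ` -/
noncomputable def sg (s : ZMod 2) : ℂˣ := if s = 0 then 1 else -1

theorem sg_add (s t : ZMod 2) : sg (s + t) = sg s * sg t := by
  have h2 : (1 : ZMod 2) + 1 = 0 := by decide
  rcases z2 s with rfl | rfl <;> rcases z2 t with rfl | rfl <;> simp [sg, h2]

theorem sg_inj {s t : ZMod 2} (h : sg s = sg t) : s = t := by
  rcases z2 s with rfl | rfl <;> rcases z2 t with rfl | rfl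
  · rfl
  · simp [sg] at h
  · simp [sg] at h
  · rfl

theorem card_hom (V : Subgroup G) (hc : ∀ a ∈ V, ∀ c ∈ V, a * c = c * a) : Nat.card (V →* ℂˣ) = Nat.card V := by
  letI : CommGroup V := { (inferInstance : Group V) with mul_comm := fun a c => Subtype.ext (hc a a.2 c c.2) }
  haveI : NeZero ((Monoid.exponent V : ℕ) : ℂ) := ⟨by exact_mod_cast Monoid.exponent_ne_zero_of_finite⟩
  exact CommGroup.card_monoidHom_of_hasEnoughRootsOfUnity V ℂ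

theorem ext_hom (hc : ∀ a ∈ A, ∀ c ∈ A, a * c = c * a) (hV : V ≤ A) (χ : V →* ℂˣ) :
    ∃ ψ : A →* ℂˣ, ∀ v : V, ψ ⟨v, hV v.2⟩ = χ v := by
  letI : CommGroup A := { (inferInstance : Group A) with mul_comm := fun a c => Subtype.ext (hc a a.2 c c.2) }
  haveI : NeZero ((Monoid.exponent A : ℕ) : ℂ) := ⟨by exact_mod_cast Monoid.exponent_ne_zero_of_finite⟩
  obtain ⟨ψ, hψ⟩ := MonoidHom.domRestrict_surjective ℂ (V.subgroupOf A)
    (χ.comp (subgroupOfEquivOfLe hV).toMonoidHom)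
  refine ⟨ψ, fun v => ?_⟩
  exact DFunLike.congr_fun hψ ⟨⟨v, hV v.2⟩, v.2⟩

/-- the sign in `ℤ` -/
def sz (s : ZMod 2) : ℤ := if s = 0 then 1 else -1

theorem sz_add (s t : ZMod 2) : sz (s + t) = sz s * sz t := by
  revert s t
  decide

theorem sz_key (x y w : ZMod 2) : sz x * sz w = sz y * sz (w + x + y) := by
  revert x y w
  decide

theorem key7 (α β x y s t : ZMod 2) (h : s + t = 1) : (α = 0 ∧ β = 0) ∨ (α = 1 ∧ β = x) ∨ (α = y ∧ β = 1) ∨ (α = s ∧ β = t) ∨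
    (α = 1 + y ∧ β = x + 1) ∨ (α = 1 + s ∧ β = x + t) ∨ (α = y + s ∧ β = 1 + t) := by
  rcases z2 α with rfl | rfl <;> rcases z2 β with rfl | rfl <;> rcases z2 x with rfl | rfl <;> rcases z2 y with rfl | rfl <;>
    rcases z2 s with rfl | rfl <;> rcases z2 t with rfl | rfl <;> revert h <;> decide

omit [Finite G] in
theorem mem_zp (h : u * u = 1) (hv : v ∈ zpowers u) : v = 1 ∨ v = u := by
  obtain ⟨k, rfl⟩ := mem_zpowers_iff.1 hv
  have h2 : u ^ (2 : ℤ) = 1 := by rw [zpow_two, h]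
  obtain ⟨m, rfl | rfl⟩ := Int.even_or_odd' k
  · left
    rw [zpow_mul, h2, one_zpow]
  · right
    rw [zpow_add, zpow_mul, h2, one_zpow, one_mul, zpow_one]

end Fo

open Fo
namespace Dat

namespace Frm

variable (hA : Γ.Frm A)
include hA

omit [Finite G] in
theorem comm (ha : a ∈ A) (hc : c ∈ A) : a * c = c * a := by
  have h1 := hA.sq _ (A.mul_mem ha hc)
  have h2 := hA.sq _ ha
  have h3 := hA.sq _ hc
  calc a * c = a * (a * c * (a * c)) * c * (c * c) * 1 := by rw [h1, h3]; group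
    _ = (a * a) * c * a * (c * c) * (c * c) := by simp only [mul_assoc, mul_one]
    _ = c * a := by rw [h2, h3]; group

omit [Finite G] in
theorem le_cen : A ≤ 𝐂(A) := fun a ha =>
  mem_centralizer_iff.2 fun c hc => hA.comm hc ha

omit [Finite G] in
theorem b_mul_right (ha : a ∈ A) (hc : c ∈ A) (hv : v ∈ A) : Γ.b a (c * v) = Γ.b a c + Γ.b a v := by
  rw [b_comm (hA.comm ha (A.mul_mem hc hv)), hA.b_mul c hc v hv a ha, b_comm (hA.comm hc ha), b_comm (hA.comm hv ha)]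

omit [Finite G] in
/-- the defining set is a subgroup by `b_mul` -/
theorem mem_perp (hV : V ≤ A) : a ∈ Γ.perp A V ↔ a ∈ A ∧ ∀ v ∈ V, Γ.b a v = 0 := by
  let P : Subgroup G :=
    { carrier := {a | a ∈ A ∧ ∀ v ∈ V, Γ.b a v = 0}
      one_mem' := ⟨A.one_mem, fun v _ => b_one_left⟩
      mul_mem' := fun {x y} hx hy => ⟨A.mul_mem hx.1 hy.1, fun v hv => by
        rw [hA.b_mul x hx.1 y hy.1 v (hV hv), hx.2 v hv, hy.2 v hv, add_zero]⟩
      inv_mem' := fun {x} hx => by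
        have : x⁻¹ = x := inv_eq_of_mul_eq_one_right (hA.sq x hx.1)
        rw [this]
        exact hx }
  have e : Γ.perp A V = P := closure_eq P
  rw [e]
  rfl

omit [Finite G] in
theorem perp_le (hV : V ≤ A) : Γ.perp A V ≤ A := fun _ ha =>
  ((hA.mem_perp hV).1 ha).1

omit [Finite G] in
theorem exF (hV : V ≤ A) : ∃ F : A →* (V →* ℂˣ), ∀ (a : A) (v : V), F a v = sg (Γ.b a v) :=
  ⟨MonoidHom.mk' (fun a => MonoidHom.mk' (fun v => sg (Γ.b a v)) fun v w => by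
      rw [coe_mul, hA.b_mul_right a.2 (hV v.2) (hV w.2), sg_add]) fun a a' => by
    ext v : 1
    simp only [MonoidHom.mk'_apply, MonoidHom.mul_apply, coe_mul]
    rw [hA.b_mul a a.2 a' a'.2 v (hV v.2), sg_add], fun _ _ => rfl⟩

theorem surF (hV : V ≤ A) {F : A →* (V →* ℂˣ)} (hF : ∀ (a : A) (v : V), F a v = sg (Γ.b a v)) :
    Function.Surjective F := by
  obtain ⟨F₀, hF₀⟩ := hA.exF le_rfl
  have hc : ∀ a ∈ A, ∀ c ∈ A, a * c = c * a := fun a ha c hc => hA.comm ha hc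
  have inj : Function.Injective F₀ := by
    rw [injective_iff_map_eq_one]
    intro a ha
    refine Subtype.ext (hA.nondeg a a.2 fun c hc => sg_inj ?_)
    rw [← hF₀ a ⟨c, hc⟩, ha]
    simp [sg]
  have hcard := card_hom A hc
  haveI : Finite (A →* ℂˣ) := Nat.finite_of_card_ne_zero (by rw [hcard]; exact Nat.card_pos.ne')
  have bij : Function.Bijective F₀ := (Nat.bijective_iff_injective_and_card F₀).2 ⟨inj, hcard.symm⟩
  intro χ
  obtain ⟨ψ, hψ⟩ := ext_hom hc hV χ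
  obtain ⟨a, rfl⟩ := bij.2 ψ
  refine ⟨a, ?_⟩
  ext v : 1
  rw [hF, ← hψ, hF₀]
/-- `a ↦ b a ·` is a hom `A →* (V →* Multiplicative (ZMod 2))` with kernel `perp A V`; for `V = A` it is injective, hence
bijective (`|Hom(V, C₂)| = |V|` for elementary abelian `V`, e.g. through `Additive`, `Module (ZMod 2)`,
`Module.Dual`, or `CommGroup.card_monoidHom_of_hasEnoughRootsOfUnity`), and characters of `V` extend to `A`. -/
theorem exists_hom (hV : V ≤ A) {φ : G → ZMod 2} (hφ : ∀ v ∈ V, ∀ w ∈ V, φ (v * w) = φ v + φ w) :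
    ∃ a ∈ A, ∀ v ∈ V, Γ.b a v = φ v := by
  obtain ⟨F, hF⟩ := hA.exF hV
  obtain ⟨a, ha⟩ := hA.surF hV hF (MonoidHom.mk' (fun v : V => sg (φ v)) fun v w => by
    rw [coe_mul, hφ v v.2 w w.2, sg_add])
  refine ⟨a, a.2, fun v hv => sg_inj ?_⟩
  rw [← hF a ⟨v, hv⟩, ha]
  rfl

theorem card_perp (hV : V ≤ A) : Nat.card V * Nat.card (Γ.perp A V) = 2 ^ 10 := by
  obtain ⟨F, hF⟩ := hA.exF hV
  have hs := hA.surF hV hF
  have hk : F.ker = (Γ.perp A V).subgroupOf A := by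
    ext a
    rw [MonoidHom.mem_ker, mem_subgroupOf, hA.mem_perp hV]
    constructor
    · intro h
      refine ⟨a.2, fun v hv => sg_inj ?_⟩
      rw [← hF a ⟨v, hv⟩, h]
      simp [sg]
    · intro h
      ext v : 1
      rw [hF, h.2 v v.2]
      simp [sg]
  have h1 := F.ker.card_mul_index
  rw [index_ker, MonoidHom.range_eq_top.2 hs, card_top, card_hom V fun a ha c hc => hA.comm (hV ha) (hV hc), hk,
    Nat.card_congr (subgroupOfEquivOfLe (hA.perp_le hV)).toEquiv, hA.card] at h1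
  rw [mul_comm, h1]

/-- `≥` is clear, orders by `card_perp` twice. -/
theorem perp_perp (hV : V ≤ A) : Γ.perp A (Γ.perp A V) = V := by
  have h1 := hA.card_perp hV
  have h2 := hA.card_perp (hA.perp_le hV)
  have le : V ≤ Γ.perp A (Γ.perp A V) := fun v hv => (hA.mem_perp (hA.perp_le hV)).2 ⟨hV hv, fun w hw => by
    rw [b_comm (hA.comm (hV hv) (hA.perp_le hV hw))]
    exact ((hA.mem_perp hV).1 hw).2 v hv⟩
  refine (eq_of_le_of_card_ge le (le_of_eq ?_)).symm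
  have pos : 0 < Nat.card (Γ.perp A V) := Nat.card_pos
  rw [mul_comm, ← h2] at h1
  exact (Nat.eq_of_mul_eq_mul_left pos h1).symm

omit [Finite G] in
theorem perp_anti (hV : V ≤ W) (hW : W ≤ A) : Γ.perp A W ≤ Γ.perp A V := fun a ha =>
  (hA.mem_perp (hV.trans hW)).2 ⟨hA.perp_le hW ha, fun v hv => ((hA.mem_perp hW).1 ha).2 v (hV hv)⟩

omit [Finite G] in
theorem exists_one (hu : u ∈ A) (u1 : u ≠ 1) : ∃ a ∈ A, Γ.b u a = 1 := by
  by_contra hn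
  push Not at hn
  exact u1 (hA.nondeg u hu fun c hc => (z2 _).resolve_right (hn c hc))
/-- `exists_hom` on the four-group `{1, u, v, u v}`. -/
theorem exists_two (hu : u ∈ A) (hv : v ∈ A) (u1 : u ≠ 1) (v1 : v ≠ 1) (ne : u ≠ v) (α β : ZMod 2) :
    ∃ a ∈ A, Γ.b u a = α ∧ Γ.b v a = β := by
  have uv1 : u * v ≠ 1 := fun e => ne (by
    have := hA.sq v hv
    rw [← this] at e
    exact mul_right_cancel e)
  obtain ⟨a₁, m1, e1⟩ := hA.exists_one hu u1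
  obtain ⟨a₂, m2, e2⟩ := hA.exists_one hv v1
  obtain ⟨a₃, m3, e3⟩ := hA.exists_one (A.mul_mem hu hv) uv1
  rw [hA.b_mul u hu v hv _ m3] at e3
  rcases key7 α β (Γ.b v a₁) (Γ.b u a₂) _ _ e3 with ⟨rfl, rfl⟩ | ⟨rfl, rfl⟩ | ⟨rfl, rfl⟩ | ⟨rfl, rfl⟩ | ⟨rfl, rfl⟩ |
    ⟨rfl, rfl⟩ | ⟨rfl, rfl⟩
  · exact ⟨1, A.one_mem, b_one_right, b_one_right⟩
  · exact ⟨a₁, m1, e1, rfl⟩
  · exact ⟨a₂, m2, rfl, e2⟩
  · exact ⟨a₃, m3, rfl, rfl⟩
  · exact ⟨a₁ * a₂, A.mul_mem m1 m2, by rw [hA.b_mul_right hu m1 m2, e1], by rw [hA.b_mul_right hv m1 m2, e2]⟩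
  · exact ⟨a₁ * a₃, A.mul_mem m1 m3, by rw [hA.b_mul_right hu m1 m3, e1], by rw [hA.b_mul_right hv m1 m3]⟩
  · exact ⟨a₂ * a₃, A.mul_mem m2 m3, by rw [hA.b_mul_right hu m2 m3], by rw [hA.b_mul_right hv m2 m3, e2]⟩

omit [Finite G] in
theorem le_perp_ts (hV : V ≤ A) (hs : ∀ v ∈ V, v = 1 ∨ Γ.B v) : V ≤ Γ.perp A V := fun v hv =>
  (hA.mem_perp hV).2 ⟨hV hv, fun w hw => by
    rw [b, Γ.q_eq_zero.2 (hs _ (V.mul_mem hv hw)), Γ.q_eq_zero.2 (hs _ hv), Γ.q_eq_zero.2 (hs _ hw)]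
    rfl⟩
/-- A totally singular subspace lies in its `perp`, so `|V|² ≤ 2 ^ 10`. -/
theorem card_ts (hV : V ≤ A) (hs : ∀ v ∈ V, v = 1 ∨ Γ.B v) : Nat.card V ≤ 32 := by
  have h1 := hA.card_perp hV
  have h2 := card_le_of_le (hA.le_perp_ts hV hs)
  nlinarith

theorem perp_ts (hV : V ≤ A) (hs : ∀ v ∈ V, v = 1 ∨ Γ.B v) (h32 : Nat.card V = 32) : Γ.perp A V = V := by
  have h1 := hA.card_perp hV
  refine (eq_of_le_of_card_ge (hA.le_perp_ts hV hs) ?_).symm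
  rw [h32] at h1 ⊢
  omega

theorem eight_dvd (hV : V ≤ A) (h8 : 5 ≤ Nat.card V) : 8 ∣ Nat.card V := by
  have h1 : Nat.card V ∣ 2 ^ 10 := Dvd.intro _ (hA.card_perp hV)
  obtain ⟨k, -, hk⟩ := (Nat.dvd_prime_pow Nat.prime_two).1 h1
  rw [hk] at h8 ⊢
  have : 3 ≤ k := by
    by_contra hn
    have : k ≤ 2 := by omega
    have := Nat.pow_le_pow_right (show 0 < 2 by norm_num) this
    omega
  exact (pow_dvd_pow 2 this : 2 ^ 3 ∣ 2 ^ k)

theorem odd_sing (h : Γ.Ax0) (hV : V ≤ A) (h8 : 8 ∣ Nat.card V) : ¬ 2 ∣ Nat.card {v : G // v ∈ V ∧ Γ.B v} := by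
  classical
  letI : Fintype V := Fintype.ofFinite V
  have hd : (8 : ℤ) ∣ (Fintype.card V : ℤ) := by
    rw [← Nat.card_eq_fintype_card]
    exact_mod_cast h8
  have s1 : ∀ u : V, (8 : ℤ) ∣ ∑ v : V, sz (Γ.b v u) := by
    intro u
    by_cases hu : ∀ v : V, Γ.b v u = 0
    · simp only [hu, sz, if_true, Finset.sum_const, Finset.card_univ, nsmul_eq_mul, mul_one]
      exact hd
    · push Not at hu
      obtain ⟨w, hw⟩ := hu
      have e := Equiv.sum_comp (Equiv.mulLeft w) fun v : V => sz (Γ.b v u)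
      simp only [Equiv.coe_mulLeft, coe_mul] at e
      have e2 : ∑ v : V, sz (Γ.b (w * v) u) = - ∑ v : V, sz (Γ.b v u) := by
        rw [← Finset.sum_neg_distrib]
        refine Finset.sum_congr rfl fun v _ => ?_
        rw [hA.b_mul _ (hV w.2) _ (hV v.2) _ (hV u.2), sz_add, z2_ne hw]
        exact neg_one_mul _
      have : ∑ v : V, sz (Γ.b v u) = 0 := by linarith
      rw [this]
      exact dvd_zero _
  set N : ℤ := ∑ v : V, sz (Γ.q v) with hN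
  have s2 : N * N = ∑ u : V, sz (Γ.q u) * ∑ v : V, sz (Γ.b v u) := by
    rw [hN, Finset.sum_mul_sum]
    simp only [Finset.mul_sum]
    rw [Finset.sum_comm (f := fun u v : V => sz (Γ.q u) * sz (Γ.b v u))]
    refine Finset.sum_congr rfl fun v _ => ?_
    rw [← Equiv.sum_comp (Equiv.mulLeft v)]
    refine Finset.sum_congr rfl fun u _ => ?_
    exact sz_key _ _ _
  have s3 : (8 : ℤ) ∣ N * N := by
    rw [s2]
    exact Finset.dvd_sum fun u _ => Dvd.dvd.mul_left (s1 u) _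
  have s4 : N = 2 * ((Finset.univ.filter fun v : V => Γ.B v).card : ℤ) + 2 - Fintype.card V := by
    have e : ∀ v : V, sz (Γ.q v) = 2 * (if Γ.B v then 1 else 0) + 2 * (if v = 1 then 1 else 0) - 1 := by
      intro v
      by_cases h1 : v = 1
      · have : ¬ Γ.B v := fun hB => h.ne_one hB (by rw [h1]; rfl)
        rw [if_neg this, if_pos h1, h1, coe_one, q_one]
        simp [sz]
      · have h1' : (v : G) ≠ 1 := fun e => h1 (Subtype.ext e)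
        by_cases hB : Γ.B v
        · rw [if_pos hB, if_neg h1, Γ.q_eq_zero.2 (.inr hB)]
          simp [sz]
        · rw [if_neg hB, if_neg h1, Γ.q_eq_one.2 (by tauto)]
          simp [sz]
    rw [hN, Finset.sum_congr rfl fun v _ => e v]
    rw [Finset.sum_sub_distrib, Finset.sum_add_distrib, ← Finset.mul_sum, ← Finset.mul_sum]
    simp
  have s5 : Nat.card {v : G // v ∈ V ∧ Γ.B v} = (Finset.univ.filter fun v : V => Γ.B v).card := by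
    rw [← Fintype.card_subtype, ← Nat.card_eq_fintype_card]
    exact Nat.card_congr ⟨fun v => ⟨⟨v.1, v.2.1⟩, v.2.2⟩, fun v => ⟨v.1.1, v.1.2, v.2⟩, fun _ => rfl, fun _ => rfl⟩
  rw [s5]
  rintro ⟨m, hm⟩
  obtain ⟨k, hk⟩ := hd
  rw [hm, hk] at s4
  obtain ⟨j, hj⟩ := s3
  have : N = 2 * (2 * (m - 2 * k) + 1) := by
    rw [s4]
    push_cast
    ring
  rw [this] at hj
  generalize (m : ℤ) - 2 * k = r at hj
  have : 4 * (r * r + r) + 1 = 2 * j := by linarith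
  omega
/-- The number of `v ∈ V` with `q v = 0` is even.  (1) there is a singular `u ≠ 1` in `V`: otherwise `q = 1` on `V \ {1}`, so
`b x y = 1` for `x ≠ y` in `V \ {1}`; for `x, y, w` independent `1 = b (x y) w = b x w + b y w = 0`.  (2) `v ↦ u v` has
no fixed point, preserves `V₀ = {v ∈ V | b u v = 0}` and `q` on it (so an even number of zeros there), and on `V \ V₀`
(empty or of size `|V| / 2`) it swaps `q = 0` and `q = 1`, so there are `0` or `|V| / 4` zeros, even as `8 ∣ |V|`.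
So `{v ∈ V | B v}` has odd size; `T` acts on it by conjugation (`IsPGroup.nonempty_fixed_point_of_prime_not_dvd_card`). -/
theorem fixSing (h : Γ.Ax0) (hV : V ≤ A) (h8 : 8 ≤ Nat.card V) (hT : IsPGroup 2 T) (hn : T ≤ 𝐍(V)) :
    ∃ u ∈ V, Γ.B u ∧ ∀ g ∈ T, g * u = u * g := by
  have ho := hA.odd_sing h hV (hA.eight_dvd hV (by omega))
  letI : MulAction T {v : G // v ∈ V ∧ Γ.B v} :=
    { smul := fun g v => ⟨g * v * (g : G)⁻¹, (mem_normalizer_iff.1 (hn g.2) _).1 v.2.1, h.conj _ v.2.2⟩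
      one_smul := fun v => Subtype.ext (by
        change ((1 : T) : G) * v * ((1 : T) : G)⁻¹ = v
        simp)
      mul_smul := fun g g' v => Subtype.ext (by
        change ((g * g' : T) : G) * v * ((g * g' : T) : G)⁻¹ = g * (g' * v * (g' : G)⁻¹) * (g : G)⁻¹
        simp [mul_assoc]) }
  haveI : Fact (Nat.Prime 2) := ⟨Nat.prime_two⟩
  obtain ⟨u, hu⟩ := hT.nonempty_fixed_point_of_prime_not_dvd_card _ ho
  refine ⟨u, u.2.1, u.2.2, fun g hg => ?_⟩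
  have e : g * u * g⁻¹ = u := congrArg Subtype.val (hu ⟨g, hg⟩)
  exact mul_inv_eq_iff_eq_mul.1 e

/-- `fixSing` with `T = ⊥`; `|V|` divides `2 ^ 10`. -/
theorem card_aniso (h : Γ.Ax0) (hV : V ≤ A) (hs : ∀ v ∈ V, ¬ Γ.B v) : Nat.card V ≤ 4 := by
  by_contra hn
  have h8 := Nat.le_of_dvd Nat.card_pos (hA.eight_dvd hV (by omega))
  obtain ⟨u, hu, hB, -⟩ := hA.fixSing h hV h8 (T := ⊥) IsPGroup.of_bot bot_le
  exact hs u hu hB

theorem norm_perp (h : Γ.Ax0) (hV : V ≤ A) (h1 : g ∈ 𝐍(A)) (h2 : g ∈ 𝐍(V)) : g ∈ 𝐍(Γ.perp A V) := by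
  rw [mem_normalizer_iff] at h1 h2 ⊢
  intro a
  rw [hA.mem_perp hV, hA.mem_perp hV, ← h1 a]
  refine and_congr_right fun _ => ⟨fun H v hv => ?_, fun H v hv => ?_⟩
  · have e : v = g * (g⁻¹ * v * g) * g⁻¹ := by group
    rw [e, h.b_conj]
    exact H _ ((h2 _).2 (e ▸ hv))
  · rw [← h.b_conj g]
    exact H _ ((h2 v).1 hv)

omit [Finite G] in
/-- `(o o')² , o², o'² ∈ A`, `A` central in `C(A)`. -/
theorem commO (ho : o ∈ 𝐂(A)) (ho' : o' ∈ 𝐂(A)) : ⁅o, o'⁆ ∈ A := by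
  have h1 := hA.sqO _ (𝐂(A).mul_mem ho ho')
  have h2 := A.inv_mem (hA.sqO _ ho)
  have h3 := A.inv_mem (hA.sqO _ ho')
  have c2 : (o * o)⁻¹ * o' = o' * (o * o)⁻¹ := (mem_centralizer_iff.1 ho') _ h2
  have e : ⁅o, o'⁆ = (o * o' * (o * o')) * (o * o)⁻¹ * (o' * o')⁻¹ := by
    calc ⁅o, o'⁆ = o * o' * o * ((o * o)⁻¹ * o') * (o' * o')⁻¹ := by rw [commutatorElement_def]; group
      _ = _ := by rw [c2]; group
  rw [e]
  exact A.mul_mem (A.mul_mem h1 h2) h3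

omit [Finite G] in
theorem comm_mul_left (ht : t ∈ 𝐂(A)) (ht' : t' ∈ 𝐂(A)) (ho : o ∈ 𝐂(A)) : ⁅t * t', o⁆ = ⁅t, o⁆ * ⁅t', o⁆ := by
  have h1 := hA.commO ht ho
  have h2 := hA.commO ht' ho
  have c : ⁅t', o⁆ * t = t * ⁅t', o⁆ := (mem_centralizer_iff.1 ht) _ h2
  calc ⁅t * t', o⁆ = t * ⁅t', o⁆ * t⁻¹ * ⁅t, o⁆ := by simp only [commutatorElement_def]; group
    _ = ⁅t', o⁆ * ⁅t, o⁆ := by rw [← c, mul_inv_cancel_right]
    _ = _ := hA.comm h2 h1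

omit [Finite G] in
theorem comm_mul_right (ht : t ∈ 𝐂(A)) (ho : o ∈ 𝐂(A)) (ho' : o' ∈ 𝐂(A)) : ⁅t, o * o'⁆ = ⁅t, o⁆ * ⁅t, o'⁆ := by
  have h2 := hA.commO ht ho'
  have c : ⁅t, o'⁆ * o = o * ⁅t, o'⁆ := (mem_centralizer_iff.1 ho) _ h2
  calc ⁅t, o * o'⁆ = ⁅t, o⁆ * (o * ⁅t, o'⁆ * o⁻¹) := by simp only [commutatorElement_def]; group
    _ = _ := by rw [← c, mul_inv_cancel_right]

end Frm

namespace Ax

variable (h : Γ.Ax) (hA : Γ.Ark A)
include h hA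

/-- `b u v = q (u v) + q u + q v = 0` and `memQ`. -/
theorem sg_of_ts (hV : V ≤ A) (hs : ∀ v ∈ V, v = 1 ∨ Γ.B v) : Γ.Sg V := by
  intro u hu u1
  have Bu := (hs u hu).resolve_left u1
  refine ⟨Bu, fun v hv => ((h.pt hA (hV hu) Bu).memQ v (hV hv)).2 ?_⟩
  exact (((h.frm hA).mem_perp hV).1 ((h.frm hA).le_perp_ts hV hs hu)).2 v hv

/-- `fixSing` gives `z`; `nondeg` gives `a` with `b z a = 1`; `q (z a) = q a + 1`, so `a` or `z a` is singular. -/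
theorem exists_hyp : ∃ z ∈ A, ∃ y ∈ A, Γ.B z ∧ Γ.B y ∧ y ∉ Γ.Q z := by
  have F := h.frm hA
  obtain ⟨z, hz, Bz, -⟩ := F.fixSing h.toAx0 le_rfl (by rw [F.card]; norm_num) (T := ⊥) IsPGroup.of_bot bot_le
  obtain ⟨a, ha, e⟩ := F.exists_one hz (h.toAx0.ne_one Bz)
  have n : a ∉ Γ.Q z := fun m => by
    rw [((h.pt hA hz Bz).memQ a ha).1 m] at e
    exact zero_ne_one e
  have n' : z * a ∉ Γ.Q z := fun m => n (((Γ.Q z).mul_mem_cancel_left (h.toAx0.self_mem Bz)).1 m)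
  rcases z2 (Γ.q a) with e1 | e1
  · exact ⟨z, hz, a, ha, Bz, (Γ.q_eq_zero.1 e1).resolve_left fun e2 => n (e2 ▸ one_mem _), n⟩
  · rw [b, e1, Γ.q_eq_zero.2 (.inr Bz), add_zero, add_eq_right] at e
    exact ⟨z, hz, z * a, A.mul_mem hz ha, Bz, (Γ.q_eq_zero.1 e).resolve_left fun e2 => n' (e2 ▸ one_mem _), n'⟩

/-- for `a, c ∈ A \ Q u` we have `a c ∈ Q u` -/
theorem mul_mem_Q (hu : u ∈ A) (Bu : Γ.B u) (ha : a ∈ A) (hc : c ∈ A) (n1 : a ∉ Γ.Q u) (n2 : c ∉ Γ.Q u) :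
    a * c ∈ Γ.Q u := by
  have P := h.pt hA hu Bu
  rw [P.memQ _ ha] at n1
  rw [P.memQ _ hc] at n2
  rw [P.memQ _ (A.mul_mem ha hc), (h.frm hA).b_mul_right hu ha hc, z2_ne n1, z2_ne n2]
  decide

/-- `A ⊓ Q u = perp A ⟨u⟩` -/
theorem perp_zpowers (hu : u ∈ A) (Bu : Γ.B u) : Γ.perp A (zpowers u) = A ⊓ Γ.Q u := by
  have F := h.frm hA
  ext a
  rw [F.mem_perp (zpowers_le.2 hu), mem_inf]
  refine and_congr_right fun ha => ?_
  rw [(h.pt hA hu Bu).memQ a ha, b_comm (F.comm hu ha)]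
  refine ⟨fun H => H u (mem_zpowers u), fun H v hv => ?_⟩
  rcases mem_zp (h.toAx0.sq Bu) hv with rfl | rfl
  · exact b_one_right
  · exact H

theorem card_inf (hu : u ∈ A) (Bu : Γ.B u) : Nat.card ↥(A ⊓ Γ.Q u) = 2 ^ 9 := by
  have h1 := (h.frm hA).card_perp (zpowers_le.2 hu)
  haveI : Fact (Nat.Prime 2) := ⟨Nat.prime_two⟩
  rw [h.perp_zpowers hA hu Bu, Nat.card_zpowers,
    orderOf_eq_prime (p := 2) (by rw [pow_two, h.toAx0.sq Bu]) (h.toAx0.ne_one Bu)] at h1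
  omega

/-- `Q u ⊓ C(A) = Q u ⊓ C(A ⊓ Q u)` (`At.cen`), `card_cen`, `card_inf`. -/
theorem card_QO (hu : u ∈ A) (Bu : Γ.B u) : Nat.card ↥(Γ.Q u ⊓ 𝐂(A)) = 2 ^ 17 := by
  have h1 := h.toAx0.card_cen Bu (K := A ⊓ Γ.Q u) inf_le_right ⟨hu, h.toAx0.self_mem Bu⟩
  have e : Γ.Q u ⊓ 𝐂(A ⊓ Γ.Q u) = Γ.Q u ⊓ 𝐂(A) :=
    le_antisymm (inf_le_inf_left _ (h.pt hA hu Bu).cen) (inf_le_inf_left _ (centralizer_le inf_le_left))
  rw [e, h.card_inf hA hu Bu] at h1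
  omega

/-- `Q u ⊓ Q v ⊓ C(A) ≤ A ⊓ Q u ⊓ Q v` (`disj`) has order at most `2 ^ 8` (proper in `A ⊓ Q u`: `u ∉ Q v`); so the map
`(p, p') ↦ p p'` from `(Q u ⊓ O) × (Q v ⊓ O)` has an image of size `≥ 2 ^ 34 / 2 ^ 8 = |O|`
(e.g. both factors are normalised by `O`, `|H ⊔ K| |H ⊓ K| = |H| |K|`, `mem_sup` for normal subgroups). -/
theorem decomp (hu : u ∈ A) (Bu : Γ.B u) (hv : v ∈ A) (Bv : Γ.B v) (n : v ∉ Γ.Q u) (ho : o ∈ 𝐂(A)) :
    ∃ p ∈ Γ.Q u ⊓ 𝐂(A), ∃ p' ∈ Γ.Q v ⊓ 𝐂(A), o = p * p' := by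
  have hn : Γ.Q u ⊓ 𝐂(A) ≤ 𝐍(Γ.Q v ⊓ 𝐂(A)) := le_normalizer_iff.2 fun g hg x hx =>
    ⟨h.toAx0.cen_conj Bv (mem_centralizer_iff.1 hg.2 v hv).symm hx.1,
      𝐂(A).mul_mem (𝐂(A).mul_mem hg.2 hx.2) (𝐂(A).inv_mem hg.2)⟩
  have h1 := Core.card_sup_mul_card_inf hn
  rw [h.card_QO hA hu Bu, h.card_QO hA hv Bv] at h1
  have le : (Γ.Q u ⊓ 𝐂(A)) ⊓ (Γ.Q v ⊓ 𝐂(A)) ≤ A ⊓ Γ.Q u := fun x hx =>
    ⟨(h.pt hA hu Bu).disj v hv Bv n ⟨hx.1.1, hx.2.1⟩, hx.1.1⟩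
  have lt : (Γ.Q u ⊓ 𝐂(A)) ⊓ (Γ.Q v ⊓ 𝐂(A)) < A ⊓ Γ.Q u := lt_of_le_of_ne le fun e => by
    have : u ∈ (Γ.Q u ⊓ 𝐂(A)) ⊓ (Γ.Q v ⊓ 𝐂(A)) := e ▸ ⟨hu, h.toAx0.self_mem Bu⟩
    exact n (h.toAx0.sym Bv Bu this.2.1)
  have c1 := lt_of_le_of_ne (card_le_of_le le) fun e => lt.ne (eq_of_le_of_card_ge le e.ge)
  obtain ⟨k, hk⟩ := card_dvd_of_le le
  rw [h.card_inf hA hu Bu] at c1 hk
  have c2 : Nat.card ↥((Γ.Q u ⊓ 𝐂(A)) ⊓ (Γ.Q v ⊓ 𝐂(A))) ≤ 2 ^ 8 := by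
    have : 2 ≤ k := by
      by_contra hk2
      have : k = 0 ∨ k = 1 := by omega
      rcases this with rfl | rfl <;> omega
    nlinarith
  have e : (Γ.Q u ⊓ 𝐂(A)) ⊔ (Γ.Q v ⊓ 𝐂(A)) = 𝐂(A) := by
    refine eq_of_le_of_card_ge (sup_le inf_le_right inf_le_right) ?_
    rw [(h.frm hA).cardO]
    by_contra hlt
    push Not at hlt
    have := Nat.mul_lt_mul_of_lt_of_le hlt c2 (by norm_num)
    omega
  rw [← e] at ho
  obtain ⟨p, hp, p', hp', e'⟩ := (Core.mem_sup_of_le_normalizer_right hn).1 ho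
  exact ⟨p, hp, p', hp', e'.symm⟩

omit [Finite G] hA in
theorem nQ_of_S (n : t ∉ Γ.Q z) (ht : t * a ∈ Γ.Q z) : a ∉ Γ.Q z := fun m =>
  n (((Γ.Q z).mul_mem_cancel_right m).1 ht)

theorem uniq_le (hA' : Γ.Ark A') (Bz : Γ.B z) (hz : z ∈ A) (hz' : z ∈ A') (n : t ∉ Γ.Q z) (s : Γ.S A z t)
    (s' : Γ.S A' z t) : A ⊓ Γ.Q z ≤ A' ⊓ Γ.Q z := by
  obtain ⟨a, ha, m⟩ := s
  obtain ⟨a', ha', m'⟩ := s'
  intro c hc
  refine ⟨?_, hc.2⟩
  obtain ⟨r, hr, e⟩ := (h.pt hA hz Bz).comm a ha (h.nQ_of_S n m) c hc.1 hc.2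
  have hp : a⁻¹ * a' ∈ Γ.Q z := by
    have := (Γ.Q z).mul_mem ((Γ.Q z).inv_mem m) m'
    rwa [show (t * a)⁻¹ * (t * a') = a⁻¹ * a' by group] at this
  have m1 : ⁅r, a'⁆ ∈ A' :=
    A'.mul_mem ((mem_normalizer_iff.1 ((h.pt hA' hz' Bz).norm hr) _).1 ha') (A'.inv_mem ha')
  have m2 : a * ⁅r, a⁻¹ * a'⁆ * a⁻¹ ∈ A' := by
    rcases h.toAx0.comm_or Bz hr hp with e1 | e1
    · rw [e1, mul_one, mul_inv_cancel]
      exact A'.one_mem
    · rw [e1, (h.frm hA).comm ha hz, mul_inv_cancel_right]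
      exact hz'
  have m3 : ⁅r, a⁆ ∈ A' := by
    have := A'.mul_mem m1 (A'.inv_mem m2)
    rwa [show ⁅r, a'⁆ * (a * ⁅r, a⁻¹ * a'⁆ * a⁻¹)⁻¹ = ⁅r, a⁆ by simp only [commutatorElement_def]; group] at this
  rcases e with e | e
  · exact e ▸ m3
  · rw [e] at m3
    exact (A'.mul_mem_cancel_left hz').1 m3
/-- `t a ∈ Q z`, `t a' ∈ Q z`, so `a' = a p` with `p = (t a)⁻¹ (t a') ∈ Q z`, and `a, a' ∉ Q z`.  For `c ∈ A ⊓ Q z` take
`r ∈ Q z` with `⁅r, a⁆ ∈ {c, z c}` (`comm`); `⁅r, a'⁆ = ⁅r, a⁆ · a ⁅r, p⁆ a⁻¹ ∈ {⁅r, a⁆, ⁅r, a⁆ z}` lies in `A'` (`norm`), so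
`c ∈ A'`.  By symmetry `A ⊓ Q z = A' ⊓ Q z`, so `C(A) = C(A')` (`cen`), so `A = C(C(A)) = A'` (`cc`). -/
theorem uniq (hA' : Γ.Ark A') (Bz : Γ.B z) (hz : z ∈ A) (hz' : z ∈ A') (n : t ∉ Γ.Q z) (s : Γ.S A z t)
    (s' : Γ.S A' z t) : A = A' := by
  have e : A ⊓ Γ.Q z = A' ⊓ Γ.Q z := le_antisymm (h.uniq_le hA hA' Bz hz hz' n s s') (h.uniq_le hA' hA Bz hz' hz n s' s)
  have l1 : 𝐂(A') ≤ 𝐂(A) := (centralizer_le inf_le_left).trans (e ▸ (h.pt hA hz Bz).cen)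
  have l2 : 𝐂(A) ≤ 𝐂(A') := (centralizer_le inf_le_left).trans (e ▸ (h.pt hA' hz' Bz).cen)
  exact le_antisymm (((le_centralizer_iff.1 le_rfl).trans (centralizer_le l1)).trans (h.frm hA').cc)
    (((le_centralizer_iff.1 le_rfl).trans (centralizer_le l2)).trans (h.frm hA).cc)

/-- `uniq` for `A` and `A ⋆⋆ g`. -/
theorem norm_of_comm (Bz : Γ.B z) (hz : z ∈ A) (n : t ∉ Γ.Q z) (s : Γ.S A z t) (g1 : g * z = z * g) (g2 : g * t = t * g) :
    g ∈ 𝐍(A) := by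
  obtain ⟨a, ha, m⟩ := s
  refine Core.map_conj_eq_iff.1 (h.uniq hA (h.conjK g hA) Bz hz ?_ n ⟨a, ha, m⟩ ⟨g * a * g⁻¹, ?_, ?_⟩).symm
  · rw [Core.mem_map_conj, mul_assoc, ← g1, inv_mul_cancel_left]
    exact hz
  · rw [Core.mem_map_conj, show g⁻¹ * (g * a * g⁻¹) * g = a by group]
    exact ha
  · rw [show t * (g * a * g⁻¹) = (t * g) * a * g⁻¹ by group, ← g2, mul_assoc g]
    exact h.toAx0.cen_conj Bz g1 m

omit [Finite G] in
theorem comm_of_S (Bz : Γ.B z) (hz : z ∈ A) (s : Γ.S A z t) : t * z = z * t := by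
  obtain ⟨a, ha, m⟩ := s
  have h1 := h.toAx0.comm_of_mem Bz m
  have h2 := (h.frm hA).comm ha hz
  rw [mul_assoc, h2, ← mul_assoc, ← mul_assoc] at h1
  exact mul_right_cancel h1
/-- `r = t a ∈ Q z`, `a ∈ A \ Q z`, `t = r a`.  `p a p⁻¹ = (p r p⁻¹)⁻¹ t ∈ {a, z a}`.  For `c ∈ A ⊓ Q z`,
`p c p⁻¹ ∈ {c, z c}`; if it is `z c` then `b c a = b (z c) (a or z a) = b c a + 1`.  So `p ∈ C(A ⊓ Q z) ≤ C(A)`. -/
theorem cenQ (Bz : Γ.B z) (hz : z ∈ A) (n : t ∉ Γ.Q z) (s : Γ.S A z t) (hp : p ∈ Γ.Q z) (c : p * t = t * p) :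
    p ∈ 𝐂(A) := by
  have tz := h.comm_of_S hA Bz hz s
  obtain ⟨a, ha, m⟩ := s
  have F := h.frm hA
  have P := h.pt hA hz Bz
  have e1 : Γ.b z a = 1 := z2_ne fun e => h.nQ_of_S n m ((P.memQ a ha).2 e)
  have e0 : p * a * p⁻¹ = t⁻¹ * ⁅p, t * a⁆ * (t * a) := by
    calc p * a * p⁻¹ = t⁻¹ * (t * p) * a * p⁻¹ := by group
      _ = _ := by rw [← c, commutatorElement_def]; group
  have e2 : p * a * p⁻¹ = a ∨ p * a * p⁻¹ = z * a := by
    rcases h.toAx0.comm_or Bz hp m with e | e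
    · left
      rw [e0, e]
      group
    · right
      rw [e0, e, mul_assoc, ← mul_assoc z, ← tz]
      group
  refine P.cen (mem_centralizer_iff.2 fun x hx => ?_)
  rcases h.toAx0.comm_or Bz hp hx.2 with e | e
  · exact (commutatorElement_eq_one_iff_mul_comm.1 e).symm
  · exfalso
    have e3 : p * x * p⁻¹ = z * x := by
      rw [← e, commutatorElement_def]
      group
    have e4 := h.toAx0.b_conj p x a
    have e5 : Γ.b x z = 0 := by rw [b_comm (F.comm hx.1 hz), (P.memQ x hx.1).1 hx.2]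
    have k : ∀ s : ZMod 2, 1 + s ≠ s := by decide
    rcases e2 with e2 | e2
    · rw [e3, e2, F.b_mul z hz x hx.1 a ha, e1] at e4
      exact k _ e4
    · rw [e3, e2, F.b_mul z hz x hx.1 _ (A.mul_mem hz ha), F.b_mul_right hz hz ha, F.b_mul_right hx.1 hz ha, e1, e5,
        b_self (F.sq z hz), zero_add, zero_add] at e4
      exact k _ e4

/-- `twoA` and `uniq` (`t` commutes with `z` because `t a` and `a` do; `S A' z t` with `a = t`). -/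
theorem twoA' (Bz : Γ.B z) (hz : z ∈ A) (n : t ∉ Γ.Q z) (s : Γ.S A z t) (t2 : t * t = 1) (nB : ¬ Γ.B t) : t ∈ A := by
  obtain ⟨A', hA', hz', ht⟩ := h.twoA Bz (h.comm_of_S hA Bz hz s) t2 n nB
  rw [h.uniq hA hA' Bz hz hz' n s ⟨t, ht, t2 ▸ one_mem _⟩]
  exact ht

/-- With `z`, `y` from `exists_hyp`: for `c ∈ A ⊓ Q z` one of `c y`, `z c y` is the conjugate `p y p⁻¹` (`comm`), so `B` has at
least `2 ^ 8` elements. -/
theorem seven : ∃ s : Finset G, s.card = 7 ∧ ∀ u ∈ s, Γ.B u := by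
  obtain ⟨z, hz, y, hy, Bz, By, n⟩ := h.exists_hyp hA
  have sub : ((A ⊓ Γ.Q z : Subgroup G) : Set G) ⊆
      (fun x => x * y⁻¹) '' {x | Γ.B x} ∪ (fun x => z⁻¹ * x * y⁻¹) '' {x | Γ.B x} := by
    intro c hc
    obtain ⟨p, -, e | e⟩ := (h.pt hA hz Bz).comm y hy n c hc.1 hc.2
    · exact .inl ⟨_, h.conj p By, e⟩
    · refine .inr ⟨_, h.conj p By, ?_⟩
      rw [commutatorElement_def] at e
      simp only [mul_assoc] at e ⊢
      rw [e, inv_mul_cancel_left]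
  have h1 := (Set.ncard_le_ncard sub).trans ((Set.ncard_union_le _ _).trans
    (Nat.add_le_add Set.ncard_image_le Set.ncard_image_le))
  have h2 : ((A ⊓ Γ.Q z : Subgroup G) : Set G).ncard = 2 ^ 9 := by
    rw [← Nat.card_coe_set_eq]
    exact h.card_inf hA hz Bz
  obtain ⟨s, hs, c7⟩ := Set.exists_subset_card_eq (s := {x | Γ.B x}) (n := 7) (by omega)
  exact ⟨s.toFinite.toFinset, by rw [← c7, Set.ncard_eq_toFinset_card s], fun u hu => hs (s.toFinite.mem_toFinset.1 hu)⟩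

end Ax

end Dat

end Cfsg.Lib.ML
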