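import Cfsg.Agent.Lib.ML.Spin

/-!
# Maximal 2-local subgroups of the Monster: a hyperbolic pair of extremal points (design helper10)
-/

set_option autoImplicit false

namespace Cfsg.Lib.ML

open Subgroup Cfsg.Lib.ES
open scoped commutatorElement

variable {G : Type*} [Group G] [Finite G] {Γ : Dat G} {u v w x y a z t : G} {A R Y : Subgroup G}

namespace M3

/-- index two -/
theorem card_two {H K : Subgroup G} {x : G} (le : H ≤ K) (hx : x ∈ K) (n : x ∉ H)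
    (c : ∀ y ∈ K, y ∉ H → y * x ∈ H) : Nat.card K = 2 * Nat.card H := by
  have i : (H.subgroupOf K).index = 2 := by
    rw [index_eq_two_iff]
    refine ⟨⟨x, hx⟩, fun b => ?_⟩
    simp only [mem_subgroupOf, coe_mul]
    by_cases hb : (b : G) ∈ H
    · exact .inr ⟨hb, fun e => n (by simpa using H.mul_mem (H.inv_mem hb) e)⟩
    · exact .inl ⟨c _ b.2 hb, hb⟩
  have := (H.subgroupOf K).index_mul_card
  rw [i, Nat.card_congr (subgroupOfEquivOfLe le).toEquiv] at this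
  exact this.symm

theorem two_le {H K : Subgroup G} {x : G} (le : H ≤ K) (hx : x ∈ K) (n : x ∉ H) : 2 * Nat.card H ≤ Nat.card K := by
  obtain ⟨k, hk⟩ := card_dvd_of_le le
  have p : 0 < Nat.card K := Nat.card_pos
  have : k ≠ 1 := by
    rintro rfl
    exact n ((eq_of_le_of_card_ge le (by omega)).symm ▸ hx)
  have : k ≠ 0 := by
    rintro rfl
    omega
  rw [hk, mul_comm]
  exact Nat.mul_le_mul_left _ (by omega)

theorem not_le {H K : Subgroup G} {x : G} (le : H ≤ K) (hx : x ∈ K) (n : x ∉ H) : ¬ Nat.card K ≤ Nat.card H := by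
  have := two_le le hx n
  have p : 0 < Nat.card H := Nat.card_pos
  omega

omit [Finite G] in
theorem adjoin {H : Subgroup G} {x : G} (x2 : x * x = 1) (c : ∀ y ∈ H, y * x = x * y) :
    ∃ K : Subgroup G, ∀ y, y ∈ K ↔ y ∈ H ∨ y * x ∈ H := by
  have xi : x⁻¹ = x := inv_eq_of_mul_eq_one_right x2
  have c' : ∀ y, y * x ∈ H → y * x = x * y := fun y hy => by
    have := c _ hy
    rw [mul_assoc, x2, mul_one] at this
    calc y * x = x * x * (y * x) := by rw [x2, one_mul]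
      _ = x * y := by rw [mul_assoc, ← this]
  refine ⟨{ carrier := {y | y ∈ H ∨ y * x ∈ H}, one_mem' := .inl H.one_mem, mul_mem' := ?_, inv_mem' := ?_ },
    fun _ => Iff.rfl⟩
  · rintro a b (ha | ha) (hb | hb)
    · exact .inl (H.mul_mem ha hb)
    · exact .inr (by rw [mul_assoc]; exact H.mul_mem ha hb)
    · exact .inr (by rw [mul_assoc, c b hb, ← mul_assoc]; exact H.mul_mem ha hb)
    · refine .inl ?_
      have := H.mul_mem ha hb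
      rwa [c' b hb, mul_assoc, ← mul_assoc x, x2, one_mul] at this
  · rintro a (ha | ha)
    · exact .inl (H.inv_mem ha)
    · refine .inr ?_
      have := H.inv_mem ha
      rwa [c' a ha, mul_inv_rev, xi] at this

end M3

namespace Dat

/-- `Y ∩ C(A) ∩ Q u A` -/
def YS (Γ : Dat G) (A Y : Subgroup G) (u : G) : Subgroup G := closure {x | x ∈ Y ∧ x ∈ 𝐂(A) ∧ Γ.S A u x}

namespace Ax

variable (h : Γ.Ax) (L : Loc R Y)
include h L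

/-- `dich`.  In the first case `K = (Q z ⊓ C(t)) ⊔ ⟨t⟩ ≤ Q w`, `w ∈ K`, so `rad K ≠ ⊥` (`mem_rad`); it is elementary and
normalised by `R` (`R` centralises `z`, `t`; `norm_rad`); `fixpt` gives `w' ∈ Y ∩ B` with `K ≤ Q w'`, and
`Y ⊓ Q z < Y ⊓ Q w'` (`t`), against `Mx.max`. -/
theorem m1 (hz : Γ.Mx Y z) (ht : t ∈ Y) (n : t ∉ Γ.Q z) : ∃ A, Γ.Ark A ∧ z ∈ A ∧ t ∈ 𝐂(A) ∧ Γ.S A z t := by
  rcases h.dich hz.B (L.comm ht hz.mem) (L.sq t ht) n with ⟨w, Bw, wz, tw, hw⟩ | h2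
  swap
  · exact h2
  exfalso
  set K : Subgroup G := closure {x | (x ∈ Γ.Q z ∧ x * t = t * x) ∨ x = t} with hK
  have KQ : K ≤ Γ.Q w := by
    rw [hK, closure_le]
    rintro x (⟨h1, h2⟩ | rfl)
    · exact hw x h1 h2
    · exact tw
  have wK : w ∈ K := subset_closure (.inl ⟨wz, (h.comm_of_mem Bw tw).symm⟩)
  have ne : Γ.rad K ≠ ⊥ := fun e => h.ne_one Bw (by
    have : w ∈ Γ.rad K := h.mem_rad.2 (.inr ⟨Bw, wK, KQ⟩)
    rwa [e, mem_bot] at this)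
  have nR : R ≤ 𝐍(Γ.rad K) := fun g hg => by
    refine h.norm_rad (mem_normalizer_fintype fun x hx => ?_)
    have gz : z * g = g * z := L.cen hg z hz.mem
    have gt : t * g = g * t := L.cen hg t ht
    have : K ≤ K.comap (MulAut.conj g).toMonoidHom := by
      conv_lhs => rw [hK]
      rw [closure_le]
      rintro x (⟨h1, h2⟩ | rfl)
      · refine subset_closure (.inl ⟨h.cen_conj hz.B gz.symm h1, ?_⟩)
        have e : t = g * t * g⁻¹ := by rw [← gt]; group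
        change g * x * g⁻¹ * t = t * (g * x * g⁻¹)
        calc g * x * g⁻¹ * t = g * x * g⁻¹ * (g * t * g⁻¹) := by rw [← e]
          _ = g * (x * t) * g⁻¹ := by group
          _ = g * t * g⁻¹ * (g * x * g⁻¹) := by rw [h2]; group
          _ = t * (g * x * g⁻¹) := by rw [← e]
      · refine subset_closure (.inr ?_)
        change g * x * g⁻¹ = x
        rw [← gt]; group
    exact this hx
  obtain ⟨w', m, w1, wY⟩ := L.fixpt ne (fun x hx => by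
    rcases h.mem_rad.1 hx with rfl | hx
    · exact mul_one _
    · exact h.sq hx.1) nR
  rcases h.mem_rad.1 m with e | ⟨Bw', -, le⟩
  · exact w1 e
  refine M3.not_le (H := Y ⊓ Γ.Q z) (K := Y ⊓ Γ.Q w') (x := t) ?_ ⟨ht, le (subset_closure (.inr rfl))⟩
    (fun e => n e.2) (hz.max w' wY Bw')
  exact fun x hx => ⟨hx.1, le (subset_closure (.inl ⟨hx.2, L.comm hx.1 ht⟩))⟩

omit L in
/-- `S_mul`; `x⁻¹ = x` is not needed: `S` is closed under inverses in `C(A)`. -/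
theorem mem_YS (hA : Γ.Ark A) (Bu : Γ.B u) : x ∈ Γ.YS A Y u ↔ x ∈ Y ∧ x ∈ 𝐂(A) ∧ Γ.S A u x := by
  have _ := Bu
  refine ⟨fun hx => ?_, fun hx => subset_closure hx⟩
  induction hx using closure_induction with
  | mem x hx => exact hx
  | one => exact ⟨one_mem _, one_mem _, S.of_mem (one_mem _)⟩
  | mul x y _ _ hx hy => exact ⟨mul_mem hx.1 hy.1, mul_mem hx.2.1 hy.2.1, h.S_mul hA hy.2.1 hx.2.2 hy.2.2⟩
  | inv x _ hx =>
    obtain ⟨h1, h2, a, ha, h3⟩ := hx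
    refine ⟨inv_mem h1, inv_mem h2, a⁻¹, inv_mem ha, ?_⟩
    have := inv_mem h3
    rwa [← h2 a ha, mul_inv_rev] at this

omit L in
theorem YS_mul (hA : Γ.Ark A) (hu : u ∈ A) (Bu : Γ.B u) (hx : x ∈ Γ.YS A Y u) (ht : t ∈ Γ.YS A Y u) (n1 : x ∉ Γ.Q u)
    (n2 : t ∉ Γ.Q u) : x * t ∈ Γ.Q u := by
  obtain ⟨-, -, a, ha, h1⟩ := (h.mem_YS hA Bu).1 hx
  obtain ⟨-, c, b, hb, h2⟩ := (h.mem_YS hA Bu).1 ht
  have na : a ∉ Γ.Q u := fun e => n1 (by simpa using mul_mem h1 (inv_mem e))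
  have nb : b ∉ Γ.Q u := fun e => n2 (by simpa using mul_mem h2 (inv_mem e))
  have := mul_mem (mul_mem h1 h2) (inv_mem (h.mul_mem_Q hA hu Bu ha hb na nb))
  have e : x * a * (t * b) * (a * b)⁻¹ = x * t := by
    calc x * a * (t * b) * (a * b)⁻¹ = x * (a * t) * a⁻¹ := by group
      _ = x * t := by rw [c a ha]; group
  rwa [e] at this

omit L in
theorem YS_le (hA : Γ.Ark A) (Bu : Γ.B u) : Γ.YS A Y u ≤ Y := fun _ hx => ((h.mem_YS hA Bu).1 hx).1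

omit L in
theorem le_YS (hA : Γ.Ark A) (Bu : Γ.B u) : Y ⊓ A ≤ Γ.YS A Y u := fun _ hx =>
  (h.mem_YS hA Bu).2 ⟨hx.1, (h.frm hA).le_cen hx.2, h.S_of_memA hA Bu hx.2⟩

omit L in
/-- for `x, x' ∈ YS \ Q u`, `x x' ∈ Q u` (`mul_mem_Q`): index at most two -/
theorem card_YS_le (hA : Γ.Ark A) (hu : u ∈ A) (Bu : Γ.B u) : Nat.card (Γ.YS A Y u) ≤ 2 * Nat.card ↥(Y ⊓ Γ.Q u) := by
  have le : Γ.YS A Y u ⊓ Γ.Q u ≤ Y ⊓ Γ.Q u := inf_le_inf_right _ (h.YS_le hA Bu)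
  have := card_le_of_le le
  by_cases c : Γ.YS A Y u ≤ Γ.Q u
  · rw [inf_eq_left.2 c] at this
    omega
  · obtain ⟨x, hx, n⟩ := SetLike.not_le_iff_exists.1 c
    rw [M3.card_two (H := Γ.YS A Y u ⊓ Γ.Q u) inf_le_left hx (fun e => n e.2)
      fun y hy ny => ⟨mul_mem hy hx, h.YS_mul hA hu Bu hy hx (fun e => ny ⟨hy, e⟩) n⟩]
    omega

/-- `Y ⊓ Q z ≤ YS` by `cenQ`, and `y ∈ YS \ Q z`. -/
theorem card_YS (hA : Γ.Ark A) (hz : z ∈ A) (Bz : Γ.B z) (hy : y ∈ Y) (hy' : y ∈ 𝐂(A)) (n : y ∉ Γ.Q z) (s : Γ.S A z y) :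
    Nat.card (Γ.YS A Y z) = 2 * Nat.card ↥(Y ⊓ Γ.Q z) := by
  have m : y ∈ Γ.YS A Y z := (h.mem_YS hA Bz).2 ⟨hy, hy', s⟩
  refine M3.card_two (x := y) (fun x hx => ?_) m (fun e => n e.2) fun x hx nx => ?_
  · exact (h.mem_YS hA Bz).2 ⟨hx.1, h.cenQ hA Bz hz n s hx.2 (L.comm hx.1 hy), S.of_mem hx.2⟩
  · have xY := h.YS_le hA Bz hx
    exact ⟨mul_mem xY hy, h.YS_mul hA hz Bz hx m (fun e => nx ⟨xY, e⟩) n⟩

variable (hz : Γ.Mx Y z) (hy : Γ.Mx Y y) (hA : Γ.Ark A) (mz : z ∈ A) (my : y ∈ A) (n : y ∉ Γ.Q z)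
include hz hy hA mz my n

theorem card_z : Nat.card (Γ.YS A Y z) = 2 * Nat.card ↥(Y ⊓ Γ.Q z) :=
  h.card_YS L hA mz hz.B hy.mem ((h.frm hA).le_cen my) n (h.S_of_memA hA hz.B my)

theorem card_zy : Nat.card (Γ.YS A Y y) = Nat.card (Γ.YS A Y z) := by
  have h1 := h.card_z L hz hy hA mz my n
  have h2 := h.card_z L hy hz hA my mz fun e => n (h.sym hy.B hz.B e)
  have h3 := hz.max y hy.mem hy.B
  have h4 := hy.max z hz.mem hz.B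
  omega

omit L in
theorem zy_mem (h1 : x ∈ Γ.YS A Y z) (h2 : x ∈ Γ.YS A Y y) : x ∈ A :=
  h.S_disj hA mz hz.B my hy.B n ((h.mem_YS hA hz.B).1 h1).2.1 ((h.mem_YS hA hz.B).1 h1).2.2
    ((h.mem_YS hA hy.B).1 h2).2.2

theorem normA (hg : x ∈ 𝐂(Y)) : x ∈ 𝐍(A) :=
  have _ := L
  h.norm_of_comm hA hz.B mz n (h.S_of_memA hA hz.B my) (hg z hz.mem).symm (hg y hy.mem).symm

theorem no_big (hw : w ∈ Y) (mw : w ∈ A) (Bw : Γ.B w) (le : Γ.YS A Y z ≤ Γ.YS A Y w) (ht : t ∈ Γ.YS A Y w) :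
    t ∈ Γ.YS A Y z := by
  by_contra nt
  refine M3.not_le le ht nt ?_
  have h1 := h.card_z L hz hy hA mz my n
  have h2 := h.card_YS_le (Y := Y) hA mw Bw
  have h3 := hz.max w hw Bw
  omega

/-- `Y_z = YS A Y z`, `Y_y` have the same order (`card_YS`, `Mx.max` both ways), `Y_z ⊓ Y_y = Y ⊓ A` (`S_disj`).  If
`|Y_z| ≥ 8 |Y ⊓ A|` then `Y_z Y_y` has order `≥ 64 |Y ⊓ A|`, meets `A` in `Y ⊓ A`, and the elementary abelian group
`Y_z Y_y A` has order `≥ 2 ^ 16`, against `rank`.  So the index of `Y ⊓ A` in `Y_z` is `1, 2, 4`. -/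
theorem two_gen : ∃ t₁ ∈ Γ.YS A Y z, ∃ t₂ ∈ Γ.YS A Y z, ∀ x ∈ Γ.YS A Y z,
    x ∈ A ∨ x * t₁ ∈ A ∨ x * t₂ ∈ A ∨ x * t₁ * t₂ ∈ A := by
  by_contra hc
  push Not at hc
  have zY := h.YS_le (Y := Y) hA hz.B
  have yY := h.YS_le (Y := Y) hA hy.B
  obtain ⟨x₁, m1, n1, -⟩ := hc 1 (one_mem _) 1 (one_mem _)
  obtain ⟨x₂, m2, n2, n21, -⟩ := hc x₁ m1 1 (one_mem _)
  obtain ⟨x₃, m3, n3, n31, n32, n312⟩ := hc x₁ m1 x₂ m2
  obtain ⟨D₁, hD₁⟩ := M3.adjoin (H := Y ⊓ A) (L.sq _ (zY m1)) fun y hy => L.comm hy.1 (zY m1)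
  have l0 := h.le_YS (Y := Y) hA hz.B
  have l1 : D₁ ≤ Γ.YS A Y z := fun a ha => by
    rcases (hD₁ a).1 ha with e | e
    · exact l0 e
    · simpa using mul_mem (l0 e) (inv_mem m1)
  obtain ⟨D₂, hD₂⟩ := M3.adjoin (H := D₁) (L.sq _ (zY m2)) fun y hy => L.comm (zY (l1 hy)) (zY m2)
  have l2 : D₂ ≤ Γ.YS A Y z := fun a ha => by
    rcases (hD₂ a).1 ha with e | e
    · exact l1 e
    · simpa using mul_mem (l1 e) (inv_mem m2)
  have c1 := M3.two_le (H := Y ⊓ A) (K := D₁) (x := x₁) (fun a ha => (hD₁ a).2 (.inl ha))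
    ((hD₁ _).2 (.inr (by rw [L.sq _ (zY m1)]; exact one_mem _))) fun e => n1 e.2
  have c2 := M3.two_le (H := D₁) (K := D₂) (x := x₂) (fun a ha => (hD₂ a).2 (.inl ha))
    ((hD₂ _).2 (.inr (by rw [L.sq _ (zY m2)]; exact one_mem _))) fun e => by
      rcases (hD₁ _).1 e with e | e
      · exact n2 e.2
      · exact n21 e.2
  have c3 := M3.two_le l2 m3 fun e => by
    rcases (hD₂ _).1 e with e | e <;> rcases (hD₁ _).1 e with e | e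
    · exact n3 e.2
    · exact n31 e.2
    · exact n32 e.2
    · refine n312 ?_
      rw [mul_assoc, L.comm (zY m1) (zY m2), ← mul_assoc]
      exact e.2
  have YC : Y ≤ 𝐂(Y) := fun a ha b hb => L.comm hb ha
  have e1 := Core.card_sup_mul_card_inf (H := Γ.YS A Y z) (N := Γ.YS A Y y)
    (zY.trans (YC.trans ((centralizer_le (by exact yY)).trans (centralizer_le_normalizer _))))
  have i1 : Γ.YS A Y z ⊓ Γ.YS A Y y = Y ⊓ A :=
    le_antisymm (fun a ha => ⟨zY ha.1, h.zy_mem hz hy hA mz my n ha.1 ha.2⟩) (le_inf l0 (h.le_YS hA hy.B))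
  have l3 : Γ.YS A Y z ⊔ Γ.YS A Y y ≤ Y ⊓ 𝐂(A) :=
    sup_le (fun a ha => ⟨zY ha, ((h.mem_YS hA hz.B).1 ha).2.1⟩) fun a ha => ⟨yY ha, ((h.mem_YS hA hy.B).1 ha).2.1⟩
  have c4 := card_le_of_le l3
  have nA : Y ⊓ 𝐂(A) ≤ 𝐍(A) := inf_le_right.trans (centralizer_le_normalizer _)
  have e2 := Core.card_sup_mul_card_inf (H := Y ⊓ 𝐂(A)) (N := A) nA
  have i2 : Y ⊓ 𝐂(A) ⊓ A = Y ⊓ A := by rw [inf_assoc, inf_eq_right.2 (h.frm hA).le_cen]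
  rw [i1, h.card_zy L hz hy hA mz my n] at e1
  rw [i2, (h.frm hA).card] at e2
  have dec : ∀ x ∈ Y ⊓ 𝐂(A) ⊔ A, ∃ p ∈ Y ⊓ 𝐂(A), ∃ a ∈ A, x = p * a := fun x hx => by
    have : x ∈ ((Y ⊓ 𝐂(A) ⊔ A : Subgroup G) : Set G) := hx
    rw [coe_mul_of_left_le_normalizer_right _ _ nA] at this
    obtain ⟨p, hp, a, ha, rfl⟩ := this
    exact ⟨p, hp, a, ha, rfl⟩
  have r := h.rank (Y ⊓ 𝐂(A) ⊔ A) ⟨⟨fun a b => Subtype.ext (by
    obtain ⟨p, hp, c, hc, e⟩ := dec _ a.2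
    obtain ⟨q, hq, d, hd, e'⟩ := dec _ b.2
    simp only [coe_mul]
    rw [e, e']
    have k1 : Commute p q := L.comm hp.1 hq.1
    have k2 : Commute p d := (hp.2 d hd).symm
    have k3 : Commute c q := hq.2 c hc
    have k4 : Commute c d := (h.frm hA).comm hc hd
    exact (k1.mul_right k2).mul_left (k3.mul_right k4))⟩⟩ fun x hx => by
      obtain ⟨p, hp, c, hc, rfl⟩ := dec _ hx
      have k : Commute p c := (hp.2 c hc).symm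
      rw [k.mul_pow, sq, sq, L.sq p hp.1, (h.frm hA).sq c hc, mul_one]
  have p : 0 < Nat.card ↥(Y ⊓ A) := Nat.card_pos
  generalize Nat.card ↥(Y ⊓ A) = d at *
  generalize Nat.card ↥(Γ.YS A Y z) = m at *
  generalize Nat.card ↥(Γ.YS A Y z ⊔ Γ.YS A Y y) = s at *
  generalize Nat.card ↥(Y ⊓ 𝐂(A)) = s' at *
  generalize Nat.card ↥(Y ⊓ 𝐂(A) ⊔ A) = k at *
  have a1 : 8 * d ≤ m := by omega
  have a2 : 64 * d * d ≤ s * d := by rw [e1]; nlinarith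
  have a3 : 64 * d ≤ s := Nat.le_of_mul_le_mul_right a2 p
  have a4 : k * d ≤ 2 ^ 15 * d := Nat.mul_le_mul_right _ r
  omega

/-- `R ≤ N(A)` (`norm_of_comm`).  For `w ∈ Y ∩ A ∩ B`: `|YS w| ≤ 2 |Y ⊓ Q w| ≤ 2 |Y ⊓ Q z| = |Y_z|`.  Let `t ∈ Y ⊓ O \ A`.
If `Y_z ≤ A`: `U A t ≠ ⊥` (`card_U`) is normalised by `R` (`norm_U`), `fixpt` gives `w`, `B w` (`U_ts`), and
`YS w ≥ Y ⊓ A ≥ Y_z` contains `t ∉ Y_z`.  Otherwise `Y_y ≰ A` (same order, `Y_y ≤ A` would give `Y_y ≤ Y ⊓ A < Y_z`): take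
`t₃ ∈ Y_y \ A`, `t₁, t₂` from `two_gen`; `V = U t₁ ⊓ U t₂ ⊓ U t₃ ≠ ⊥` (`cp_mixed`, `S_iff`), `fixpt` gives `w ∈ V ∩ Y`, `B w`,
`YS w ≥ Y_z` contains `t₃ ∉ Y_z` (`S_disj`). -/
theorem m3a : Y ⊓ 𝐂(A) ≤ A := by
  rintro t ⟨tY, tC⟩
  by_contra nt
  have zY := h.YS_le (Y := Y) hA hz.B
  have yY := h.YS_le (Y := Y) hA hy.B
  have nU : ∀ s ∈ Y, s ∈ 𝐂(A) → R ≤ 𝐍(Γ.U A s) := fun s hs hs' g hg =>
    h.norm_U hA hs' (h.normA L hz hy hA mz my n (L.cen hg)) (L.cen hg s hs).symm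
  by_cases c : Γ.YS A Y z ≤ A
  · have ne : Γ.U A t ≠ ⊥ := fun e => by
      have := h.card_U hA tC (L.sq t tY) nt
      rw [e, card_bot] at this
      omega
    obtain ⟨w, m, w1, wY⟩ := L.fixpt ne (fun x hx => (h.frm hA).sq x (h.U_le hA t hx)) (nU t tY tC)
    have Bw := (h.U_ts hA tC (L.sq t tY) nt m).resolve_left w1
    have wA := h.U_le hA t m
    exact nt (c (h.no_big L hz hy hA mz my n wY wA Bw (fun x hx => h.le_YS hA Bw ⟨zY hx, c hx⟩)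
      ((h.mem_YS hA Bw).2 ⟨tY, tC, (h.S_iff hA wA Bw tC).2 m⟩)))
  · obtain ⟨t₀, m0, n0⟩ := SetLike.not_le_iff_exists.1 c
    have c' : ¬ Γ.YS A Y y ≤ A := fun e =>
      M3.not_le (H := Γ.YS A Y y) (fun x hx => h.le_YS hA hz.B ⟨yY hx, e hx⟩) m0 (fun e' => n0 (e e'))
        (h.card_zy L hz hy hA mz my n).ge
    obtain ⟨t₃, m3, n3⟩ := SetLike.not_le_iff_exists.1 c'
    obtain ⟨t₁, m1, t₂, m2, gen⟩ := h.two_gen L hz hy hA mz my n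
    obtain ⟨Y1, C1, S1⟩ := (h.mem_YS hA hz.B).1 m1
    obtain ⟨Y2, C2, S2⟩ := (h.mem_YS hA hz.B).1 m2
    obtain ⟨Y3, C3, S3⟩ := (h.mem_YS hA hy.B).1 m3
    obtain ⟨w₀, A0, B0, s1, s2, s3⟩ := h.cp_mixed hA mz hz.B my hy.B n C1 C2 C3 S1 S2 S3 (L.sq _ Y1) (L.sq _ Y2)
      (L.sq _ Y3) (L.comm Y1 Y2) (L.comm Y1 Y3) (L.comm Y2 Y3)
    have ne : Γ.U A t₁ ⊓ Γ.U A t₂ ⊓ Γ.U A t₃ ≠ ⊥ := fun e => h.ne_one B0 (by
      have : w₀ ∈ Γ.U A t₁ ⊓ Γ.U A t₂ ⊓ Γ.U A t₃ :=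
        ⟨⟨(h.S_iff hA A0 B0 C1).1 s1, (h.S_iff hA A0 B0 C2).1 s2⟩, (h.S_iff hA A0 B0 C3).1 s3⟩
      rwa [e, mem_bot] at this)
    obtain ⟨w, m, w1, wY⟩ := L.fixpt ne (fun x hx => (h.frm hA).sq x (h.U_le hA t₃ hx.2)) fun g hg =>
      inf_normalizer_le_normalizer_inf ⟨inf_normalizer_le_normalizer_inf ⟨nU _ Y1 C1 hg, nU _ Y2 C2 hg⟩, nU _ Y3 C3 hg⟩
    have Bw := (h.U_ts hA C3 (L.sq _ Y3) n3 m.2).resolve_left w1
    have wA := h.U_le hA t₃ m.2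
    have k1 : t₁ ∈ Γ.YS A Y w := (h.mem_YS hA Bw).2 ⟨Y1, C1, (h.S_iff hA wA Bw C1).2 m.1.1⟩
    have k2 : t₂ ∈ Γ.YS A Y w := (h.mem_YS hA Bw).2 ⟨Y2, C2, (h.S_iff hA wA Bw C2).2 m.1.2⟩
    have k3 : t₃ ∈ Γ.YS A Y w := (h.mem_YS hA Bw).2 ⟨Y3, C3, (h.S_iff hA wA Bw C3).2 m.2⟩
    have l0 := h.le_YS (Y := Y) hA Bw
    refine n3 (h.zy_mem hz hy hA mz my n (h.no_big L hz hy hA mz my n wY wA Bw (fun x hx => ?_) k3) m3)
    have xY := zY hx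
    rcases gen x hx with e | e | e | e
    · exact l0 ⟨xY, e⟩
    · simpa using mul_mem (l0 ⟨mul_mem xY Y1, e⟩) (inv_mem k1)
    · simpa using mul_mem (l0 ⟨mul_mem xY Y2, e⟩) (inv_mem k2)
    · simpa using mul_mem (mul_mem (l0 ⟨mul_mem (mul_mem xY Y1) Y2, e⟩) (inv_mem k2)) (inv_mem k1)

/-- `|Y ⊓ A| = |Y_z| = 2 |Y ⊓ Q z|` (`m3a`, `card_YS`).  If `Y ⊓ A ≤ Q w` then `|Y ⊓ Q w| ≥ 2 |Y ⊓ Q z|`. -/
theorem no_rad (hw : w ∈ Y) (Bw : Γ.B w) : ¬ Y ⊓ A ≤ Γ.Q w := by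
  intro le
  have l : Γ.YS A Y z ≤ Y ⊓ Γ.Q w := fun x hx => by
    obtain ⟨h1, h2, -⟩ := (h.mem_YS hA hz.B).1 hx
    exact ⟨h1, le ⟨h1, h.m3a L hz hy hA mz my n ⟨h1, h2⟩⟩⟩
  have h1 := card_le_of_le l
  have h2 := h.card_z L hz hy hA mz my n
  have h3 := hz.max w hw Bw
  have p : 0 < Nat.card ↥(Y ⊓ Γ.Q z) := Nat.card_pos
  omega

omit L hy hA mz my n in
theorem tw_mem {A' : Subgroup G} {s a' : G} (hA' : Γ.Ark A') (mz : z ∈ A') (ha' : a' ∈ A') (r : s * a' ∈ Γ.Q z)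
    (ha : a ∈ Γ.Q z) (a2 : a * a = 1) : a * (s * a * s⁻¹) ∈ A' := by
  have N := (h.pt hA' mz hz.B).norm
  have c1 : a'⁻¹ * (a * a' * a⁻¹) ∈ A' := mul_mem (inv_mem ha') ((mem_normalizer_iff.1 (N ha) _).1 ha')
  have c2 := (mem_normalizer_iff.1 (N r) _).1 c1
  have c3 : ⁅s * a', a⁆ ∈ A' := by
    rcases h.comm_or hz.B r ha with e | e <;> rw [e]
    · exact one_mem _
    · exact mz
  have := (mem_normalizer_iff.1 (N ha) _).1 (mul_mem c2 c3)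
  have e : a * (s * a' * (a'⁻¹ * (a * a' * a⁻¹)) * (s * a')⁻¹ * ⁅s * a', a⁆) * a⁻¹ =
      a * (s * a * s⁻¹) * (a * a)⁻¹ := by
    rw [commutatorElement_def]; group
  rw [e, a2] at this
  simpa using this

/-- Let `t ∈ Y \ A`, so `t ∉ O` (`m3a`), `t ∈ N(A)`.  `V = {a · t a t⁻¹ | a ∈ A}` is a subgroup of `A`, `≠ ⊥`, normalised by
`R`, orthogonal to `Y ⊓ A` (`b (a · t a t⁻¹) c = b a c + b (t a t⁻¹) (t c t⁻¹) = 0`).  `fixpt`: `1 ≠ v ∈ V ∩ Y`; `v ∉ B` by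
`no_rad` (`memQ`).  `v = a · t a t⁻¹`; replacing `a` by `a y` we may assume `a ∈ Q z`; so `v ∈ Q z`.  `t, t y ∉ Q z` (else
`cenQ` with `y` gives `t ∈ O`).  `m1`: arks `A₁ ∋ z` for `t`, `A₃ ∋ z` for `t y`, with `a₁ ∈ A₁`, `t a₁ ∈ Q z`,
`a₃ ∈ A₃`, `t y a₃ ∈ Q z`; `a₁, a₃ ∉ Q z`.  `Q z` is normalised by all these elements, `a₁ y a₃ ∈ Q z`.
`v ∈ A₁`: `t = r a₁`, `r ∈ Q z`, `v = a t a t⁻¹ = ⁅a, t⁆ = ⁅a, r⁆ · r ⁅a, a₁⁆ r⁻¹` with `⁅a, r⁆ ∈ {1, z}`, `⁅a, a₁⁆ ∈ A₁`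
(`At.norm`).  Likewise `v = ⁅a, t y⁆ ∈ A₃` (`a` commutes with `y`).  `lemP` gives `v = 1 ∨ B v`. -/
theorem m3 : Y ≤ A := by
  intro t tY
  by_contra nt
  have F := h.frm hA
  have tC : t ∉ 𝐂(A) := fun e => nt (h.m3a L hz hy hA mz my n ⟨tY, e⟩)
  have tN : ∀ a ∈ A, t * a * t⁻¹ ∈ A := fun a ha =>
    (mem_normalizer_iff.1 (h.normA L hz hy hA mz my n fun b hb => L.comm hb tY) a).1 ha
  let V : Subgroup G :=
    { carrier := {v | ∃ a ∈ A, v = a * (t * a * t⁻¹)}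
      one_mem' := ⟨1, one_mem _, by group⟩
      mul_mem' := by
        rintro _ _ ⟨a, ha, rfl⟩ ⟨b, hb, rfl⟩
        refine ⟨a * b, mul_mem ha hb, ?_⟩
        calc a * (t * a * t⁻¹) * (b * (t * b * t⁻¹)) = a * (t * a * t⁻¹ * b) * (t * b * t⁻¹) := by group
          _ = a * b * (t * (a * b) * t⁻¹) := by rw [F.comm (tN a ha) hb]; group
      inv_mem' := by
        rintro _ ⟨a, ha, rfl⟩
        refine ⟨a⁻¹, inv_mem ha, ?_⟩
        rw [F.comm ha (tN a ha)]; group }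
  have VA : V ≤ A := by
    rintro _ ⟨a, ha, rfl⟩
    exact mul_mem ha (tN a ha)
  have ne : V ≠ ⊥ := fun e => tC fun a ha => by
    have : a * (t * a * t⁻¹) ∈ V := ⟨a, ha, rfl⟩
    rw [e, mem_bot] at this
    have e2 : t * a * t⁻¹ = a := mul_left_cancel (this.trans (F.sq a ha).symm)
    conv_lhs => rw [← e2]
    group
  obtain ⟨v, ⟨a₀, ha₀, hv₀⟩, v1, vY⟩ := L.fixpt ne (fun x hx => F.sq x (VA hx)) fun g hg =>
    mem_normalizer_fintype (by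
      rintro _ ⟨a, ha, rfl⟩
      refine ⟨g * a * g⁻¹, (mem_normalizer_iff.1 (h.normA L hz hy hA mz my n (L.cen hg)) a).1 ha, ?_⟩
      have gt : t * g = g * t := L.cen hg t tY
      calc g * (a * (t * a * t⁻¹)) * g⁻¹ = g * a * g⁻¹ * ((g * t) * a * (g * t)⁻¹) := by group
        _ = _ := by rw [← gt]; group)
  have vA : v ∈ A := VA ⟨a₀, ha₀, hv₀⟩
  have nB : ¬ Γ.B v := fun Bv => h.no_rad L hz hy hA mz my n vY Bv fun c hc => by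
    rw [(h.pt hA vA Bv).memQ c hc.2, hv₀, F.b_mul _ ha₀ _ (tN _ ha₀) _ hc.2]
    have e : c = t * c * t⁻¹ := by rw [L.comm tY hc.1]; group
    conv_lhs => rw [e, h.b_conj, ← e]
    exact CharTwo.add_self_eq_zero _
  have ty : t * y = y * t := L.comm tY hy.mem
  have y2 := L.sq y hy.mem
  obtain ⟨a, ha, aQ, hv⟩ : ∃ a ∈ A, a ∈ Γ.Q z ∧ v = a * (t * a * t⁻¹) := by
    by_cases c : a₀ ∈ Γ.Q z
    · exact ⟨a₀, ha₀, c, hv₀⟩
    · refine ⟨a₀ * y, mul_mem ha₀ my, h.mul_mem_Q hA mz hz.B ha₀ my c n, ?_⟩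
      calc v = a₀ * (t * a₀ * t⁻¹) * (y * y) := by rw [hv₀, y2, mul_one]
        _ = a₀ * (t * a₀ * t⁻¹ * y) * y := by group
        _ = a₀ * y * (t * a₀ * t⁻¹) * (y * t) * t⁻¹ := by rw [F.comm (tN _ ha₀) my]; group
        _ = _ := by rw [← ty]; group
  have tz : t * z = z * t := L.comm tY hz.mem
  have vQ : v ∈ Γ.Q z := hv ▸ mul_mem aQ (h.cen_conj hz.B tz aQ)
  have sy := h.S_of_memA hA hz.B my
  have n1 : t ∉ Γ.Q z := fun e => tC (h.cenQ hA hz.B mz n sy e ty)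
  have tyY := mul_mem tY hy.mem
  have n3 : t * y ∉ Γ.Q z := fun e => tC (by
    simpa using mul_mem (h.cenQ hA hz.B mz n sy e (L.comm tyY hy.mem)) (inv_mem (F.le_cen my)))
  obtain ⟨A₁, k1, z1, -, a₁, m1, r1⟩ := h.m1 L hz tY n1
  obtain ⟨A₃, k3, z3, -, a₃, m3, r3⟩ := h.m1 L hz tyY n3
  have v1' : v ∈ A₁ := hv ▸ h.tw_mem hz k1 z1 m1 r1 aQ (F.sq a ha)
  have v3' : v ∈ A₃ := by
    have := h.tw_mem hz k3 z3 m3 r3 aQ (F.sq a ha)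
    have e : t * y * a * (t * y)⁻¹ = t * a * t⁻¹ := by rw [mul_assoc t, F.comm my ha]; group
    rwa [e, ← hv] at this
  have pr : a₁ * y * a₃ ∈ Γ.Q z := by
    have := mul_mem (h.cen_conj hz.B tz r1) r3
    have e : t * (t * a₁) * t⁻¹ * (t * y * a₃) = (t * t) * (a₁ * y * a₃) := by group
    rwa [e, L.sq t tY, one_mul] at this
  rcases h.lemP hz.B k1 hA k3 z1 mz z3 m1 my m3 (fun e => n1 (by simpa using mul_mem r1 (inv_mem e))) n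
    (fun e => n3 (by simpa using mul_mem r3 (inv_mem e))) pr v1' vA v3' vQ with e | e
  · exact v1 e
  · exact nB e

end Ax

end Dat

end Cfsg.Lib.ML
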