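import Cfsg.Agent.Lib.ML.T3
import Cfsg.Agent.Lib.ML.M3

/-!
# Maximal 2-local subgroups of the Monster: no extremal pair of type `2a3` (design helper10)

`Z = Y ⊓ Q z`, `X = Y ⊓ Q z ⊓ Q y`, `N = U A y ⊓ Q y` (order 16).
-/

set_option autoImplicit false

namespace Cfsg.Lib.ML

open Subgroup Cfsg.Lib.ES
open scoped commutatorElement

variable {G : Type*} [Group G] [Finite G] {Γ : Dat G} {u v w x y a z t p : G} {A A' K R Y : Subgroup G}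

theorem m4_rel (H K : Subgroup G) : Nat.card ↥(H ⊓ K) * H.relIndex K = Nat.card K := by
  rw [← inf_relIndex_right, ← Nat.card_congr (subgroupOfEquivOfLe (inf_le_right : H ⊓ K ≤ K)).toEquiv]
  exact card_mul_index _

theorem m4_cm {H K J : Subgroup G} (h1 : H ≤ J) (h2 : K ≤ J) :
    Nat.card H * Nat.card K ≤ Nat.card J * Nat.card ↥(H ⊓ K) := by
  have e := m4_rel H J
  rw [inf_eq_left.2 h1] at e
  have l := relIndex_le_of_le_right (H := H) h2 index_ne_zero_of_finite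
  rw [← m4_rel H K, ← e]
  calc _ ≤ Nat.card H * (Nat.card ↥(H ⊓ K) * H.relIndex J) := by gcongr
    _ = _ := by ring

theorem m4_two {H K : Subgroup G} (h1 : H ≤ K) (hx : x ∈ K) (n : x ∉ H) : 2 * Nat.card H ≤ Nat.card K := by
  obtain ⟨k, e⟩ := card_dvd_of_le h1
  have p := Nat.card_pos (α := K)
  have : k ≠ 1 := fun e1 => n (eq_of_le_of_card_ge h1 (by rw [e, e1, mul_one]) ▸ hx)
  have : k ≠ 0 := fun e1 => by rw [e1] at e; omega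
  rw [e, mul_comm]
  exact Nat.mul_le_mul_left _ (by omega)

theorem m4_idx {H K : Subgroup G} (h : ∀ p ∈ H, ∀ q ∈ H, p ∉ K → q ∉ K → p * q ∈ K) :
    Nat.card H ≤ 2 * Nat.card ↥(H ⊓ K) := by
  classical
  by_cases c : H ≤ K
  · rw [inf_eq_left.2 c]; omega
  obtain ⟨x, hx, n⟩ := SetLike.not_le_iff_exists.1 c
  let f : H → Bool × ↥(H ⊓ K) := fun p =>
    if m : (p : G) ∈ K then (true, ⟨p, p.2, m⟩) else (false, ⟨x * p, mul_mem hx p.2, h x hx p p.2 n m⟩)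
  have i : Function.Injective f := fun p q e => by
    simp only [f] at e
    split_ifs at e <;> simp only [Prod.mk.injEq, reduceCtorEq, false_and, true_and] at e
    · exact Subtype.ext (congrArg Subtype.val e :)
    · exact Subtype.ext (mul_left_cancel (congrArg Subtype.val e :))
  simpa using Nat.card_le_card_of_injective f i

theorem m4_pow {H : Subgroup G} (h : ∀ x ∈ H, x * x = 1) : ∃ k, Nat.card H = 2 ^ k :=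
  haveI : Fact (Nat.Prime 2) := ⟨Nat.prime_two⟩
  IsPGroup.iff_card.1 fun g => ⟨1, Subtype.ext (by simpa [pow_two] using h g g.2)⟩

omit [Finite G] in
theorem m4_inv (h : x * x = 1) : x⁻¹ = x := inv_eq_of_mul_eq_one_right h

omit [Finite G] in
theorem m4_mem_sup {H : Subgroup G} (c : ∀ a ∈ H, a * t = t * a) (t2 : t * t = 1) :
    x ∈ H ⊔ zpowers t ↔ x ∈ H ∨ x * t ∈ H := by
  refine ⟨fun m => ?_, fun m => m.elim mem_sup_left fun m => ?_⟩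
  · have k : ∀ a, a * t ∈ H → a * t = t * a := fun a m => by
      have := c _ m
      rw [mul_assoc, t2, mul_one] at this
      rw [← mul_right_inj t, ← this, ← mul_assoc, t2, one_mul]
    let S : Subgroup G :=
      { carrier := {x | x ∈ H ∨ x * t ∈ H}
        one_mem' := .inl (one_mem _)
        mul_mem' := by
          rintro a b (ha | ha) (hb | hb)
          · exact .inl (mul_mem ha hb)
          · exact .inr (mul_assoc a b t ▸ mul_mem ha hb)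
          · exact .inr (by rw [mul_assoc, c b hb, ← mul_assoc]; exact mul_mem ha hb)
          · refine .inl ?_
            have := mul_mem ha hb
            rwa [k b hb, mul_assoc, ← mul_assoc t, t2, one_mul] at this
        inv_mem' := by
          rintro a (ha | ha)
          · exact .inl (inv_mem ha)
          · refine .inr ?_
            have := inv_mem ha
            rwa [k a ha, mul_inv_rev, m4_inv t2] at this }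
    exact (sup_le (fun a ha => Or.inl ha) (zpowers_le_of_mem (.inr (t2 ▸ one_mem _))) : H ⊔ zpowers t ≤ S) m
  · rw [show x = x * t * t by rw [mul_assoc, t2, mul_one]]
    exact mul_mem (mem_sup_left m) (mem_sup_right (mem_zpowers t))

omit [Finite G] in
theorem m4_sq {H K : Subgroup G} (h1 : ∀ x ∈ H, x * x = 1) (h2 : ∀ x ∈ K, x * x = 1) (c : H ≤ 𝐂(K)) :
    ∀ x ∈ H ⊔ K, x * x = 1 := by
  have k : ∀ {J : Subgroup G}, (∀ x ∈ J, x * x = 1) → J ≤ 𝐂(J) := fun h a ha b hb => by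
    rw [← m4_inv (h _ (mul_mem hb ha)), mul_inv_rev, m4_inv (h a ha), m4_inv (h b hb)]
  have c1 : H ⊔ K ≤ 𝐂(H ⊔ K) := sup_le (le_centralizer_iff.1 (sup_le (k h1) (le_centralizer_iff.1 c)))
    (le_centralizer_iff.1 (sup_le c (k h2)))
  let S : Subgroup G :=
    { carrier := {x | x ∈ H ⊔ K ∧ x * x = 1}
      one_mem' := ⟨one_mem _, mul_one 1⟩
      mul_mem' := fun {a b} ha hb => ⟨mul_mem ha.1 hb.1, by
        rw [mul_assoc, ← mul_assoc b, c1 ha.1 b hb.1, mul_assoc, hb.2, mul_one, ha.2]⟩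
      inv_mem' := fun {a} ha => by rw [m4_inv ha.2]; exact ha }
  exact fun x m => ((sup_le (fun a ha => ⟨mem_sup_left ha, h1 a ha⟩) fun a ha => ⟨mem_sup_right ha, h2 a ha⟩ :
    H ⊔ K ≤ S) m).2

omit [Finite G] in
theorem m4_zsq (t2 : t * t = 1) : ∀ x ∈ zpowers t, x * x = 1 := by
  rintro _ ⟨k, rfl⟩
  rw [← (Commute.refl t).mul_zpow, t2, one_zpow]

omit [Finite G] in
theorem m4_norm {V : Subgroup G} (h : ∀ g ∈ R, ∀ v ∈ V, g * v * g⁻¹ ∈ V) : R ≤ 𝐍(V) := fun g hg =>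
  mem_normalizer_iff.2 fun v => ⟨h g hg v, fun m => by simpa [mul_assoc] using h _ (inv_mem hg) _ m⟩

set_option synthInstance.maxSize 4096 in
set_option synthInstance.maxHeartbeats 200000 in
theorem m4_bool : ∀ (a b c ba ca cb : Bool) (i j : Fin 7), (a → (ba ↔ b)) → (b → (ba ↔ a)) → (a → (ca ↔ c)) →
    (c → (ca ↔ a)) → (b → (cb ↔ c)) → (c → (cb ↔ b)) → ![a, a, b, a, b, ba, ba] i → ![b, c, c, cb, ca, c, ca] i →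
    ![a, a, b, a, b, ba, ba] j → ![b, c, c, cb, ca, c, ca] j → i = j ∨ a ∧ b ∧ c := by decide +kernel

omit [Finite G] in
theorem m4_seven (a b c : G) (i j : Fin 7) (H : Subgroup G) (h1 : ![a, a, b, a, b, b * a, b * a] i ∈ H)
    (h2 : ![b, c, c, c * b, c * a, c, c * a] i ∈ H) (h3 : ![a, a, b, a, b, b * a, b * a] j ∈ H)
    (h4 : ![b, c, c, c * b, c * a, c, c * a] j ∈ H) : i = j ∨ a ∈ H ∧ b ∈ H ∧ c ∈ H := by
  classical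
  have k := m4_bool (a ∈ H) (b ∈ H) (c ∈ H) (b * a ∈ H) (c * a ∈ H) (c * b ∈ H) i j
  simp only [decide_eq_true_eq] at k
  refine k mul_mem_cancel_right mul_mem_cancel_left mul_mem_cancel_right mul_mem_cancel_left mul_mem_cancel_right
    mul_mem_cancel_left ?_ ?_ ?_ ?_
  · clear h2 h3 h4 k; fin_cases i <;> exact decide_eq_true h1
  · clear h1 h3 h4 k; fin_cases i <;> exact decide_eq_true h2
  · clear h1 h2 h4 k; fin_cases j <;> exact decide_eq_true h3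
  · clear h1 h2 h3 k; fin_cases j <;> exact decide_eq_true h4

namespace Dat

/-- `Y ∩ Q z ∩ A ⟨y⟩` -/
def Z0 (Γ : Dat G) (A Y : Subgroup G) (z y : G) : Subgroup G := closure {p | p ∈ Y ∧ p ∈ Γ.Q z ∧ (p ∈ A ∨ p * y ∈ A)}

/-- The outcome of the analysis of one side. -/
def Side (Γ : Dat G) (N Y : Subgroup G) (z y : G) : Prop :=
  (∃ w ∈ N, w ≠ 1 ∧ w ∈ Y ∧ Y ⊓ Γ.Q z ≤ Γ.Q w) ∨
  (8 * Nat.card ↥(Y ⊓ Γ.Q z ⊓ Γ.Q y) ≤ Nat.card ↥(Y ⊓ Γ.Q z) ∧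
    ∀ w ∈ N, w ≠ 1 → Nat.card ↥(Y ⊓ Γ.Q z) ≤ 2 * Nat.card ↥(Y ⊓ Γ.Q z ⊓ Γ.Q w)) ∨
  (16 * Nat.card ↥(Y ⊓ Γ.Q z ⊓ Γ.Q y) ≤ Nat.card ↥(Y ⊓ Γ.Q z) ∧ ∃ s : Finset G, s.card = 7 ∧
    ∀ w ∈ s, w ∈ N ∧ w ≠ 1 ∧ w ∈ Y ∧ Nat.card ↥(Y ⊓ Γ.Q z) ≤ 2 * Nat.card ↥(Y ⊓ Γ.Q z ⊓ Γ.Q w))

namespace T3

variable (h : Γ.Ax) (L : Loc R Y) (T : Γ.T3 A z y) (mz : z ∈ Y) (my : y ∈ Y)
include h L T mz my

omit mz in
theorem mem_Z0 : p ∈ Γ.Z0 A Y z y ↔ p ∈ Y ∧ p ∈ Γ.Q z ∧ (p ∈ A ∨ p * y ∈ A) := by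
  have e : {p | p ∈ Y ∧ p ∈ Γ.Q z ∧ (p ∈ A ∨ p * y ∈ A)} = (Y ⊓ (Γ.Q z ⊓ (A ⊔ zpowers y)) : Subgroup G) := by
    ext p
    simp only [Set.mem_ofPred_eq, SetLike.mem_coe, mem_inf, m4_mem_sup T.my (L.sq y my)]
  rw [Z0, e, closure_eq]
  simp only [mem_inf, m4_mem_sup T.my (L.sq y my)]

omit mz in
theorem Z0_le : Γ.Z0 A Y z y ≤ Y ⊓ Γ.Q z := fun _ m =>
  have k := (T.mem_Z0 h L my).1 m
  ⟨k.1, k.2.1⟩

omit L mz my in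
theorem nbr (hw : w ∈ Γ.U A y ⊓ Γ.Q y) (w1 : w ≠ 1) : Γ.B w ∧ w ∈ A ∧ z ∈ Γ.Q w ∧ y ∈ Γ.Q w :=
  have k := ((T.mem4 h).1 hw).resolve_left w1
  ⟨k.1, h.U_le T.ark y hw.1, h.sym T.Bz k.1 k.2.1, h.sym T.By k.1 k.2.2⟩

theorem conjN {g : G} (hg : g ∈ R) (hw : w ∈ Γ.U A y ⊓ Γ.Q y) : g * w * g⁻¹ ∈ Γ.U A y ⊓ Γ.Q y :=
  have c1 := (L.cen hg z mz).symm
  have c2 := (L.cen hg y my).symm
  ⟨(mem_normalizer_iff.1 (h.norm_U T.ark T.my (h.norm_of_comm T.ark T.Bz T.mz T.nQ T.S c1 c2) c2) w).1 hw.1,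
    h.cen_conj T.By c2 hw.2⟩

omit mz in
theorem cenO (hp : p ∈ Y ⊓ Γ.Q z) : p ∈ 𝐂(A) := h.cenQ T.ark T.Bz T.mz T.nQ T.S hp.2 (L.comm hp.1 my)

omit L mz my in
theorem two_X {H : Subgroup G} (h1 : Y ⊓ Γ.Q z ⊓ Γ.Q y ≤ H) (h2 : z ∈ H) :
    2 * Nat.card ↥(Y ⊓ Γ.Q z ⊓ Γ.Q y) ≤ Nat.card H := m4_two h1 h2 fun m => T.nQ' h m.2

/-- `V = closure {w ∈ N | w ≠ 1 ∧ K ≤ Q w}` consists of `1` and such `w` (`N` singular, `inf`), is elementary and normalised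
by `R` (`R ≤ N(A)` by `norm_of_comm`, `norm_U`, `cen_conj`); `fixpt`. -/
theorem fixG (hK : K ≤ Y) (hw : w ∈ Γ.U A y ⊓ Γ.Q y) (w1 : w ≠ 1) (m : K ≤ Γ.Q w) :
    ∃ w ∈ Γ.U A y ⊓ Γ.Q y, w ≠ 1 ∧ w ∈ Y ∧ K ≤ Γ.Q w := by
  have N := T.sg4 h
  let X : Set G := {w | w ∈ Γ.U A y ⊓ Γ.Q y ∧ w ≠ 1 ∧ K ≤ Γ.Q w}
  have k : ∀ v ∈ closure X, v = 1 ∨ v ∈ X := fun v hv => by
    induction hv using closure_induction with
    | mem x hx => exact .inr hx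
    | one => exact .inl rfl
    | mul a b _ _ ha hb =>
      rcases ha with rfl | ha
      · rwa [one_mul]
      rcases hb with rfl | hb
      · rw [mul_one]; exact .inr ha
      by_cases e : b = a
      · exact .inl (e ▸ h.sg_sq N hb.1)
      refine (eq_or_ne _ 1).imp id fun n => ⟨mul_mem ha.1 hb.1, n, fun x hx => ?_⟩
      exact h.inf (N a ha.1 ha.2.1).1 (N b hb.1 hb.2.1).1 ((N a ha.1 ha.2.1).2 hb.1) e (ha.2.2 hx) (hb.2.2 hx)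
    | inv a _ ha =>
      rcases ha with rfl | ha
      · exact .inl inv_one
      · rw [m4_inv (h.sg_sq N ha.1)]; exact .inr ha
  obtain ⟨v, h1, h2, h3⟩ := L.fixpt (V := closure X) (fun e => w1 (mem_bot.1 (e ▸ subset_closure ⟨hw, w1, m⟩)))
    (fun v hv => (k v hv).elim (fun e => by rw [e, mul_one]) fun e => h.sg_sq N e.1)
    (m4_norm fun g hg v hv => (k v hv).elim (fun e => by simp [e]) fun e => subset_closure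
      ⟨T.conjN h L mz my hg e.1, by simpa using e.2.1, fun x hx => by
        have := h.qconj g (N v e.1 e.2.1).1 (e.2.2 hx)
        rwa [← L.cen hg x (hK hx), mul_inv_cancel_right] at this⟩)
  have e := (k v h1).resolve_left h2
  exact ⟨v, e.1, h2, h3, e.2.2⟩

/-- The case `Z = Z0`.  For `p ∈ Z` let `a ∈ {p, p y}` be in `A`; for `w ∈ N \ {1}`: `p ∈ Q w ↔ a ∈ Q w` (`y ∈ Q w`); so two
elements of `Z \ Q w` have their product in `Q w` (`mul_mem_Q`): index `≤ 2`.  `X' = X ⊔ ⟨z⟩ = X ∪ X z` has order `2 |X|`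
and lies in `Q w` (`X_le`).  All orders are powers of two.  If `|Z| < 8 |X|` then `|Z : X'| ≤ 2`, `Z ⊆ X' ∪ p X'`; among
three elements `w₁, w₂, w₁ w₂` of `N \ {1}` one has `b w a = 0`; then `Z ≤ Q w`, `fixG`. -/
theorem side0 (e : Y ⊓ Γ.Q z ≤ Γ.Z0 A Y z y) : Γ.Side (Γ.U A y ⊓ Γ.Q y) Y z y := by
  have N := T.sg4 h
  have F := h.frm T.ark
  have dec : ∀ p ∈ Y ⊓ Γ.Q z, ∃ a ∈ A, p = a ∨ p = a * y := fun p hp =>
    ((T.mem_Z0 h L my).1 (e hp)).2.2.elim (fun m => ⟨p, m, .inl rfl⟩) fun m =>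
      ⟨_, m, .inr (by rw [mul_assoc, L.sq y my, mul_one])⟩
  by_cases c : 8 * Nat.card ↥(Y ⊓ Γ.Q z ⊓ Γ.Q y) ≤ Nat.card ↥(Y ⊓ Γ.Q z)
  · refine .inr (.inl ⟨c, fun w hw w1 => m4_idx fun p hp q hq n1 n2 => ?_⟩)
    obtain ⟨b1, b2, -, b4⟩ := T.nbr h hw w1
    obtain ⟨a, ha, ea⟩ := dec p hp
    obtain ⟨a', ha', ea'⟩ := dec q hq
    have k := h.mul_mem_Q T.ark b2 b1 ha ha'
    rcases ea with rfl | rfl <;> rcases ea' with rfl | rfl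
    · exact k n1 n2
    · exact mul_assoc p a' y ▸ mul_mem (k n1 fun m => n2 (mul_mem m b4)) b4
    · rw [mul_assoc, ← T.my q ha', ← mul_assoc]
      exact mul_mem (k (fun m => n1 (mul_mem m b4)) n2) b4
    · rw [mul_assoc, ← mul_assoc y, ← T.my a' ha', mul_assoc, L.sq y my, mul_one]
      exact k (fun m => n1 (mul_mem m b4)) fun m => n2 (mul_mem m b4)
  have l1 : Y ⊓ Γ.Q z ⊓ Γ.Q y ⊔ zpowers z ≤ Y ⊓ Γ.Q z := sup_le inf_le_left (zpowers_le_of_mem ⟨mz, h.self_mem T.Bz⟩)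
  have l2 := T.two_X h (H := Y ⊓ Γ.Q z ⊓ Γ.Q y ⊔ zpowers z) le_sup_left (mem_sup_right (mem_zpowers z))
  have l3 : Nat.card ↥(Y ⊓ Γ.Q z) ≤ 2 * Nat.card ↥(Y ⊓ Γ.Q z ⊓ Γ.Q y ⊔ zpowers z) := by
    obtain ⟨i, e1⟩ := m4_pow (H := Y ⊓ Γ.Q z) fun x hx => L.sq x hx.1
    obtain ⟨j, e2⟩ := m4_pow (H := Y ⊓ Γ.Q z ⊓ Γ.Q y) fun x hx => L.sq x hx.1.1
    rw [e1, e2, not_le, show 8 * 2 ^ j = 2 ^ (j + 3) by ring, Nat.pow_lt_pow_iff_right (by norm_num)] at c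
    rw [e2] at l2
    calc _ = 2 ^ i := e1
      _ ≤ 2 ^ (j + 2) := Nat.pow_le_pow_right (by norm_num) (by omega)
      _ = 2 * (2 * 2 ^ j) := by ring
      _ ≤ _ := by gcongr
  obtain ⟨p, hp, l4⟩ : ∃ p ∈ Y ⊓ Γ.Q z, Y ⊓ Γ.Q z ≤ (Y ⊓ Γ.Q z ⊓ Γ.Q y ⊔ zpowers z) ⊔ zpowers p := by
    by_cases c' : Y ⊓ Γ.Q z ≤ Y ⊓ Γ.Q z ⊓ Γ.Q y ⊔ zpowers z
    · exact ⟨1, one_mem _, c'.trans le_sup_left⟩
    obtain ⟨p, hp, n⟩ := SetLike.not_le_iff_exists.1 c'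
    exact ⟨p, hp, (eq_of_le_of_card_ge (sup_le l1 (zpowers_le_of_mem hp))
      (l3.trans (m4_two le_sup_left (mem_sup_right (mem_zpowers p)) n))).ge⟩
  obtain ⟨a, ha, ea⟩ := dec p hp
  obtain ⟨w, hw, w1, m⟩ : ∃ w ∈ Γ.U A y ⊓ Γ.Q y, w ≠ 1 ∧ a ∈ Γ.Q w := by
    have c1 : 1 < (((Γ.U A y ⊓ Γ.Q y : Subgroup G) : Set G) \ {1}).ncard := by
      rw [Set.ncard_sdiff_singleton_of_mem (one_mem _), ← Nat.card_coe_set_eq]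
      have := T.card4 h
      change 1 < Nat.card ↥(Γ.U A y ⊓ Γ.Q y) - 1
      omega
    obtain ⟨u, hu, v, hv, ne⟩ := (Set.one_lt_ncard (Set.toFinite _)).1 c1
    obtain ⟨b1, b2, -⟩ := T.nbr h hu.1 hu.2
    obtain ⟨b3, b4, -⟩ := T.nbr h hv.1 hv.2
    have n1 : u * v ≠ 1 := fun e => ne (by rw [← m4_inv (h.sq b3)]; exact eq_inv_of_mul_eq_one_left e)
    obtain ⟨b5, b6, -⟩ := T.nbr h (mul_mem hu.1 hv.1) n1
    by_cases m1 : a ∈ Γ.Q u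
    · exact ⟨u, hu.1, hu.2, m1⟩
    by_cases m2 : a ∈ Γ.Q v
    · exact ⟨v, hv.1, hv.2, m2⟩
    refine ⟨_, mul_mem hu.1 hv.1, n1, ((h.pt T.ark b6 b5).memQ a ha).2 ?_⟩
    rw [(h.pt T.ark b2 b1).memQ a ha] at m1
    rw [(h.pt T.ark b4 b3).memQ a ha] at m2
    rw [F.b_mul u b2 v b4 a ha]
    revert m1 m2
    generalize Γ.b u a = α, Γ.b v a = β
    revert α β
    decide
  obtain ⟨-, -, b3, b4⟩ := T.nbr h hw w1
  exact .inl (T.fixG h L mz my inf_le_left hw w1 (l4.trans (sup_le (sup_le (fun x hx => T.X_le h hx.1.2 hx.2 hw w1)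
    (zpowers_le_of_mem b3)) (zpowers_le_of_mem (ea.elim (· ▸ m) (· ▸ mul_mem m b4))))))

/-- `y = p₀ a` (`S_split`).  `Z ≤ O` (`cenQ`) commutes with `p₀` and `W = A ⊓ Q z`; `E = Z ⊔ (W ⊔ ⟨p₀⟩) ≤ Q z` is elementary
abelian, `|E| ≤ 2 ^ 13` (`card_ea`), `|W ⊔ ⟨p₀⟩| = 2 ^ 10` (`card_inf`, `p₀ ∉ A`), `Z ⊓ (W ⊔ ⟨p₀⟩) ≤ Z0`. -/
theorem idx_le : Nat.card ↥(Y ⊓ Γ.Q z) ≤ 8 * Nat.card (Γ.Z0 A Y z y) := by
  have F := h.frm T.ark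
  obtain ⟨p₀, hp, a, ha, e⟩ := h.S_split T.ark T.my T.S
  have p2 : p₀ * p₀ = 1 := by
    have := L.sq y my
    rwa [e, mul_assoc, ← mul_assoc a, hp.2 a ha, mul_assoc, F.sq a ha, mul_one] at this
  have l1 : (Y ⊓ Γ.Q z) ⊔ (A ⊓ Γ.Q z ⊔ zpowers p₀) ≤ Γ.Q z :=
    sup_le inf_le_right (sup_le inf_le_right (zpowers_le_of_mem hp.1))
  have c1 : A ⊓ Γ.Q z ≤ 𝐂(zpowers p₀) := le_centralizer_iff.1
    (zpowers_le_of_mem (centralizer_le (SetLike.coe_subset_coe.2 inf_le_left) hp.2))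
  have c2 : Y ⊓ Γ.Q z ≤ 𝐂(A ⊓ Γ.Q z ⊔ zpowers p₀) := le_centralizer_iff.1 (sup_le
    (fun b (hb : b ∈ A ⊓ Γ.Q z) x hx => (T.cenO h L my hx b hb.1).symm) (zpowers_le_of_mem fun x hx => by
      have k := L.comm hx.1 my
      rw [e, ← mul_assoc, mul_assoc p₀, T.cenO h L my hx a ha, ← mul_assoc] at k
      exact mul_right_cancel k))
  have l2 := h.card_ea T.Bz l1 (m4_sq (fun x hx => L.sq x hx.1) (m4_sq (fun x hx => F.sq x hx.1) (m4_zsq p2) c1) c2)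
  have l3 := m4_two (H := A ⊓ Γ.Q z) (K := A ⊓ Γ.Q z ⊔ zpowers p₀) le_sup_left (mem_sup_right (mem_zpowers p₀))
    fun m => T.nA (e ▸ mul_mem m.1 ha)
  have l4 := m4_cm (le_sup_left : Y ⊓ Γ.Q z ≤ (Y ⊓ Γ.Q z) ⊔ (A ⊓ Γ.Q z ⊔ zpowers p₀)) le_sup_right
  have l5 : Nat.card ↥((Y ⊓ Γ.Q z) ⊓ (A ⊓ Γ.Q z ⊔ zpowers p₀)) ≤ Nat.card (Γ.Z0 A Y z y) :=
    card_le_of_le fun x hx => (T.mem_Z0 h L my).2 ⟨hx.1.1, hx.1.2,
      ((m4_mem_sup (H := A ⊓ Γ.Q z) (fun b hb => hp.2 b hb.1) p2).1 hx.2).imp (·.1) fun m => by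
        rw [e, ← mul_assoc]; exact mul_mem m.1 ha⟩
  rw [h.card_inf T.ark T.mz T.Bz] at l3
  have := (Nat.mul_le_mul_left _ l3).trans (l4.trans (Nat.mul_le_mul l2 l5))
  omega

variable (hy : Γ.Mx Y y)
include hy

/-- `pur` (with `m1` for `y`): if `p ∉ Z0` directly; if `p ∈ Z0` apply it to `p p₁ ∉ Z0` and `p₁`. -/
theorem S_le {p₁ : G} (hw : w ∈ Γ.U A y ⊓ Γ.Q y) (w1 : w ≠ 1) (h1 : p₁ ∈ Y ⊓ Γ.Q z) (n1 : p₁ ∉ Γ.Z0 A Y z y)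
    (s1 : Γ.S A w p₁) (hp : p ∈ Y ⊓ Γ.Q z) (s : Γ.S A w p) : p ∈ Γ.Q w := by
  have k : ∀ p ∈ Y ⊓ Γ.Q z, p ∉ Γ.Z0 A Y z y → Γ.S A w p → p ∈ Γ.Q w := fun p hp n s => by
    rw [T.mem_Z0 h L my] at n
    exact T.pur h hp.2 (L.sq p hp.1) (L.comm hp.1 my) (fun m => n ⟨hp.1, hp.2, .inl m⟩) (fun m => n ⟨hp.1, hp.2, .inr m⟩)
      (h.m1 L hy hp.1) hw w1 s
  by_cases c : p ∈ Γ.Z0 A Y z y
  · exact (mul_mem_cancel_right (k _ h1 n1 s1)).1 (k _ (mul_mem hp h1) (fun m => n1 ((mul_mem_cancel_left c).1 m))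
      (h.S_mul T.ark (T.cenO h L my h1) s s1))
  · exact k p hp c s

/-- `cp3` at `z` for `y, p₁, p₂` gives `w ≠ z`; `w` or `w z` lies in `N` (`half`; `w z ≠ 1`; `S A (z w) pᵢ` by `S_iff` since
`U A pᵢ ∋ z, w` is a subgroup).  `K = Z0 ⊔ ⟨p₁, p₂⟩` consists of elements with `S A w` (`S_mul`, `S_of_memA`, `y ∈ Q w`), so
`K ≤ Q w` by `S_le`; `fixG`. -/
theorem cover2 {p₁ p₂ : G} (h1 : p₁ ∈ Y ⊓ Γ.Q z) (n1 : p₁ ∉ Γ.Z0 A Y z y) (h2 : p₂ ∈ Y ⊓ Γ.Q z) :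
    ∃ w ∈ Γ.U A y ⊓ Γ.Q y, w ≠ 1 ∧ w ∈ Y ∧ Γ.Z0 A Y z y ≤ Γ.Q w ∧ p₁ ∈ Γ.Q w ∧ p₂ ∈ Γ.Q w := by
  have o1 := T.cenO h L my h1
  have o2 := T.cenO h L my h2
  obtain ⟨v, v1, v2, -, v4, s0, s1, s2⟩ := h.cp3 T.ark T.mz T.Bz T.my o1 o2 T.S (S.of_mem h1.2) (S.of_mem h2.2)
    (L.sq y my) (L.sq _ h1.1) (L.sq _ h2.1) (L.comm my h1.1) (L.comm my h2.1) (L.comm h1.1 h2.1)
  rw [h.S_iff T.ark v1 v2 T.my] at s0
  obtain ⟨w, hw, w1, t1, t2⟩ : ∃ w ∈ Γ.U A y ⊓ Γ.Q y, w ≠ 1 ∧ Γ.S A w p₁ ∧ Γ.S A w p₂ := by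
    rcases T.half h s0 with m | m
    · exact ⟨v, ⟨s0, m⟩, h.ne_one v2, s1, s2⟩
    have n : v * z ≠ 1 := fun e => v4 (by rw [← m4_inv (h.sq T.Bz)]; exact eq_inv_of_mul_eq_one_left e)
    have m' : v * z ∈ Γ.U A y ⊓ Γ.Q y := ⟨mul_mem s0 (T.mem_U h), m⟩
    obtain ⟨b1, b2, -⟩ := T.nbr h m' n
    exact ⟨_, m', n, (h.S_iff T.ark b2 b1 o1).2 (mul_mem ((h.S_iff T.ark v1 v2 o1).1 s1)
      ((h.S_iff T.ark T.mz T.Bz o1).1 (S.of_mem h1.2))), (h.S_iff T.ark b2 b1 o2).2 (mul_mem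
      ((h.S_iff T.ark v1 v2 o2).1 s2) ((h.S_iff T.ark T.mz T.Bz o2).1 (S.of_mem h2.2)))⟩
  obtain ⟨b1, -, -, b4⟩ := T.nbr h hw w1
  have l := T.Z0_le h L my
  obtain ⟨u, u1, u2, u3, u4⟩ := T.fixG h L mz my (K := Γ.Z0 A Y z y ⊔ (zpowers p₁ ⊔ zpowers p₂))
    (sup_le (l.trans inf_le_left) (sup_le (zpowers_le_of_mem h1.1) (zpowers_le_of_mem h2.1))) hw w1
    (sup_le (fun p hp => T.S_le h L mz my hy hw w1 h1 n1 t1 (l hp) (((T.mem_Z0 h L my).1 hp).2.2.elim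
      (h.S_of_memA T.ark b1) fun m => by
        rw [show p = p * y * y by rw [mul_assoc, L.sq y my, mul_one]]
        exact h.S_mul T.ark T.my (h.S_of_memA T.ark b1 m) (S.of_mem b4)))
      (sup_le (zpowers_le_of_mem (T.S_le h L mz my hy hw w1 h1 n1 t1 h1 t1))
        (zpowers_le_of_mem (T.S_le h L mz my hy hw w1 h1 n1 t1 h2 t2))))
  exact ⟨u, u1, u2, u3, le_sup_left.trans u4, u4 (mem_sup_right (mem_sup_left (mem_zpowers _))),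
    u4 (mem_sup_right (mem_sup_right (mem_zpowers _)))⟩

/-- If `Z ≤ Z0`: `side0`.  Else take `p₁ ∈ Z \ Z0`.  If `Z ⊆ Z0 ⟨p₁, p₂⟩` for some `p₂`: `cover2`, first alternative.  Else there
are `p₁, p₂, p₃ ∈ Z` independent modulo `Z0` and by `idx_le` `Z = Z0 ⟨p₁, p₂, p₃⟩`, `|Z| = 8 |Z0| ≥ 16 |X|` (`X ∪ X z ⊆ Z0`,
`inter`).  For each of the seven non-zero `f : Fin 3 → ZMod 2` the hyperplane `{v | f ⬝ᵥ v = 0} = {0, a, b, a + b}`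
(`decide`) gives through `cover2` (for `p ^ a`, `p ^ b`) a point `w f` with `|Z| ≤ 2 |Z ⊓ Q (w f)|`.  If `w f = w g` for `f ≠ g`
then `Z ≤ Q (w f)` (two hyperplanes span), first alternative; else third alternative. -/
theorem side : Γ.Side (Γ.U A y ⊓ Γ.Q y) Y z y := by
  classical
  by_cases c0 : Y ⊓ Γ.Q z ≤ Γ.Z0 A Y z y
  · exact T.side0 h L mz my c0
  by_cases c1 : ∃ w ∈ Γ.U A y ⊓ Γ.Q y, w ≠ 1 ∧ w ∈ Y ∧ Y ⊓ Γ.Q z ≤ Γ.Q w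
  · exact .inl c1
  have l := T.Z0_le h L my
  have l8 := T.idx_le h L mz my
  have nx : ∀ p ∈ Y ⊓ Γ.Q z, p ∉ Γ.Z0 A Y z y → ∀ q ∈ Y ⊓ Γ.Q z,
      ∃ r ∈ Y ⊓ Γ.Q z, r ∉ (Γ.Z0 A Y z y ⊔ zpowers p) ⊔ zpowers q := fun p hp n q hq => by
    obtain ⟨w, w1, w2, w3, w4, w5, w6⟩ := T.cover2 h L mz my hy hp n hq
    exact SetLike.not_le_iff_exists.1 fun m => c1 ⟨w, w1, w2, w3, m.trans
      (sup_le (sup_le w4 (zpowers_le_of_mem w5)) (zpowers_le_of_mem w6))⟩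
  have ms : ∀ {H : Subgroup G}, H ≤ Y ⊓ Γ.Q z → ∀ p ∈ Y ⊓ Γ.Q z, ∀ x, x ∈ H ⊔ zpowers p ↔ x ∈ H ∨ x * p ∈ H :=
    fun hH p hp x => m4_mem_sup (fun a ha => L.comm (hH ha).1 hp.1) (L.sq p hp.1)
  have four : ∀ p ∈ Y ⊓ Γ.Q z, p ∉ Γ.Z0 A Y z y → ∀ q ∈ Y ⊓ Γ.Q z, q ∉ Γ.Z0 A Y z y → q * p ∉ Γ.Z0 A Y z y →
      4 * Nat.card (Γ.Z0 A Y z y) ≤ Nat.card ↥((Γ.Z0 A Y z y ⊔ zpowers p) ⊔ zpowers q) := fun p hp n q hq n1 n2 => by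
    have k1 := m4_two (le_sup_left : _ ≤ Γ.Z0 A Y z y ⊔ zpowers p) (mem_sup_right (mem_zpowers p)) n
    have k2 := m4_two (le_sup_left : _ ≤ (Γ.Z0 A Y z y ⊔ zpowers p) ⊔ zpowers q) (mem_sup_right (mem_zpowers q))
      fun m => ((ms l p hp q).1 m).elim n1 n2
    omega
  obtain ⟨a, ha, na⟩ := SetLike.not_le_iff_exists.1 c0
  obtain ⟨b, hb, nb⟩ := nx a ha na 1 (one_mem _)
  obtain ⟨c, hc, nc⟩ := nx a ha na b hb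
  have la : Γ.Z0 A Y z y ⊔ zpowers a ≤ Y ⊓ Γ.Q z := sup_le l (zpowers_le_of_mem ha)
  replace nb : b ∉ Γ.Z0 A Y z y ⊔ zpowers a := fun m => nb (mem_sup_left m)
  have k8 := m4_two (sup_le la (zpowers_le_of_mem hb)) hc nc
  rw [ms la b hb, ms l a ha, ms l a ha, not_or, not_or, not_or] at nc
  rw [ms l a ha, not_or] at nb
  have k4 := four a ha na b hb nb.1 nb.2
  have k2 := T.two_X h (H := Γ.Z0 A Y z y) (fun x hx => (T.mem_Z0 h L my).2 ⟨hx.1.1, hx.1.2, T.inter h hx.1.2 hx.2⟩)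
    ((T.mem_Z0 h L my).2 ⟨mz, h.self_mem T.Bz, .inl T.mz⟩)
  have e1 : c * a * b = c * b * a := by rw [mul_assoc, L.comm ha.1 hb.1, mul_assoc]
  have e2 : c * a * (b * a) = c * b := by rw [← mul_assoc, e1, mul_assoc, L.sq a ha.1, mul_one]
  let P : Fin 7 → G := ![a, a, b, a, b, b * a, b * a]
  let P' : Fin 7 → G := ![b, c, c, c * b, c * a, c, c * a]
  have hP : ∀ i, P i ∈ Y ⊓ Γ.Q z ∧ P i ∉ Γ.Z0 A Y z y ∧ P' i ∈ Y ⊓ Γ.Q z ∧ P' i ∉ Γ.Z0 A Y z y ∧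
      P' i * P i ∉ Γ.Z0 A Y z y := fun i => by
    fin_cases i
    · exact ⟨ha, na, hb, nb.1, nb.2⟩
    · exact ⟨ha, na, hc, nc.1.1, nc.1.2⟩
    · exact ⟨hb, nb.1, hc, nc.1.1, nc.2.1⟩
    · exact ⟨ha, na, mul_mem hc hb, nc.2.1, nc.2.2⟩
    · exact ⟨hb, nb.1, mul_mem hc ha, nc.1.2, fun m => nc.2.2 (e1 ▸ m)⟩
    · exact ⟨mul_mem hb ha, nb.2, hc, nc.1.1, fun m => nc.2.2 (mul_assoc c b a ▸ m)⟩
    · exact ⟨mul_mem hb ha, nb.2, mul_mem hc ha, nc.1.2, fun m => nc.2.1 (e2 ▸ m)⟩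
  choose w w1 w2 w3 w4 w5 w6 using fun i => T.cover2 h L mz my hy (hP i).1 (hP i).2.1 (hP i).2.2.1
  have inj : Function.Injective w := fun i j e => by
    refine (m4_seven a b c i j _ (w5 i) (w6 i) (e ▸ w5 j) (e ▸ w6 j)).resolve_right fun k => c1 ⟨w i, w1 i, w2 i, w3 i, ?_⟩
    refine (eq_of_le_of_card_ge (sup_le (sup_le la (zpowers_le_of_mem hb)) (zpowers_le_of_mem hc)) ?_).ge.trans
      (sup_le (sup_le (sup_le (w4 i) (zpowers_le_of_mem k.1)) (zpowers_le_of_mem k.2.1)) (zpowers_le_of_mem k.2.2))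
    have := m4_two (le_sup_left : _ ≤ ((Γ.Z0 A Y z y ⊔ zpowers a) ⊔ zpowers b) ⊔ zpowers c)
      (mem_sup_right (mem_zpowers c)) (by rw [ms la b hb, ms l a ha, ms l a ha, not_or, not_or, not_or]; exact nc)
    omega
  refine .inr (.inr ⟨by omega, Finset.univ.image w, by rw [Finset.card_image_of_injective _ inj]; rfl, fun v hv => ?_⟩)
  obtain ⟨i, -, rfl⟩ := Finset.mem_image.1 hv
  obtain ⟨p1, p2, p3, p4, p5⟩ := hP i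
  have k := (four _ p1 p2 _ p3 p4 p5).trans (card_le_of_le (le_inf (sup_le (sup_le l (zpowers_le_of_mem p1))
    (zpowers_le_of_mem p3)) (sup_le (sup_le (w4 i) (zpowers_le_of_mem (w5 i))) (zpowers_le_of_mem (w6 i)))))
  exact ⟨w1 i, w2 i, w3 i, by omega⟩

end T3

/-- `n = |Z| = |Z'|` with `Z = Y ⊓ Q z`, `Z' = Y ⊓ Q y`, `x = |X|`, `X = Z ⊓ Z'`.  For `w ∈ N ∩ Y`, `w ≠ 1`: `B w`, `X ≤ Q w`,
`|Z ⊓ Q w| |Z' ⊓ Q w| = |(Z ⊓ Q w) ⊔ (Z' ⊓ Q w)| x ≤ |Y ⊓ Q w| x ≤ n x`.  And `|Z ⊓ Q w| ≥ 2 x` (`X ∪ X z`), same for `Z'`.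
First alternative on one side: `n · 2 x ≤ n x`.  If `n ≤ α |Z ⊓ Q w|`, `n ≤ β |Z' ⊓ Q w|` then `n ≤ α β x`; `α = β = 2`
contradicts `8 x ≤ n`; `α β = 8` contradicts `16 x ≤ n`.  (2,2): any fixed point of `R` in `N` (`fixpt`); (2,3), (3,2): a
point of `s`.  (3,3): if `s`, `s'` are disjoint, `s ∪ s' ∪ {1}` has 15 of the 16 elements of `N`; take `b ∈ s'` and
`b₁ ≠ b₂ ∈ s`; one of `b b₁ ≠ b b₂`, say `g = b bᵢ`, lies in `s ∪ s' ∪ {1}`, `g ≠ 1`.  For `w ≠ w'` with index `≤ 2` the index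
of `Z ⊓ Q (w w') ≥ Z ⊓ Q w ⊓ Q w'` is `≤ 4` (`inf`).  `g ∈ s'`: `bᵢ = b g` has `(α, β) = (2, 4)`; `g ∈ s`: `b = g bᵢ` has
`(4, 2)`. -/
theorem Ax.comb (h : Γ.Ax) (L : Loc R Y) {N : Subgroup G} (hN : Γ.Sg N) (h16 : Nat.card N = 16) (hR : R ≤ 𝐍(N))
    (hz : Γ.Mx Y z) (hy : Γ.Mx Y y) (n : y ∉ Γ.Q z) (h1 : ∀ w ∈ N, w ≠ 1 → z ∈ Γ.Q w ∧ y ∈ Γ.Q w ∧ Γ.Q z ⊓ Γ.Q y ≤ Γ.Q w)
    (s1 : Γ.Side N Y z y) (s2 : Γ.Side N Y y z) : False := by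
  classical
  have en : Nat.card ↥(Y ⊓ Γ.Q y) = Nat.card ↥(Y ⊓ Γ.Q z) := (hz.max y hy.mem hy.B).antisymm (hy.max z hz.mem hz.B)
  have ex : Y ⊓ Γ.Q y ⊓ Γ.Q z = Y ⊓ Γ.Q z ⊓ Γ.Q y := inf_right_comm _ _ _
  have x0 := Nat.card_pos (α := ↥(Y ⊓ Γ.Q z ⊓ Γ.Q y))
  have n0 := Nat.card_pos (α := ↥(Y ⊓ Γ.Q z))
  have key : ∀ w ∈ N, w ≠ 1 → w ∈ Y → Nat.card ↥(Y ⊓ Γ.Q z ⊓ Γ.Q w) * Nat.card ↥(Y ⊓ Γ.Q y ⊓ Γ.Q w) ≤
      Nat.card ↥(Y ⊓ Γ.Q z) * Nat.card ↥(Y ⊓ Γ.Q z ⊓ Γ.Q y) := fun w hw w1 m =>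
    (m4_cm (J := Y ⊓ Γ.Q w) (inf_le_inf_right _ inf_le_left) (inf_le_inf_right _ inf_le_left)).trans
      (Nat.mul_le_mul (hz.max w m (hN w hw w1).1) (card_le_of_le fun x hx => ⟨hx.1.1, hx.2.1.2⟩))
  have fin : ∀ w ∈ N, w ≠ 1 → w ∈ Y → ∀ α β, Nat.card ↥(Y ⊓ Γ.Q z) ≤ α * Nat.card ↥(Y ⊓ Γ.Q z ⊓ Γ.Q w) →
      Nat.card ↥(Y ⊓ Γ.Q y) ≤ β * Nat.card ↥(Y ⊓ Γ.Q y ⊓ Γ.Q w) →
      Nat.card ↥(Y ⊓ Γ.Q z) ≤ α * β * Nat.card ↥(Y ⊓ Γ.Q z ⊓ Γ.Q y) := fun w hw w1 m α β a1 a2 => by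
    rw [en] at a2
    refine Nat.le_of_mul_le_mul_left ((Nat.mul_le_mul a1 a2).trans ?_) n0
    calc _ = α * β * (Nat.card ↥(Y ⊓ Γ.Q z ⊓ Γ.Q w) * Nat.card ↥(Y ⊓ Γ.Q y ⊓ Γ.Q w)) := by ring
      _ ≤ α * β * (Nat.card ↥(Y ⊓ Γ.Q z) * Nat.card ↥(Y ⊓ Γ.Q z ⊓ Γ.Q y)) := Nat.mul_le_mul_left _ (key w hw w1 m)
      _ = _ := by ring
  have four : ∀ Z : Subgroup G, ∀ u ∈ N, u ≠ 1 → ∀ v ∈ N, v ≠ 1 → v ≠ u → Nat.card Z ≤ 2 * Nat.card ↥(Z ⊓ Γ.Q u) →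
      Nat.card Z ≤ 2 * Nat.card ↥(Z ⊓ Γ.Q v) → Nat.card Z ≤ 4 * Nat.card ↥(Z ⊓ Γ.Q (u * v)) :=
    fun Z u hu u1 v hv v1 ne a1 a2 => by
    have k := (m4_cm (inf_le_left : Z ⊓ Γ.Q u ≤ Z) (inf_le_left : Z ⊓ Γ.Q v ≤ Z)).trans (Nat.mul_le_mul_left _
      (card_le_of_le (K := Z ⊓ Γ.Q (u * v)) fun x hx =>
        ⟨hx.1.1, h.inf (hN u hu u1).1 (hN v hv v1).1 ((hN u hu u1).2 hv) ne hx.1.2 hx.2.2⟩))
    refine Nat.le_of_mul_le_mul_left ((Nat.mul_le_mul a1 a2).trans ?_) (Nat.card_pos (α := Z))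
    calc _ = 4 * (Nat.card ↥(Z ⊓ Γ.Q u) * Nat.card ↥(Z ⊓ Γ.Q v)) := by ring
      _ ≤ 4 * (Nat.card Z * Nat.card ↥(Z ⊓ Γ.Q (u * v))) := Nat.mul_le_mul_left _ k
      _ = _ := by ring
  rcases s1 with ⟨w, hw, w1, m, l⟩ | s1
  · have k := key w hw w1 m
    have k2 := m4_two (H := Y ⊓ Γ.Q z ⊓ Γ.Q y) (K := Y ⊓ Γ.Q y ⊓ Γ.Q w)
      (fun x hx => ⟨⟨hx.1.1, hx.2⟩, l hx.1⟩) ⟨⟨hy.mem, h.self_mem hy.B⟩, (h1 w hw w1).2.1⟩ fun m => n m.1.2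
    rw [inf_eq_left.2 l] at k
    have := Nat.le_of_mul_le_mul_left k n0
    omega
  rcases s2 with ⟨w, hw, w1, m, l⟩ | s2
  · have k := key w hw w1 m
    have k2 := m4_two (H := Y ⊓ Γ.Q z ⊓ Γ.Q y) (K := Y ⊓ Γ.Q z ⊓ Γ.Q w)
      (fun x hx => ⟨hx.1, l ⟨hx.1.1, hx.2⟩⟩) ⟨⟨hz.mem, h.self_mem hz.B⟩, (h1 w hw w1).1⟩
      fun m => n (h.sym hy.B hz.B m.2)
    rw [inf_eq_left.2 l, en, mul_comm] at k
    have := Nat.le_of_mul_le_mul_left k n0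
    omega
  rcases s1 with ⟨a1, a2⟩ | ⟨a1, s, cs, a2⟩ <;> rcases s2 with ⟨b1, b2⟩ | ⟨b1, s', cs', b2⟩
  · obtain ⟨w, hw, w1, m⟩ := L.fixpt (V := N) (fun e => by simp [e] at h16) (fun x => h.sg_sq hN) hR
    have := fin w hw w1 m 2 2 (a2 w hw w1) (b2 w hw w1)
    omega
  · obtain ⟨w, hw⟩ := Finset.card_pos.1 (cs' ▸ by norm_num : 0 < s'.card)
    obtain ⟨c1, c2, c3, c4⟩ := b2 w hw
    have := fin w c1 c2 c3 2 2 (a2 w c1 c2) c4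
    omega
  · obtain ⟨w, hw⟩ := Finset.card_pos.1 (cs ▸ by norm_num : 0 < s.card)
    obtain ⟨c1, c2, c3, c4⟩ := a2 w hw
    have := fin w c1 c2 c3 2 2 c4 (b2 w c1 c2)
    omega
  have dj : Disjoint s s' := Finset.disjoint_left.2 fun w hw hw' => by
    obtain ⟨c1, c2, c3, c4⟩ := a2 w hw
    have := fin w c1 c2 c3 2 2 c4 (b2 w hw').2.2.2
    omega
  obtain ⟨b, hb⟩ := Finset.card_pos.1 (cs' ▸ by norm_num : 0 < s'.card)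
  obtain ⟨d1, d2, d3, d4⟩ := b2 b hb
  have bb := h.sg_sq hN d1
  obtain ⟨c, hc, g⟩ : ∃ c ∈ s, b * c ∈ s ∪ s' := by
    by_contra! k
    have dj' : Disjoint (s.image (b * ·)) (s ∪ s') := Finset.disjoint_left.2 fun v hv => by
      obtain ⟨c, hc, rfl⟩ := Finset.mem_image.1 hv
      exact k c hc
    have sub : ((s.image (b * ·) ∪ (s ∪ s') : Finset G) : Set G) ⊆ N := fun v hv => by
      rcases Finset.mem_union.1 hv with m | m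
      · obtain ⟨c, hc, rfl⟩ := Finset.mem_image.1 m
        exact mul_mem d1 (a2 c hc).1
      · exact (Finset.mem_union.1 m).elim (fun m => (a2 v m).1) fun m => (b2 v m).1
    have := Set.ncard_le_ncard sub
    rw [Set.ncard_coe_finset, Finset.card_union_of_disjoint dj', Finset.card_union_of_disjoint dj,
      Finset.card_image_of_injective _ (mul_right_injective b), cs, cs', ← Nat.card_coe_set_eq] at this
    change _ ≤ Nat.card N at this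
    omega
  obtain ⟨c1, c2, c3, c4⟩ := a2 c hc
  rcases Finset.mem_union.1 g with g | g
  · obtain ⟨g1, g2, -, g4⟩ := a2 _ g
    have k := four _ _ g1 g2 c c1 c2 (fun e => d2 (by simpa using e.symm)) g4 c4
    rw [mul_assoc, h.sg_sq hN c1, mul_one] at k
    have := fin b d1 d2 d3 4 2 k d4
    omega
  · obtain ⟨g1, g2, -, g4⟩ := b2 _ g
    have k := four _ b d1 d2 _ g1 g2 (fun e => c2 (by simpa using e)) d4 g4
    rw [← mul_assoc, bb, one_mul] at k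
    have := fin c c1 c2 c3 2 4 c4 k
    omega

/-- `U A y ⊓ Q y = U A' z ⊓ Q z` by `mem4`; `side` twice; `comb`. -/
theorem Ax.m4 (h : Γ.Ax) (L : Loc R Y) (hz : Γ.Mx Y z) (hy : Γ.Mx Y y) (T : Γ.T3 A z y) (T' : Γ.T3 A' y z) : False := by
  have e : Γ.U A' z ⊓ Γ.Q z = Γ.U A y ⊓ Γ.Q y := by
    ext u
    rw [T.mem4 h, T'.mem4 h, and_comm (a := u ∈ Γ.Q z)]
  refine h.comb L (T.sg4 h) (T.card4 h) (m4_norm fun g hg v => T.conjN h L hz.mem hy.mem hg) hz hy T.nQ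
    (fun w hw w1 => ?_) (T.side h L hz.mem hy.mem hy) (e ▸ T'.side h L hy.mem hz.mem hz)
  obtain ⟨-, -, b3, b4⟩ := T.nbr h hw w1
  exact ⟨b3, b4, fun x hx => T.X_le h hx.1 hx.2 hw w1⟩

end Dat

end Cfsg.Lib.ML
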