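import Cfsg.Agent.Lib.ML.Form

/-!
# Maximal 2-local subgroups of the Monster: singular and pure subgroups (design helper10)
-/

set_option autoImplicit false

namespace Cfsg.Lib.ML

open Subgroup Cfsg.Lib.ES
open scoped commutatorElement

variable {G : Type*} [Group G] [Finite G] {Γ : Dat G} {u v x y z e : G} {d : Fin 3 → G} {A A' U V W Y : Subgroup G}

namespace Sing

omit [Finite G] in
theorem mul_comm_of_sq {H : Subgroup G} (h2 : ∀ x ∈ H, x * x = 1) {a b : G} (ha : a ∈ H) (hb : b ∈ H) :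
    a * b = b * a := by
  have e1 : a⁻¹ = a := inv_eq_of_mul_eq_one_right (h2 a ha)
  have e2 : b⁻¹ = b := inv_eq_of_mul_eq_one_right (h2 b hb)
  have e3 : (a * b)⁻¹ = a * b := inv_eq_of_mul_eq_one_right (h2 _ (H.mul_mem ha hb))
  rw [← e3, mul_inv_rev, e1, e2]

omit [Finite G] in
theorem two_of_sq {H : Subgroup G} (h2 : ∀ x ∈ H, x * x = 1) : IsPGroup 2 H := fun g =>
  ⟨1, Subtype.ext (by simpa [pow_two] using h2 g g.2)⟩

omit [Finite G] in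
theorem mem_cj {H : Subgroup G} {g : G} : x ∈ H ⋆⋆ g ↔ g⁻¹ * x * g ∈ H := by
  constructor
  · rintro ⟨y, hy, rfl⟩
    simpa [mul_assoc] using hy
  · intro hx
    exact ⟨_, hx, by simp [mul_assoc]⟩

omit [Finite G] in
theorem norm_iff {H : Subgroup G} {g : G} : g ∈ 𝐍(H) ↔ H ⋆⋆ g = H := by
  rw [Subgroup.mem_normalizer_iff'']
  constructor
  · intro hh
    ext x
    rw [mem_cj]
    exact (hh x).symm
  · intro hh x
    rw [← mem_cj, hh]

omit [Finite G] in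
theorem cj_cj (H : Subgroup G) (g g' : G) : (H ⋆⋆ g) ⋆⋆ g' = H ⋆⋆ (g' * g) := by
  ext x
  simp only [mem_cj, mul_inv_rev, mul_assoc]

omit [Finite G] in
theorem card_cj (H : Subgroup G) (g : G) : Nat.card (H ⋆⋆ g) = Nat.card H :=
  (Nat.card_congr (H.equivMapOfInjective _ (MulAut.conj g).injective).toEquiv).symm

omit [Finite G] in
theorem two_elts (h1 : Nat.card V = 2) : ∃ s ∈ V, s ≠ 1 ∧ ∀ x ∈ V, x = 1 ∨ x = s := by
  obtain ⟨s, hs, hu⟩ := (Nat.card_eq_two_iff' (1 : V)).1 h1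
  refine ⟨s, s.2, fun e => hs (Subtype.ext e), fun x hx => ?_⟩
  by_cases e : x = 1
  · exact .inl e
  · exact .inr (congrArg Subtype.val (hu ⟨x, hx⟩ fun e' => e (congrArg Subtype.val e')))

omit [Finite G] in
theorem cj_two {s t g : G} (hs : s ∈ V) (hV : ∀ x ∈ V, x = 1 ∨ x = s) (ht : t ∈ W) (hW : ∀ x ∈ W, x = 1 ∨ x = t)
    (e : g * s * g⁻¹ = t) : W = V ⋆⋆ g := by
  ext x
  rw [mem_cj]
  constructor
  · intro hx
    rcases hW x hx with rfl | rfl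
    · simp
    · rw [← e]
      simpa [mul_assoc] using hs
  · intro hx
    rcases hV _ hx with e' | e'
    · have : x = 1 := by
        have : x = g * (g⁻¹ * x * g) * g⁻¹ := by group
        rw [this, e']
        group
      rw [this]
      exact W.one_mem
    · have : x = t := by
        rw [← e, ← e']
        group
      rw [this]
      exact ht

omit [Finite G] in
theorem third {H : Subgroup G} (hm : d 0 * d 1 * d 2 ∈ H) {i : Fin 3} (hj : ∀ j, j ≠ i → d j ∈ H) : d i ∈ H := by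
  fin_cases i
  · have := H.mul_mem (H.mul_mem hm (H.inv_mem (hj 2 (by decide)))) (H.inv_mem (hj 1 (by decide)))
    simpa [mul_assoc] using this
  · have := H.mul_mem (H.inv_mem (hj 0 (by decide))) (H.mul_mem hm (H.inv_mem (hj 2 (by decide))))
    simpa [mul_assoc] using this
  · have := H.mul_mem (H.inv_mem (H.mul_mem (hj 0 (by decide)) (hj 1 (by decide)))) hm
    simpa [mul_assoc] using this

theorem U_le (h : Γ.Ax0) (hU : Γ.Sg U) (hx : x ∈ Γ.QU U) (Bx : Γ.B x) : U ≤ Γ.Q x := by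
  intro u hu
  by_cases e : u = 1
  · rw [e]
    exact one_mem _
  · exact h.sym (hU u hu e).1 Bx (Γ.mem_QU.1 hx u hu e)

omit [Finite G] in
theorem e_mem (ht : Γ.Tab U d e) : e ∈ Γ.QU U := by
  rw [ht.he]
  exact mul_mem (mul_mem (ht.mem 0) (ht.mem 1)) (ht.mem 2)

omit [Finite G] in
theorem nBd (ht : Γ.Tab U d e) (i : Fin 3) : ¬ Γ.B (d i) ∧ d i ≠ 1 := by
  simpa using ht.nB i 1 U.one_mem

omit [Finite G] in
theorem cd (ht : Γ.Tab U d e) (i : Fin 3) : Γ.B (d i * e) ∧ ∀ j, d j ∈ Γ.Q (d i * e) ↔ j ≠ i := by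
  simpa using ht.c1 i 1 U.one_mem

end Sing

open Sing

namespace Dat.Ax

variable (h : Γ.Ax)
include h

/-- `tri U ≤ QU U` is elementary abelian (`QU_sq`) and contains `U` (`Tab.mem_tri`). -/
theorem tri_two (hU : Γ.Sg U) (h16 : Nat.card U = 16) : IsPGroup 2 (Γ.tri U) ∧ Γ.tri U ≠ ⊥ := by
  have hl : Γ.tri U ≤ Γ.QU U := (closure_le _).2 fun x hx => hx.1
  refine ⟨two_of_sq fun x hx => h.toAx0.QU_sq hU (by omega) (hl hx), fun e0 => ?_⟩
  obtain ⟨d, e, ht⟩ := h.tab hU h16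
  have : U = ⊥ := eq_bot_iff.2 fun u hu => e0 ▸ (ht.mem_tri h.toAx0 hU h16).2 (.inl hu)
  rw [this, card_bot] at h16
  omega

/-- `tri_conj` -/
theorem norm_tri (hU : Γ.Sg U) : 𝐍(U) ≤ 𝐍(Γ.tri U) := by
  intro g hg
  rw [norm_iff] at hg ⊢
  rw [← h.toAx0.tri_conj hU g, hg]

/-- `W ≤ QU U`.  Elements of `W \ U` are in `B`, so in `e U` or some `d i e U`.  Two of them `x, x'` lie in the same coset:
`x x' ∈ W` is `1` or in `B`, which excludes `e U` with `d i e U` (product in `d i U`); if `x ∈ d i e U`, `x' ∈ d j e U`, `i ≠ j`,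
`k` the third index, then `x' = d i d k u' ∈ Q x`, `d k ∈ Q x`, `U ≤ Q x`, so `d i ∈ Q x`, against `c1`. -/
theorem ovr (hW : Γ.Sg W) (hU : U ≤ W) (h16 : Nat.card U = 16) (ht : Γ.Tab U d e) (ne : W ≠ U) :
    W = Γ.tri U ∨ ∃ i, d i * e ∈ W ∧ ∀ x ∈ W, x ∈ U ∨ ∃ u ∈ U, x = d i * e * u := by
  have sU : Γ.Sg U := hW.mono hU
  have hq : W ≤ Γ.QU U := fun x hx => Γ.mem_QU.2 fun u hu u1 => (hW u (hU hu) u1).2 hx
  have nd : ∀ i, d i ∉ W := fun i hi => (nBd ht i).1 (hW _ hi (nBd ht i).2).1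
  have cv : ∀ x ∈ W, x ∈ U ∨ (∃ i, ∃ u ∈ U, x = d i * e * u) ∨ ∃ u ∈ U, x = e * u := by
    intro x hx
    rcases ht.cov x (hq hx) with h1 | ⟨i, u, hu, rfl⟩ | h1 | h1
    · exact .inl h1
    · exact absurd (by simpa using W.mul_mem hx (W.inv_mem (hU hu))) (nd i)
    · exact .inr (.inl h1)
    · exact .inr (.inr h1)
  by_cases he : e ∈ W
  · left
    ext x
    rw [ht.mem_tri h.toAx0 sU h16]
    constructor
    · intro hx
      rcases cv x hx with h1 | ⟨i, u, hu, rfl⟩ | h1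
      · exact .inl h1
      · exact absurd (by simpa [mul_assoc] using W.mul_mem (W.mul_mem hx (W.inv_mem (hU hu))) (W.inv_mem he)) (nd i)
      · exact .inr h1
    · rintro (h1 | ⟨u, hu, rfl⟩)
      · exact hU h1
      · exact W.mul_mem he (hU hu)
  · right
    obtain ⟨x₀, hx₀, n₀⟩ := SetLike.exists_of_lt (lt_of_le_of_ne hU ne.symm)
    have ne' : ∀ u ∈ U, e * u ∉ W := fun u hu hx => he (by simpa using W.mul_mem hx (W.inv_mem (hU hu)))
    rcases cv x₀ hx₀ with h1 | ⟨i, u₀, hu₀, rfl⟩ | ⟨u, hu, rfl⟩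
    · exact absurd h1 n₀
    · have mi : d i * e ∈ W := by simpa using W.mul_mem hx₀ (W.inv_mem (hU hu₀))
      refine ⟨i, mi, fun x hx => ?_⟩
      rcases cv x hx with h1 | ⟨j, u, hu, rfl⟩ | ⟨u, hu, rfl⟩
      · exact .inl h1
      · by_cases hj : j = i
        · exact .inr ⟨u, hu, by rw [hj]⟩
        · exfalso
          obtain ⟨Bx, cx⟩ := cd ht i
          have mj : d j * e ∈ W := by simpa using W.mul_mem hx (W.inv_mem (hU hu))
          have m1 := (hW _ mi (h.toAx0.ne_one Bx)).2 mj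
          have m2 : e ∈ Γ.Q (d i * e) := by simpa using mul_mem (inv_mem ((cx j).2 hj)) m1
          have m3 : d 0 * d 1 * d 2 ∈ Γ.Q (d i * e) := by rw [← ht.he]; exact m2
          exact (cx i).1 (third m3 fun j hj => (cx j).2 hj) rfl
      · exact absurd hx (ne' u hu)
    · exact absurd hx₀ (ne' u hu)

/-- `|W| = 32`, `perp A' W = W` (`perp_ts`), `|perp A' U| = 64`; take `f ∈ perp A' U \ W`; `b f x = 1` for `x = d i e`
(else `f ∈ perp A' W`); `c ∈ {f, f x}` has `q c = 1`, `c ∈ QU U` (`memQ`), `c ∉ Q x`.  By `cov` `c ∈ d l U`, and `l = i` as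
`d l ∈ Q x` for `l ≠ i`.  So `d i ∈ A'`. -/
theorem oct_mem (hW : Γ.Sg W) (hU : U ≤ W) (h16 : Nat.card U = 16) (ht : Γ.Tab U d e) {i : Fin 3} (m : d i * e ∈ W)
    (hx : ∀ x ∈ W, x ∈ U ∨ ∃ u ∈ U, x = d i * e * u) (hA : Γ.Ark A') (hl : W ≤ A') : d i ∈ A' := by
  classical
  have sU : Γ.Sg U := hW.mono hU
  have F := h.frm hA
  obtain ⟨Bx, cx⟩ := cd ht i
  set x := d i * e with hxd
  have xA : x ∈ A' := hl m
  have xq : x ∈ Γ.QU U := mul_mem (ht.mem i) (e_mem ht)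
  have UQ : U ≤ Γ.Q x := U_le h.toAx0 sU xq Bx
  have xU : x ∉ U := fun hu => (cx i).1 (Γ.mem_QU.1 (ht.mem i) x hu (h.toAx0.ne_one Bx)) rfl
  obtain ⟨f, fA, hf⟩ := F.exists_hom hl (φ := fun w => if w ∈ U then 0 else 1) (by
    intro v hv w hw
    by_cases h1 : v ∈ U <;> by_cases h2 : w ∈ U
    · simp [h1, h2, U.mul_mem h1 h2]
    · simp [h1, h2, U.mul_mem_cancel_left h1]
    · simp [h1, h2, U.mul_mem_cancel_right h2]
    · obtain ⟨u, hu, rfl⟩ := (hx v hv).resolve_left h1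
      obtain ⟨u', hu', rfl⟩ := (hx w hw).resolve_left h2
      have e1 : x * u * (x * u') = u * u' := by
        rw [F.comm xA (hl (hU hu)), mul_assoc, ← mul_assoc x, F.sq x xA, one_mul]
      have : u * u' ∈ U := U.mul_mem hu hu'
      simp only [e1, this, h1, h2, if_true, if_false]
      decide)
  have f0 : ∀ u ∈ U, Γ.b f u = 0 := fun u hu => by simpa [hu] using hf u (hU hu)
  have f1 : Γ.b f x = 1 := by simpa [xU] using hf x m
  have qx : Γ.q x = 0 := Γ.q_eq_zero.2 (.inr Bx)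
  have Px := h.pt hA xA Bx
  obtain ⟨c, cA, qc, c0, c1⟩ : ∃ c ∈ A', Γ.q c = 1 ∧ (∀ u ∈ U, Γ.b c u = 0) ∧ Γ.b c x = 1 := by
    by_cases hq : Γ.q f = 1
    · exact ⟨f, fA, hq, f0, f1⟩
    · refine ⟨f * x, mul_mem fA xA, ?_, fun u hu => ?_, ?_⟩
      · have h0 : Γ.q f = 0 := by
          rw [Γ.q_eq_one, not_not] at hq
          exact Γ.q_eq_zero.2 hq
        have := f1
        unfold Dat.b at this
        simpa [h0, qx] using this
      · rw [F.b_mul f fA x xA u (hl (hU hu)), f0 u hu, (Px.memQ u (hl (hU hu))).1 (UQ hu), add_zero]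
      · rw [F.b_mul f fA x xA x xA, f1, b_self (F.sq x xA), add_zero]
  have cq : c ∈ Γ.QU U := Γ.mem_QU.2 fun u hu u1 => by
    have uA := hl (hU hu)
    rw [(h.pt hA uA (sU u hu u1).1).memQ c cA, b_comm (F.comm uA cA)]
    exact c0 u hu
  have cQ : c ∉ Γ.Q x := by
    rw [Px.memQ c cA, b_comm (F.comm xA cA), c1]
    decide
  rw [Γ.q_eq_one, not_or] at qc
  rcases ht.cov c cq with h1 | ⟨l, u, hu, rfl⟩ | ⟨l, u, hu, rfl⟩ | ⟨u, hu, rfl⟩
  · exact absurd (sU c h1 qc.1).1 qc.2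
  · by_cases hl' : l = i
    · rw [← hl']
      simpa using A'.mul_mem cA (A'.inv_mem (hl (hU hu)))
    · exact absurd (mul_mem ((cx l).2 hl') (UQ hu)) cQ
  · exact absurd (ht.c1 l u hu).1 qc.2
  · exact absurd (ht.c0 u hu).1 qc.2

/-- `x = d i e`; `d i` commutes with `x`, is not in `B`, not in `Q x`: `twoA` gives an ark `A ∋ x, d i`.  `x d i = e ∈ A` is in
`B`, not in `Q x`, and `u ∈ U` lies in `Q x ⊓ Q e ≤ A` (`disj`; `sym`).  So `W ≤ A`.  For `g ∈ N(W)`, `W ≤ A ⋆⋆ g`, so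
`d i ∈ A ⋆⋆ g` (`oct_mem`) and `uniq` at `x` with `t = d i` gives `A ⋆⋆ g = A`. -/
theorem oct (hW : Γ.Sg W) (hU : U ≤ W) (h16 : Nat.card U = 16) (ht : Γ.Tab U d e) {i : Fin 3} (m : d i * e ∈ W)
    (hx : ∀ x ∈ W, x ∈ U ∨ ∃ u ∈ U, x = d i * e * u) : ∃ A, Γ.Ark A ∧ 𝐍(W) ≤ 𝐍(A) := by
  have sU : Γ.Sg U := hW.mono hU
  obtain ⟨Bx, cx⟩ := cd ht i
  have q2 : ∀ y ∈ Γ.QU U, y * y = 1 := fun y hy => h.toAx0.QU_sq sU (by omega) hy
  have xq : d i * e ∈ Γ.QU U := mul_mem (ht.mem i) (e_mem ht)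
  have nQ : d i ∉ Γ.Q (d i * e) := fun hh => (cx i).1 hh rfl
  have dd := q2 _ (ht.mem i)
  obtain ⟨A, hA, xA, dA⟩ := h.twoA Bx (mul_comm_of_sq q2 (ht.mem i) xq) dd nQ (nBd ht i).1
  have eA : e ∈ A := by simpa using A.mul_mem (A.inv_mem dA) xA
  have Be : Γ.B e := by simpa using (ht.c0 1 U.one_mem).1
  have eQ : e ∉ Γ.Q (d i * e) := fun hh => nQ (by simpa using mul_mem (h.toAx0.self_mem Bx) (inv_mem hh))
  have UA : U ≤ A := fun u hu => (h.pt hA xA Bx).disj e eA Be eQ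
    ⟨U_le h.toAx0 sU xq Bx hu, U_le h.toAx0 sU (e_mem ht) Be hu⟩
  have WA : W ≤ A := fun y hy => by
    rcases hx y hy with h1 | ⟨u, hu, rfl⟩
    · exact UA h1
    · exact A.mul_mem xA (UA hu)
  refine ⟨A, hA, fun g hg => ?_⟩
  rw [norm_iff] at hg ⊢
  have hA' := h.conjK g hA
  have WA' : W ≤ A ⋆⋆ g := by
    rw [← hg]
    exact map_mono WA
  have dA' := h.oct_mem hW hU h16 ht m hx hA' WA'
  exact (h.uniq hA hA' Bx xA (WA' m) nQ ⟨d i, dA, by rw [dd]; exact one_mem _⟩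
    ⟨d i, dA', by rw [dd]; exact one_mem _⟩).symm

/-- `|W|` is a power of `2`; if `≥ 16` take `U ≤ W` of order 16 (`Sylow.exists_subgroup_card_pow_prime`); `W = U`
(`norm_tri`), or `ovr`, `oct`. -/
theorem sing (hW : Γ.Sg W) (h1 : W ≠ ⊥) : Nat.card W = 2 ∨ Nat.card W = 4 ∨ Nat.card W = 8 ∨
    (∃ U, Γ.Sg U ∧ Nat.card U = 16 ∧ 𝐍(W) ≤ 𝐍(Γ.tri U)) ∨ ∃ A, Γ.Ark A ∧ 𝐍(W) ≤ 𝐍(A) := by
  haveI : Fact (Nat.Prime 2) := ⟨Nat.prime_two⟩
  obtain ⟨n, hn⟩ := IsPGroup.iff_card.1 (two_of_sq fun x hx => h.toAx0.sg_sq hW hx)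
  have n0 : n ≠ 0 := by
    rintro rfl
    exact h1 (Subgroup.eq_bot_of_card_eq _ (by simpa using hn))
  by_cases h4 : 4 ≤ n
  · obtain ⟨U', hU'⟩ := Sylow.exists_subgroup_card_pow_prime 2 (G := W) (n := 4) (hn ▸ pow_dvd_pow 2 h4)
    have hU : U'.map W.subtype ≤ W := map_subtype_le _
    have h16 : Nat.card (U'.map W.subtype) = 16 := by
      rw [card_map_of_injective W.subtype_injective, hU']
      norm_num
    generalize U'.map W.subtype = U at hU h16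
    have sU := hW.mono hU
    by_cases ne : W = U
    · exact .inr (.inr (.inr (.inl ⟨U, sU, h16, ne ▸ h.norm_tri hW⟩)))
    · obtain ⟨d, e, ht⟩ := h.tab sU h16
      rcases h.ovr hW hU h16 ht ne with e1 | ⟨i, m, hx⟩
      · exact .inr (.inr (.inr (.inl ⟨U, sU, h16, by rw [e1]⟩)))
      · exact .inr (.inr (.inr (.inr (h.oct hW hU h16 ht m hx))))
  · have : n = 1 ∨ n = 2 ∨ n = 3 := by omega
    rcases this with rfl | rfl | rfl
    · exact .inl hn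
    · exact .inr (.inl hn)
    · exact .inr (.inr (.inl hn))

/-- Among the `z ∈ B` centralising `Y` (`exists_cen`; `B ≠ ∅` by `exK`, `exists_hyp`) take one with `|Y ⊓ Q z|` maximal.
Suppose `a ∈ Y \ Q z`.  `twoA`: ark `A ∋ z, a`; `Y ≤ N(A)` (`norm_of_comm`).  For `c ∈ Y ⊓ Q z`, `a c ∈ Y \ Q z`,
`S A z (a c)` (`a c a = c`), so `a c ∈ A` (`twoA'`), `c ∈ A`.  `V = Y ⊓ A` has order `≤ 4` (`card_aniso`), so
`|perp A V| ≥ 256`, and `Y` normalises it (`norm_perp`): `fixSing` gives `u ∈ perp A V` in `B` centralising `Y`, and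
`Y ⊓ Q u ≥ V > Y ⊓ Q z`. -/
theorem pure_le (hY : Γ.Pure Y) : ∃ z, Γ.B z ∧ Y ≤ Γ.Q z := by
  have y2 : ∀ x ∈ Y, x * x = 1 := fun x hx => (hY x hx).1
  have pY := two_of_sq y2
  obtain ⟨A₀, hA₀⟩ := h.exK
  obtain ⟨z₀, -, -, -, Bz₀, -⟩ := h.exists_hyp hA₀
  obtain ⟨u₀, Bu₀, c₀⟩ := h.toAx0.exists_cen Bz₀ pY
  obtain ⟨z, ⟨Bz, cz⟩, mx⟩ := Set.exists_max_image {z | Γ.B z ∧ ∀ g ∈ Y, g * z = z * g}
    (fun z => Nat.card ↥(Y ⊓ Γ.Q z)) (Set.toFinite _)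
    ⟨u₀, Bu₀, fun g hg => mem_centralizer_singleton_iff.1 (c₀ hg)⟩
  refine ⟨z, Bz, fun a ha => ?_⟩
  by_contra n
  obtain ⟨A, hA, zA, aA⟩ := h.twoA Bz (cz a ha) (y2 a ha) n (hY a ha).2
  have F := h.frm hA
  have yN : ∀ g ∈ Y, g ∈ 𝐍(A) := fun g hg => h.norm_of_comm hA Bz zA n ⟨a, aA, by rw [y2 a ha]; exact one_mem _⟩
    (cz g hg) (mul_comm_of_sq y2 hg ha)
  have inA : ∀ c ∈ Y, c ∈ Γ.Q z → c ∈ A := by
    intro c hc cQ
    have m := Y.mul_mem ha hc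
    have : a * c ∈ A := h.twoA' hA Bz zA (fun hh => n (by simpa using mul_mem hh (inv_mem cQ)))
      ⟨a, aA, by rw [mul_comm_of_sq y2 ha hc, mul_assoc, y2 a ha, mul_one]; exact cQ⟩ (y2 _ m) (hY _ m).2
    simpa using A.mul_mem (A.inv_mem aA) this
  have hV : Y ⊓ A ≤ A := inf_le_right
  have c4 := F.card_aniso h.toAx0 hV fun v hv => (hY v hv.1).2
  have cp := F.card_perp hV
  have h8 : 8 ≤ Nat.card (Γ.perp A (Y ⊓ A)) := by
    by_contra hh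
    have : Nat.card ↥(Y ⊓ A) * Nat.card (Γ.perp A (Y ⊓ A)) ≤ 4 * 8 := Nat.mul_le_mul c4 (by omega)
    omega
  obtain ⟨u, hu, Bu, cu⟩ := F.fixSing h.toAx0 (F.perp_le hV) h8 pY fun g hg => F.norm_perp h.toAx0 hV (yN g hg) (by
    apply centralizer_le_normalizer
    intro v hv
    exact mul_comm_of_sq y2 hv.1 hg)
  rw [F.mem_perp hV] at hu
  have VQ : ∀ v ∈ Y, v ∈ A → v ∈ Γ.Q u := fun v hv vA => ((h.pt hA hu.1 Bu).memQ v vA).2 (hu.2 v ⟨hv, vA⟩)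
  have lt : Y ⊓ Γ.Q z < Y ⊓ Γ.Q u := by
    refine lt_of_le_of_ne (fun c hc => ⟨hc.1, VQ c hc.1 (inA c hc.1 hc.2)⟩) fun e0 => n ?_
    have : a ∈ Y ⊓ Γ.Q u := ⟨ha, VQ a ha aA⟩
    rw [← e0] at this
    exact this.2
  exact lt.ne (Subgroup.eq_of_le_of_card_ge lt.le (mx u ⟨Bu, cu⟩))

/-- `pure_le` for both, `tr`, `pure_conj`, `trP`. -/
theorem pure_tr (hV : Γ.Pure V) (hW : Γ.Pure W) (h1 : Nat.card V = 4) (h2 : Nat.card W = 4) : ∃ g, W = V ⋆⋆ g := by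
  obtain ⟨z, Bz, hz⟩ := h.pure_le hV
  obtain ⟨z', Bz', hz'⟩ := h.pure_le hW
  obtain ⟨g, rfl⟩ := h.tr Bz Bz'
  obtain ⟨g', e⟩ := h.trP Bz' (h.toAx0.pure_conj hV g) hW (by rw [h.toAx0.Q_conj g Bz]; exact map_mono hz) hz'
    (by rw [card_cj, h1]) h2
  exact ⟨g' * g, by rw [e, cj_cj]⟩

/-- `V = ⟨s⟩`, `W = ⟨t⟩`, `trA`. -/
theorem pure_tr2 (hV : Γ.Pure V) (hW : Γ.Pure W) (h1 : Nat.card V = 2) (h2 : Nat.card W = 2) : ∃ g, W = V ⋆⋆ g := by
  obtain ⟨s, hs, s1, hs'⟩ := two_elts h1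
  obtain ⟨t, ht, t1, ht'⟩ := two_elts h2
  obtain ⟨g, e⟩ := h.trA (hV s hs).1 (hW t ht).1 s1 t1 (hV s hs).2 (hW t ht).2
  exact ⟨g, cj_two hs hs' ht ht' e⟩

/-- `tr` -/
theorem sg_tr2 (hV : Γ.Sg V) (hW : Γ.Sg W) (h1 : Nat.card V = 2) (h2 : Nat.card W = 2) : ∃ g, W = V ⋆⋆ g := by
  obtain ⟨s, hs, s1, hs'⟩ := two_elts h1
  obtain ⟨t, ht, t1, ht'⟩ := two_elts h2
  obtain ⟨g, e⟩ := h.tr (hV s hs s1).1 (hW t ht t1).1
  exact ⟨g, cj_two hs hs' ht ht' e⟩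

theorem pure_card (hY : Γ.Pure Y) (h1 : Y ≠ ⊥) : Nat.card Y = 2 ∨ Nat.card Y = 4 := by
  haveI : Fact (Nat.Prime 2) := ⟨Nat.prime_two⟩
  obtain ⟨z, Bz, hz⟩ := h.pure_le hY
  have h4 := h.pure4 Bz hY hz
  obtain ⟨n, hn⟩ := IsPGroup.iff_card.1 (two_of_sq fun x hx => (hY x hx).1)
  have n0 : n ≠ 0 := by
    rintro rfl
    exact h1 (Subgroup.eq_bot_of_card_eq _ (by simpa using hn))
  have n2 : n ≤ 2 := by
    by_contra hh
    have := Nat.pow_le_pow_right (n := 2) (by norm_num) (show 3 ≤ n by omega)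
    omega
  have : n = 1 ∨ n = 2 := by omega
  rcases this with rfl | rfl
  · exact .inl hn
  · exact .inr hn

end Dat.Ax

end Cfsg.Lib.ML
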