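import Cfsg.Agent.Lib.ML.M4
import Cfsg.Agent.Lib.ML.Sing

/-!
# Maximal 2-local subgroups of the Monster: the abstract theorem (design helper10)
-/

set_option autoImplicit false

namespace Cfsg.Lib.ML

open Subgroup Cfsg.Lib.ES
open scoped commutatorElement

variable {G : Type*} [Group G] [Finite G] {Γ : Dat G} {H R Y E : Subgroup G}

omit [Finite G] in
theorem eq_of_max (hH : IsMaximalTwoLocal H) (h2 : IsPGroup 2 E) (h1 : E ≠ ⊥) (hn : H ≤ 𝐍(E)) : H = 𝐍(E) :=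
  (hH.2 _ ⟨E, h2, h1, rfl⟩ hn).symm

omit [Finite G] in
theorem mn_two (h2 : ∀ x ∈ E, x * x = 1) : IsPGroup 2 E := fun x =>
  ⟨1, Subtype.ext (by simpa [pow_two] using h2 x x.2)⟩

/-- `Ω₁ Z(R)` -/
def mnOm (R : Subgroup G) : Subgroup G where
  carrier := {x | x ∈ R ∧ x ∈ 𝐂(R) ∧ x * x = 1}
  one_mem' := ⟨one_mem _, one_mem _, mul_one _⟩
  mul_mem' := fun {a b} ha hb => ⟨mul_mem ha.1 hb.1, mul_mem ha.2.1 hb.2.1, by
    have e : a * b = b * a := hb.2.1 a ha.1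
    calc a * b * (a * b) = a * (b * a) * b := by group
      _ = a * (a * b) * b := by rw [e]
      _ = (a * a) * (b * b) := by group
      _ = 1 := by rw [ha.2.2, hb.2.2, mul_one]⟩
  inv_mem' := fun {a} ha => ⟨inv_mem ha.1, inv_mem ha.2.1, by rw [← mul_inv_rev, ha.2.2, inv_one]⟩

omit [Finite G] in
theorem mem_mnOm {x : G} : x ∈ mnOm R ↔ x ∈ R ∧ x ∈ 𝐂(R) ∧ x * x = 1 := Iff.rfl

omit [Finite G] in
theorem mn_norm_om (hn : H ≤ 𝐍(R)) : H ≤ 𝐍(mnOm R) := by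
  rw [le_normalizer_iff]
  intro g hg x hx
  refine ⟨(le_normalizer_iff.1 hn) g hg x hx.1, (le_normalizer_iff.1 (Core.le_normalizer_centralizer hn)) g hg x hx.2.1, ?_⟩
  calc g * x * g⁻¹ * (g * x * g⁻¹) = g * (x * x) * g⁻¹ := by group
    _ = 1 := by rw [hx.2.2]; group

omit [Finite G] in
theorem mn_norm_zpowers {u : G} (h2 : u * u = 1) (h1 : u ≠ 1) : 𝐍(zpowers u) = centralizer {u} := by
  have hz : ∀ x, x ∈ zpowers u ↔ x = 1 ∨ x = u := fun x => by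
    constructor
    · rintro ⟨k, rfl⟩
      have h2' : u ^ (2 : ℤ) = 1 := by rw [zpow_two, h2]
      rcases Int.even_or_odd' k with ⟨m, rfl | rfl⟩
      · left; simp only [zpow_mul, h2', one_zpow]
      · right; simp only [zpow_add, zpow_mul, h2', one_zpow, one_mul, zpow_one]
    · rintro (rfl | rfl)
      exacts [one_mem _, mem_zpowers _]
  apply le_antisymm
  · intro g hg
    rw [mem_centralizer_singleton_iff]
    rcases (hz _).1 ((mem_normalizer_iff.1 hg u).1 (mem_zpowers u)) with e | e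
    · exact absurd (by simpa using e) h1
    · calc g * u = g * u * g⁻¹ * g := by group
        _ = u * g := by rw [e]
  · rw [le_normalizer_iff]
    intro g hg x hx
    have e := mem_centralizer_singleton_iff.1 hg
    rcases (hz x).1 hx with rfl | rfl
    · simp
    · rw [e, mul_inv_cancel_right]; exact mem_zpowers _

namespace Dat.Ax

variable (h : Γ.Ax)
include h

/-- `R = (pCore 2 H).map H.subtype ≠ ⊥` (`H = N(T)`), `Y = {x ∈ R ⊓ C(R) | x² = 1} ≠ ⊥`, `H ≤ N(R)`, `H ≤ N(Y)`, so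
`H = N(R) = N(Y)` (`eq_of_max`).  Let `u ∈ Y ∩ B`.  `D = C(Y) ⊴ H` centralises `u`, so `Q u ⊓ D ⊴ D` lies in `O₂(D) ≤ R`.
`C(R) ≤ N(R) = H` is a 2-group: an element `a` of odd prime order in it lies in `D` (`Y ≤ R`), normalises `Q u`, and
`Q u ⊓ C(R) ≤ Q u ⊓ D ≤ R ≤ C(a)`; `Coprime.p_times_q` (`P = R`, `U = Q u`) gives `a ∈ C(Q u) ≤ Q u`, a 2-group.  Being normal
in `H`, `C(R) ≤ R`.  So `Loc.fix`. -/
theorem exists_loc (hH : IsMaximalTwoLocal H) : ∃ R Y : Subgroup G, Y ≠ ⊥ ∧ H = 𝐍(Y) ∧ (∀ y ∈ Y, y * y = 1) ∧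
    ((∃ u ∈ Y, Γ.B u) → Loc R Y) := by
  obtain ⟨T, hT2, hT1, hT⟩ := hH.1
  set R : Subgroup G := (pCore 2 H).map H.subtype with hR
  have R2 : IsPGroup 2 R := Core.pCoreOf_isPGroup 2 H
  have HR : H ≤ 𝐍(R) := Core.le_normalizer_pCoreOf 2 H
  have TR : T ≤ R := Core.le_pCoreOf (hT ▸ le_normalizer) hT.le hT2
  have R1 : R ≠ ⊥ := fun e => hT1 (le_bot_iff.1 (e ▸ TR))
  have Ysq : ∀ y ∈ mnOm R, y * y = 1 := fun y hy => hy.2.2
  have Y1 : mnOm R ≠ ⊥ := by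
    obtain ⟨x, hx, hc, ho⟩ := PGroup.exists_mem_centralizer_orderOf_eq R2 R2 le_normalizer R1
    intro e
    have : x ∈ mnOm R := ⟨hx, hc, by rw [← pow_two, ← ho, pow_orderOf_eq_one]⟩
    rw [e, mem_bot] at this
    rw [this, orderOf_one] at ho
    exact absurd ho (by decide)
  have HY : H = 𝐍(mnOm R) := eq_of_max hH (mn_two Ysq) Y1 (mn_norm_om HR)
  have HR' : H = 𝐍(R) := eq_of_max hH R2 R1 HR
  refine ⟨R, mnOm R, Y1, HY, Ysq, fun ⟨u, hu, Bu⟩ => ?_⟩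
  have RY : R ≤ 𝐂(mnOm R) := fun r hr y hy => (hy.2.1 r hr).symm
  have Lu := h.lg Bu
  have DH : 𝐂(mnOm R) ≤ H := HY ▸ centralizer_le_normalizer _
  have HD : H ≤ 𝐍(𝐂(mnOm R)) := Core.le_normalizer_centralizer HY.le
  have Du : 𝐂(mnOm R) ≤ 𝐍(Γ.Q u) := fun d hd => Lu.norm (mem_centralizer_singleton_iff.2 (hd u hu).symm)
  have QD : Γ.Q u ⊓ 𝐂(mnOm R) ≤ R :=
    (Core.le_pCoreOf inf_le_right (Core.le_normalizer_inf Du le_normalizer) (Lu.isPGroup.to_le inf_le_left)).trans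
      (Core.pCoreOf_le_of_le_normalizer DH HD)
  have CD : 𝐂(R) ≤ 𝐂(mnOm R) := fun c hc y hy => hc y hy.1
  have C2 : IsPGroup 2 𝐂(R) := by
    intro a
    obtain ⟨k, m, hm, e⟩ := Nat.exists_eq_two_pow_mul_odd (orderOf_pos (a : G)).ne'
    refine ⟨k, Subtype.ext ?_⟩
    have hb : (a : G) ^ 2 ^ k ∈ 𝐂(R) := pow_mem a.2 _
    have ho : orderOf ((a : G) ^ 2 ^ k) = m := by
      rw [orderOf_pow_of_dvd (by positivity) (e ▸ dvd_mul_right _ _), e, Nat.mul_div_cancel_left _ (by positivity)]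
    rw [SubmonoidClass.coe_pow, OneMemClass.coe_one]
    generalize (a : G) ^ 2 ^ k = b at hb ho
    have co : (Nat.card (zpowers b)).Coprime 2 := by
      rw [Nat.card_zpowers, ho]
      exact Nat.coprime_two_right.2 hm
    have bC : zpowers b ≤ 𝐂(R) := zpowers_le.2 hb
    have RC : R ≤ 𝐂(zpowers b) := le_centralizer_iff.1 bC
    have key := Coprime.p_times_q R2 co Lu.isPGroup RC (RY.trans Du) (bC.trans (CD.trans Du))
      (((inf_le_inf_left _ CD).trans QD).trans RC)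
    have := Core.eq_bot_of_isPGroup_of_coprime (Lu.isPGroup.to_le (key.trans Lu.cen_le)) co
    rwa [zpowers_eq_bot] at this
  have CR : 𝐂(R) ≤ R :=
    Core.le_pCoreOf (HR' ▸ centralizer_le_normalizer _) (Core.le_normalizer_centralizer HR) C2
  exact ⟨R2, Ysq, RY, fun x hx x2 => ⟨CR hx, hx, x2⟩⟩

/-- `𝒪 = {z | Mx Y z} ≠ ∅` is invariant under `N(Y)`.  If `v ∈ Q u` for all `u, v ∈ 𝒪`: `closure 𝒪` (`sg_closure`).  Else
`z, y ∈ 𝒪`, `y ∉ Q z`, `z ∉ Q y`; `m1` gives arks `A ∋ z` (for `y`) and `A' ∋ y` (for `z`).  If `y ∈ A`: `Y ≤ A` (`m3`), and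
for `g ∈ N(Y)` the ark `A ⋆⋆ g ≥ Y` contains `z, y`, so equals `A` (`uniq`, `S_of_memA`).  Same if `z ∈ A'`.  Else `m4`. -/
theorem split (L : Loc R Y) (hu : ∃ u ∈ Y, Γ.B u) :
    (∃ W, Γ.Sg W ∧ W ≠ ⊥ ∧ 𝐍(Y) ≤ 𝐍(W)) ∨ ∃ A, Γ.Ark A ∧ 𝐍(Y) ≤ 𝐍(A) := by
  classical
  have inv : ∀ g ∈ 𝐍(Y), ∀ z, Γ.Mx Y z → Γ.Mx Y (g * z * g⁻¹) := by
    intro g hg z hz
    have e : ∀ v, Γ.B v → Nat.card ↥(Y ⊓ Γ.Q (g * v * g⁻¹)) = Nat.card ↥(Y ⊓ Γ.Q v) := by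
      intro v Bv
      rw [h.Q_conj g Bv, ← Core.card_map_conj g (Y ⊓ Γ.Q v), map_inf _ _ _ (MulAut.conj g).injective,
        Core.map_conj_eq_iff.2 hg]
    refine ⟨h.conj g hz.B, (mem_normalizer_iff.1 hg z).1 hz.mem, fun u hu Bu => ?_⟩
    have hu' : g⁻¹ * u * g⁻¹⁻¹ ∈ Y := (mem_normalizer_iff.1 (inv_mem hg) u).1 hu
    have := hz.max _ hu' (h.conj g⁻¹ Bu)
    rw [← e _ (h.conj g⁻¹ Bu)] at this
    rw [e z hz.B]
    simpa [mul_assoc] using this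
  obtain ⟨z₀, hz₀⟩ : ∃ z, Γ.Mx Y z := by
    obtain ⟨z, hz, hm⟩ := Set.exists_max_image {u | u ∈ Y ∧ Γ.B u} (fun u => Nat.card ↥(Y ⊓ Γ.Q u)) (Set.toFinite _) hu
    exact ⟨z, hz.2, hz.1, fun u hu Bu => hm u ⟨hu, Bu⟩⟩
  by_cases hc : ∀ u, Γ.Mx Y u → ∀ v, Γ.Mx Y v → v ∈ Γ.Q u
  · left
    refine ⟨closure {z | Γ.Mx Y z}, h.sg_closure (fun u hu => hu.B) hc, fun e => ?_, ?_⟩
    · have : z₀ ∈ closure {z | Γ.Mx Y z} := subset_closure hz₀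
      rw [e, mem_bot] at this
      exact h.ne_one hz₀.B this
    · intro g hg
      refine Core.mem_normalizer_of_map_conj_le ?_
      rw [MonoidHom.map_closure, closure_le]
      rintro _ ⟨z, hz, rfl⟩
      exact subset_closure (inv g hg z hz)
  right
  push Not at hc
  obtain ⟨z, hz, y, hy, n⟩ := hc
  have fin : ∀ {z y A}, Γ.Mx Y z → Γ.Mx Y y → y ∉ Γ.Q z → Γ.Ark A → z ∈ A → y ∈ A → 𝐍(Y) ≤ 𝐍(A) := by
    intro z y A hz hy n hA mz my g hg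
    have YA : Y ≤ A := h.m3 L hz hy hA mz my n
    have YA' : Y ≤ A ⋆⋆ g := by
      rw [← Core.map_conj_eq_iff.2 hg]
      exact map_mono YA
    exact Core.map_conj_eq_iff.1 (h.uniq hA (h.conjK g hA) hz.B mz (YA' hz.mem) n (h.S_of_memA hA hz.B my)
      (h.S_of_memA (h.conjK g hA) hz.B (YA' hy.mem))).symm
  have n' : z ∉ Γ.Q y := fun m => n (h.sym hy.B hz.B m)
  obtain ⟨A, hA, mz, cy, s⟩ := h.m1 L hz hy.mem n
  obtain ⟨A', hA', my, cz, s'⟩ := h.m1 L hy hz.mem n'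
  by_cases h1 : y ∈ A
  · exact ⟨A, hA, fin hz hy n hA mz h1⟩
  by_cases h2 : z ∈ A'
  · exact ⟨A', hA', fin hy hz n' hA' my h2⟩
  exact (h.m4 L hz hy ⟨hA, hz.B, hy.B, mz, cy, h1, n, s⟩ ⟨hA', hy.B, hz.B, my, cz, h2, n', s'⟩).elim

end Dat.Ax

/-- The seven classes. -/
def Dat.Cl (Γ : Dat G) (i : Fin 7) (E : Subgroup G) : Prop :=
  ![Γ.Sg E ∧ Nat.card E = 2, Γ.Sg E ∧ Nat.card E = 4, Γ.Sg E ∧ Nat.card E = 8,
    ∃ U, Γ.Sg U ∧ Nat.card U = 16 ∧ E = Γ.tri U, Γ.Ark E, Γ.Pure E ∧ Nat.card E = 2, Γ.Pure E ∧ Nat.card E = 4] i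

namespace Dat.Ax

variable (h : Γ.Ax)
include h

theorem cl_two {i : Fin 7} (hE : Γ.Cl i E) : IsPGroup 2 E ∧ E ≠ ⊥ := by
  have ne : ∀ {n : ℕ}, Nat.card E = n → n ≠ 1 → E ≠ ⊥ := fun e n1 e' => n1 (by rw [← e, e', card_bot])
  fin_cases i
  · exact ⟨mn_two fun x hx => h.sg_sq hE.1 hx, ne hE.2 (by decide)⟩
  · exact ⟨mn_two fun x hx => h.sg_sq hE.1 hx, ne hE.2 (by decide)⟩
  · exact ⟨mn_two fun x hx => h.sg_sq hE.1 hx, ne hE.2 (by decide)⟩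
  · obtain ⟨U, hU, h16, rfl⟩ := hE
    exact h.tri_two hU h16
  · exact ⟨mn_two (h.frm hE).sq, ne (h.frm hE).card (by decide)⟩
  · exact ⟨mn_two fun x hx => (hE.1 x hx).1, ne hE.2 (by decide)⟩
  · exact ⟨mn_two fun x hx => (hE.1 x hx).1, ne hE.2 (by decide)⟩

/-- `sg_tr2`, `trS`, `tri_conj`, `trK`, `pure_tr2`, `pure_tr`. -/
theorem cl_tr {i : Fin 7} {E' : Subgroup G} (hE : Γ.Cl i E) (hE' : Γ.Cl i E') : ∃ g, E' = E ⋆⋆ g := by
  fin_cases i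
  · exact h.sg_tr2 hE.1 hE'.1 hE.2 hE'.2
  · exact h.trS hE.1 hE'.1 (hE.2.trans hE'.2.symm) (.inl hE.2)
  · exact h.trS hE.1 hE'.1 (hE.2.trans hE'.2.symm) (.inr (.inl hE.2))
  · obtain ⟨U, hU, h16, rfl⟩ := hE
    obtain ⟨U', hU', h16', rfl⟩ := hE'
    obtain ⟨g, rfl⟩ := h.trS hU hU' (h16.trans h16'.symm) (.inr (.inr h16))
    exact ⟨g, h.tri_conj hU g⟩
  · exact h.trK hE hE'
  · exact h.pure_tr2 hE.1 hE'.1 hE.2 hE'.2
  · exact h.pure_tr hE.1 hE'.1 hE.2 hE'.2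

/-- `exists_loc`; if `Y` has no element of `B`, `pure_card`; else `split`, `sing`, `eq_of_max`. -/
theorem exists_cl (hH : IsMaximalTwoLocal H) : ∃ i E, Γ.Cl i E ∧ H = 𝐍(E) := by
  obtain ⟨R, Y, Y1, HY, sq, L⟩ := h.exists_loc hH
  have fin : ∀ i E, Γ.Cl i E → H ≤ 𝐍(E) → ∃ i E, Γ.Cl i E ∧ H = 𝐍(E) := fun i E hE hn =>
    ⟨i, E, hE, eq_of_max hH (h.cl_two hE).1 (h.cl_two hE).2 hn⟩
  by_cases hu : ∃ u ∈ Y, Γ.B u
  · rcases h.split (L hu) hu with ⟨W, hW, W1, hn⟩ | ⟨A, hA, hn⟩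
    · have hn' : H ≤ 𝐍(W) := HY ▸ hn
      rcases h.sing hW W1 with e | e | e | ⟨U, hU, h16, h'⟩ | ⟨A, hA, h'⟩
      · exact fin 0 W ⟨hW, e⟩ hn'
      · exact fin 1 W ⟨hW, e⟩ hn'
      · exact fin 2 W ⟨hW, e⟩ hn'
      · exact fin 3 _ ⟨U, hU, h16, rfl⟩ (hn'.trans h')
      · exact fin 4 A hA (hn'.trans h')
    · exact fin 4 A hA (HY ▸ hn)
  · have hP : Γ.Pure Y := fun x hx => ⟨sq x hx, fun Bx => hu ⟨x, hx, Bx⟩⟩
    rcases h.pure_card hP Y1 with e | e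
    · exact fin 5 Y ⟨hP, e⟩ HY.le
    · exact fin 6 Y ⟨hP, e⟩ HY.le

/-- `S₀` = the normalisers of chosen members of the non-empty classes (at most 7; normaliser of a conjugate = conjugate of the
normaliser), `S₁` = the centralisers `C(u) = N(⟨u⟩)` of seven elements of `B` (`seven`, `eq_of_cen`);
`Finset.exists_subsuperset_card_eq` for `S₀ ⊆ S₀ ∪ S₁`. -/
theorem main : ∃ S : Finset (Subgroup G), S.card = 7 ∧ (∀ H ∈ S, IsTwoLocal H) ∧ ∀ H : Subgroup G, IsMaximalTwoLocal H →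
    ∃ H₀ ∈ S, ∃ g : G, H = H₀.map (MulAut.conj g).toMonoidHom := by
  classical
  obtain ⟨A, hA⟩ := h.exK
  obtain ⟨s, s7, hs⟩ := h.seven hA
  let f : Fin 7 → Subgroup G := fun i => if hi : ∃ E, Γ.Cl i E then 𝐍(hi.choose) else 𝐍(A)
  have f2 : ∀ i, IsTwoLocal (f i) := by
    intro i
    by_cases hi : ∃ E, Γ.Cl i E
    · exact ⟨hi.choose, (h.cl_two hi.choose_spec).1, (h.cl_two hi.choose_spec).2, dif_pos hi⟩
    · exact ⟨A, (h.cl_two (i := 4) hA).1, (h.cl_two (i := 4) hA).2, dif_neg hi⟩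
  let S₀ : Finset (Subgroup G) := Finset.univ.image f
  let S₁ : Finset (Subgroup G) := s.image fun u => centralizer {u}
  have c0 : S₀.card ≤ 7 := Finset.card_image_le.trans (by simp)
  have c1 : S₁.card = 7 := by
    rw [Finset.card_image_of_injOn fun u hu v hv e => h.eq_of_cen (hs u hu) (hs v hv) e, s7]
  obtain ⟨S, h0, h1, h7⟩ := Finset.exists_subsuperset_card_eq (Finset.subset_union_left (s₁ := S₀) (s₂ := S₁)) c0
    (c1 ▸ Finset.card_le_card Finset.subset_union_right)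
  refine ⟨S, h7, fun H hH => ?_, fun H hH => ?_⟩
  · rcases Finset.mem_union.1 (h1 hH) with m | m
    · obtain ⟨i, -, rfl⟩ := Finset.mem_image.1 m
      exact f2 i
    · obtain ⟨u, hu, rfl⟩ := Finset.mem_image.1 m
      refine ⟨zpowers u, ?_, zpowers_ne_bot.2 (h.ne_one (hs u hu)), (mn_norm_zpowers (h.sq (hs u hu)) (h.ne_one (hs u hu))).symm⟩
      exact (h.lg (hs u hu)).isPGroup.to_le (zpowers_le.2 (h.self_mem (hs u hu)))
  · obtain ⟨i, E, hE, rfl⟩ := h.exists_cl hH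
    have hi : ∃ E, Γ.Cl i E := ⟨E, hE⟩
    obtain ⟨g, e⟩ := h.cl_tr hi.choose_spec hE
    refine ⟨f i, h0 (Finset.mem_image_of_mem _ (Finset.mem_univ i)), g, ?_⟩
    have : f i = 𝐍(hi.choose) := dif_pos hi
    rw [this, map_equiv_normalizer_eq, ← e]

end Dat.Ax

end Cfsg.Lib.ML
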