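import Cfsg.Agent.Lib.ML.Form

/-!
# Maximal 2-local subgroups of the Monster: pure spinors (design helper10)

`O = 𝐂(A)`; for an involution `t ∈ O \ A`, `U A t = [t, O]` is a maximal totally singular subspace of `A`.
-/

set_option autoImplicit false

namespace Cfsg.Lib.ML

open Subgroup Cfsg.Lib.ES
open scoped commutatorElement

variable {G : Type*} [Group G] [Finite G] {Γ : Dat G} {u v w x y g a c z t t' t₁ t₂ t₃ o p : G} {A K V : Subgroup G}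

namespace Dat

omit [Finite G] in
theorem S.of_mem (hx : x ∈ Γ.Q u) : Γ.S A u x := ⟨1, one_mem _, by rwa [mul_one]⟩

omit [Finite G] in
theorem sp_comm (ha : a ∈ A) (ho : o ∈ 𝐂(A)) (t : G) : ⁅t * a, o⁆ = ⁅t, o⁆ := by
  have e : a * o = o * a := ho a ha
  calc ⁅t * a, o⁆ = t * (a * o) * a⁻¹ * t⁻¹ * o⁻¹ := by simp only [commutatorElement_def]; group
    _ = ⁅t, o⁆ := by rw [e]; simp only [commutatorElement_def]; group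

omit [Finite G] in
theorem sp_mul (ht' : t' ∈ 𝐂(A)) (ha : a ∈ A) (t a' : G) : t * a * (t' * a') = t * t' * (a * a') := by
  have e : a * t' = t' * a := ht' a ha
  calc t * a * (t' * a') = t * (a * t') * a' := by group
    _ = t * t' * (a * a') := by rw [e]; group

omit [Finite G] in
theorem sp_sq (F : Γ.Frm A) (hp : p ∈ 𝐂(A)) (ha : a ∈ A) (q : p * a * (p * a) = 1) : p * p = 1 := by
  rwa [sp_mul hp ha, F.sq a ha, mul_one] at q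

omit [Finite G] in
theorem sp_cm (F : Γ.Frm A) {p' a' : G} (hp : p ∈ 𝐂(A)) (hp' : p' ∈ 𝐂(A)) (ha : a ∈ A) (ha' : a' ∈ A)
    (c : p * a * (p' * a') = p' * a' * (p * a)) : p * p' = p' * p := by
  rw [sp_mul hp' ha, sp_mul hp ha', F.comm ha ha'] at c
  exact mul_right_cancel c

/-- `⁅p, o⁆ ∈ Q u` for `p ∈ Q u` and `o` centralising `u` -/
theorem sp_Ql (h : Γ.Ax0) (Bu : Γ.B u) (hp : p ∈ Γ.Q u) (ho : u * o = o * u) : ⁅p, o⁆ ∈ Γ.Q u := by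
  have e : ⁅p, o⁆ = p * (o * p⁻¹ * o⁻¹) := by simp only [commutatorElement_def]; group
  rw [e]
  exact mul_mem hp (h.cen_conj Bu ho.symm (inv_mem hp))

theorem sp_Qr (h : Γ.Ax0) (Bu : Γ.B u) (hp : p ∈ Γ.Q u) (ho : u * o = o * u) : ⁅o, p⁆ ∈ Γ.Q u := by
  rw [commutatorElement_def]
  exact mul_mem (h.cen_conj Bu ho.symm hp) (inv_mem hp)

theorem sp_pow (F : Γ.Frm A) (hV : V ≤ A) : ∃ k, Nat.card V = 2 ^ k := by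
  have d : Nat.card V ∣ 2 ^ 10 := F.card ▸ card_dvd_of_le hV
  obtain ⟨k, -, e⟩ := (Nat.dvd_prime_pow Nat.prime_two).1 d
  exact ⟨k, e⟩

namespace Ax

variable (h : Γ.Ax) (hA : Γ.Ark A)
include h hA

theorem S_of_memA (Bu : Γ.B u) (ha : a ∈ A) : Γ.S A u a :=
  ⟨a, ha, by rw [(h.frm hA).sq a ha]; exact one_mem _⟩

/-- `(t a) (t' a') = t t' (a a')` -/
theorem S_mul (ht' : t' ∈ 𝐂(A)) (s : Γ.S A u t) (s' : Γ.S A u t') : Γ.S A u (t * t') := by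
  obtain ⟨a, ha, m⟩ := s
  obtain ⟨a', ha', m'⟩ := s'
  exact ⟨a * a', mul_mem ha ha', sp_mul ht' ha t a' ▸ mul_mem m m'⟩

theorem S_split (ht : t ∈ 𝐂(A)) (s : Γ.S A u t) : ∃ p ∈ Γ.Q u ⊓ 𝐂(A), ∃ a ∈ A, t = p * a := by
  obtain ⟨a, ha, m⟩ := s
  refine ⟨t * a, ⟨m, mul_mem ht ((h.frm hA).le_cen ha)⟩, a, ha, ?_⟩
  rw [mul_assoc, (h.frm hA).sq a ha, mul_one]

/-- closed under products by `b_mul` (`⁅t, o⁆ ∈ A` by `commO`) -/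
theorem mem_U (ht : t ∈ 𝐂(A)) : a ∈ Γ.U A t ↔ a ∈ A ∧ ∀ o ∈ 𝐂(A), Γ.b a ⁅t, o⁆ = 0 := by
  have F := h.frm hA
  let K : Subgroup G :=
    { carrier := {a | a ∈ A ∧ ∀ o ∈ 𝐂(A), Γ.b a ⁅t, o⁆ = 0}
      mul_mem' := fun {a a'} ha ha' => ⟨mul_mem ha.1 ha'.1, fun o ho => by
        rw [F.b_mul a ha.1 a' ha'.1 _ (F.commO ht ho), ha.2 o ho, ha'.2 o ho, add_zero]⟩
      one_mem' := ⟨one_mem _, fun o _ => b_one_left⟩
      inv_mem' := fun {a} ha => by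
        rw [inv_eq_of_mul_eq_one_right (F.sq a ha.1)]
        exact ha }
  have e : Γ.U A t = K := closure_eq K
  rw [e]
  rfl

theorem U_le (t : G) : Γ.U A t ≤ A :=
  (closure_le A).2 fun _ ha => ha.1

/-- `⁅t a, o⁆ = ⁅t, o⁆` -/
theorem U_mul (ht : t ∈ 𝐂(A)) (ha : a ∈ A) : Γ.U A (t * a) = Γ.U A t := by
  unfold U
  congr 1
  ext c
  refine and_congr_right fun _ => forall₂_congr fun o ho => ?_
  rw [sp_comm ha ho]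

theorem norm_U (ht : t ∈ 𝐂(A)) (g1 : g ∈ 𝐍(A)) (g2 : g * t = t * g) : g ∈ 𝐍(Γ.U A t) := by
  have key : ∀ g, g ∈ 𝐍(A) → g * t = t * g → ∀ a ∈ Γ.U A t, g * a * g⁻¹ ∈ Γ.U A t := by
    intro g g1 g2 a ha
    rw [h.mem_U hA ht] at ha ⊢
    refine ⟨(mem_normalizer_iff.1 g1 a).1 ha.1, fun o ho => ?_⟩
    have ho' : g⁻¹ * o * g ∈ 𝐂(A) := by
      intro c hc
      have e : g * c * g⁻¹ * o = o * (g * c * g⁻¹) := ho _ ((mem_normalizer_iff.1 g1 c).1 hc)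
      calc c * (g⁻¹ * o * g) = g⁻¹ * (g * c * g⁻¹ * o) * g := by group
        _ = g⁻¹ * o * g * c := by rw [e]; group
    have e : ⁅t, o⁆ = g * ⁅t, g⁻¹ * o * g⁆ * g⁻¹ := by
      have e1 : t = g * t * g⁻¹ := by rw [g2]; group
      calc ⁅t, o⁆ = ⁅g * t * g⁻¹, o⁆ := by rw [← e1]
        _ = _ := by simp only [commutatorElement_def]; group
    rw [e, h.b_conj]
    exact ha.2 _ ho'
  refine mem_normalizer_iff.2 fun a => ⟨key g g1 g2 a, fun m => ?_⟩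
  have g3 : g⁻¹ * t = t * g⁻¹ := by
    calc g⁻¹ * t = g⁻¹ * (t * g) * g⁻¹ := by group
      _ = t * g⁻¹ := by rw [← g2]; group
  have := key g⁻¹ (inv_mem g1) g3 _ m
  rwa [show g⁻¹ * (g * a * g⁻¹) * g⁻¹⁻¹ = a by group] at this

theorem sp_iff (hu : u ∈ A) (Bu : Γ.B u) (ht : t ∈ 𝐂(A)) : Γ.S A u t ↔ ∀ o ∈ 𝐂(A), ⁅t, o⁆ ∈ Γ.Q u := by
  refine ⟨fun s o ho => ?_, (h.pt hA hu Bu).key t ht⟩
  obtain ⟨p, hp, a, ha, rfl⟩ := h.S_split hA ht s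
  rw [sp_comm ha ho]
  exact sp_Ql h.toAx0 Bu hp.1 (ho u hu)

/-- `→`: `t = p a`, `⁅t, o⁆ = ⁅p, o⁆ ∈ Q u` (`o` centralises `u`: `cen_conj`), `memQ`.  `←`: `memQ`, `key`. -/
theorem S_iff (hu : u ∈ A) (Bu : Γ.B u) (ht : t ∈ 𝐂(A)) : Γ.S A u t ↔ u ∈ Γ.U A t := by
  rw [h.sp_iff hA hu Bu ht, h.mem_U hA ht, and_iff_right hu]
  exact forall₂_congr fun o ho => (h.pt hA hu Bu).memQ _ ((h.frm hA).commO ht ho)

theorem S_iff' (hu : u ∈ A) (Bu : Γ.B u) (ht : t ∈ 𝐂(A)) : Γ.S A u t ↔ ∀ o ∈ 𝐂(A), ⁅t, o⁆ ∈ Γ.Q u :=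
  h.sp_iff hA hu Bu ht

/-- `t = p a = p' a'`; multiplying `p` by `u` if necessary (`u ∈ Q u`, `u ∉ Q v`, `mul_mem_Q`) `p ∈ Q u ⊓ Q v ≤ A`. -/
theorem S_disj (hu : u ∈ A) (Bu : Γ.B u) (hv : v ∈ A) (Bv : Γ.B v) (n : v ∉ Γ.Q u) (ht : t ∈ 𝐂(A)) (s : Γ.S A u t)
    (s' : Γ.S A v t) : t ∈ A := by
  obtain ⟨p, hp, a, ha, rfl⟩ := h.S_split hA ht s
  obtain ⟨p', hp', a', ha', e⟩ := h.S_split hA ht s'
  have F := h.frm hA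
  have e1 : p = p' * (a' * a) := by rw [← mul_assoc, ← e, mul_assoc, F.sq a ha, mul_one]
  have D := (h.pt hA hu Bu).disj v hv Bv n
  refine mul_mem ?_ ha
  by_cases m : a' * a ∈ Γ.Q v
  · exact D ⟨hp.1, e1 ▸ mul_mem hp'.1 m⟩
  · have n' : u ∉ Γ.Q v := fun m' => n (h.sym Bv Bu m')
    have m2 := h.mul_mem_Q hA hv Bv (mul_mem ha' ha) hu m n'
    have m3 : p * u ∈ A := D ⟨mul_mem hp.1 (h.self_mem Bu), by rw [e1, mul_assoc]; exact mul_mem hp'.1 m2⟩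
    exact (A.mul_mem_cancel_right hu).1 m3

/-- `S_split` for the three elements (squares and commutators do not change), `b3`, `S_iff'`. -/
theorem cp3 (hz : z ∈ A) (Bz : Γ.B z) (h1 : t₁ ∈ 𝐂(A)) (h2 : t₂ ∈ 𝐂(A)) (h3 : t₃ ∈ 𝐂(A)) (s1 : Γ.S A z t₁)
    (s2 : Γ.S A z t₂) (s3 : Γ.S A z t₃) (q1 : t₁ * t₁ = 1) (q2 : t₂ * t₂ = 1) (q3 : t₃ * t₃ = 1)
    (c1 : t₁ * t₂ = t₂ * t₁) (c2 : t₁ * t₃ = t₃ * t₁) (c3 : t₂ * t₃ = t₃ * t₂) :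
    ∃ w ∈ A, Γ.B w ∧ w ∈ Γ.Q z ∧ w ≠ z ∧ Γ.S A w t₁ ∧ Γ.S A w t₂ ∧ Γ.S A w t₃ := by
  have F := h.frm hA
  obtain ⟨p₁, hp₁, a₁, ha₁, rfl⟩ := h.S_split hA h1 s1
  obtain ⟨p₂, hp₂, a₂, ha₂, rfl⟩ := h.S_split hA h2 s2
  obtain ⟨p₃, hp₃, a₃, ha₃, rfl⟩ := h.S_split hA h3 s3
  obtain ⟨w, hw, Bw, m, ne, H⟩ := (h.oc hA hz Bz).b3 p₁ hp₁ p₂ hp₂ p₃ hp₃ (sp_sq F hp₁.2 ha₁ q1) (sp_sq F hp₂.2 ha₂ q2)
    (sp_sq F hp₃.2 ha₃ q3) (sp_cm F hp₁.2 hp₂.2 ha₁ ha₂ c1) (sp_cm F hp₁.2 hp₃.2 ha₁ ha₃ c2)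
    (sp_cm F hp₂.2 hp₃.2 ha₂ ha₃ c3)
  refine ⟨w, hw, Bw, m, ne, (h.S_iff' hA hw Bw h1).2 fun o ho => ?_, (h.S_iff' hA hw Bw h2).2 fun o ho => ?_,
    (h.S_iff' hA hw Bw h3).2 fun o ho => ?_⟩
  · rw [sp_comm ha₁ ho]; exact (H o ho).1
  · rw [sp_comm ha₂ ho]; exact (H o ho).2.1
  · rw [sp_comm ha₃ ho]; exact (H o ho).2.2

/-- Split `t₁, t₂` at `z` and `t₃ = p₃ a₃` at `y`; `b4` gives `w`.  Its conclusions hold for `z w` too (`inf`: all these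
commutators lie in `Q z`); one of `w`, `z w` is in `Q y` (`mul_mem_Q`, `z ∉ Q y` by `sym`); call it `w`.  For `o = p p'`
(`decomp`) `⁅p₃, o⁆ = ⁅p₃, p⁆ ⁅p₃, p'⁆` with `⁅p₃, p'⁆ ∈ {1, y} ⊆ Q w`.  `S_iff'`. -/
theorem cp_mixed (hz : z ∈ A) (Bz : Γ.B z) (hy : y ∈ A) (By : Γ.B y) (n : y ∉ Γ.Q z) (h1 : t₁ ∈ 𝐂(A)) (h2 : t₂ ∈ 𝐂(A))
    (h3 : t₃ ∈ 𝐂(A)) (s1 : Γ.S A z t₁) (s2 : Γ.S A z t₂) (s3 : Γ.S A y t₃) (q1 : t₁ * t₁ = 1) (q2 : t₂ * t₂ = 1)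
    (q3 : t₃ * t₃ = 1) (c1 : t₁ * t₂ = t₂ * t₁) (c2 : t₁ * t₃ = t₃ * t₁) (c3 : t₂ * t₃ = t₃ * t₂) :
    ∃ w ∈ A, Γ.B w ∧ Γ.S A w t₁ ∧ Γ.S A w t₂ ∧ Γ.S A w t₃ := by
  have F := h.frm hA
  obtain ⟨p₁, hp₁, a₁, ha₁, rfl⟩ := h.S_split hA h1 s1
  obtain ⟨p₂, hp₂, a₂, ha₂, rfl⟩ := h.S_split hA h2 s2
  obtain ⟨p₃, hp₃, a₃, ha₃, rfl⟩ := h.S_split hA h3 s3
  obtain ⟨w, hw, Bw, m, ne, H, H'⟩ := (h.oc hA hz Bz).b4 p₁ hp₁ p₂ hp₂ p₃ hp₃.2 (sp_sq F hp₁.2 ha₁ q1)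
    (sp_sq F hp₂.2 ha₂ q2) (sp_sq F hp₃.2 ha₃ q3) (sp_cm F hp₁.2 hp₂.2 ha₁ ha₂ c1) (sp_cm F hp₁.2 hp₃.2 ha₁ ha₃ c2)
    (sp_cm F hp₂.2 hp₃.2 ha₂ ha₃ c3)
  have n' : z ∉ Γ.Q y := fun m' => n (h.sym By Bz m')
  obtain ⟨w, hw, Bw, m, H, H'⟩ : ∃ w ∈ A, Γ.B w ∧ w ∈ Γ.Q y ∧ (∀ o ∈ 𝐂(A), ⁅p₁, o⁆ ∈ Γ.Q w ∧ ⁅p₂, o⁆ ∈ Γ.Q w) ∧
      ∀ p ∈ Γ.Q z ⊓ 𝐂(A), ⁅p₃, p⁆ ∈ Γ.Q w := by
    by_cases my : w ∈ Γ.Q y
    · exact ⟨w, hw, Bw, my, H, H'⟩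
    · refine ⟨z * w, mul_mem hz hw, h.mulB Bz Bw m ne, h.mul_mem_Q hA hy By hz hw n' my, fun o ho => ⟨?_, ?_⟩,
        fun p hp => ?_⟩
      · exact h.inf Bz Bw m ne (sp_Ql h.toAx0 Bz hp₁.1 (ho z hz)) (H o ho).1
      · exact h.inf Bz Bw m ne (sp_Ql h.toAx0 Bz hp₂.1 (ho z hz)) (H o ho).2
      · exact h.inf Bz Bw m ne (sp_Qr h.toAx0 Bz hp.1 (hp₃.2 z hz)) (H' p hp)
  refine ⟨w, hw, Bw, (h.S_iff' hA hw Bw h1).2 fun o ho => ?_, (h.S_iff' hA hw Bw h2).2 fun o ho => ?_,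
    (h.S_iff' hA hw Bw h3).2 fun o ho => ?_⟩
  · rw [sp_comm ha₁ ho]; exact (H o ho).1
  · rw [sp_comm ha₂ ho]; exact (H o ho).2
  · obtain ⟨p, hp, p', hp', rfl⟩ := h.decomp hA hz Bz hy By n ho
    rw [sp_comm ha₃ ho, F.comm_mul_right hp₃.2 hp.2 hp'.2]
    refine mul_mem (H' p hp) ?_
    rcases h.comm_or By hp₃.1 hp'.1 with e | e <;> rw [e]
    · exact one_mem _
    · exact h.sym By Bw m

/-- `z, y` from `exists_hyp`, `t = p p'` (`decomp`).  `1 = t² = p² p'² c` with `p² ∈ {1, z}`, `p'² ∈ {1, y}`,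
`c = ⁅p', p⁆^±1 ∈ A ⊓ Q z ⊓ Q y`.  Then `p² ∈ Q y`, so `p² = 1`; likewise `p'² = 1`, so `c = 1`.  `cp_mixed` for `p, 1, p'`,
`S_mul`. -/
theorem cover (ht : t ∈ 𝐂(A)) (t2 : t * t = 1) : ∃ u ∈ A, Γ.B u ∧ Γ.S A u t := by
  have F := h.frm hA
  obtain ⟨z, hz, y, hy, Bz, By, n⟩ := h.exists_hyp hA
  have n' : z ∉ Γ.Q y := fun m' => n (h.sym By Bz m')
  obtain ⟨p, hp, p', hp', rfl⟩ := h.decomp hA hz Bz hy By n ht
  have e : p * p * ⁅p⁻¹, p'⁆ * (p' * p') = 1 := by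
    rw [← t2]; simp only [commutatorElement_def]; group
  have c1 : ⁅p⁻¹, p'⁆ ∈ Γ.Q z := sp_Ql h.toAx0 Bz (inv_mem hp.1) (hp'.2 z hz)
  have c2 : ⁅p⁻¹, p'⁆ ∈ Γ.Q y := sp_Qr h.toAx0 By hp'.1 (𝐂(A).inv_mem hp.2 y hy)
  have q1 : p * p = 1 := by
    refine (h.sq_or Bz hp.1).resolve_right fun e1 => n' ?_
    rw [e1, mul_assoc] at e
    rw [eq_inv_of_mul_eq_one_left e]
    exact inv_mem (mul_mem c2 (mul_mem hp'.1 hp'.1))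
  have q2 : p' * p' = 1 := by
    refine (h.sq_or By hp'.1).resolve_right fun e1 => n ?_
    rw [e1] at e
    rw [eq_inv_of_mul_eq_one_right e]
    exact inv_mem (mul_mem (mul_mem hp.1 hp.1) c1)
  have c : p * p' = p' * p := by
    rw [q1, q2, one_mul, mul_one, inv_eq_of_mul_eq_one_right q1, commutatorElement_eq_one_iff_mul_comm] at e
    exact e
  obtain ⟨w, hw, Bw, s1, -, s3⟩ := h.cp_mixed hA hz Bz hy By n hp.2 (one_mem _) hp'.2 (S.of_mem hp.1)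
    (S.of_mem (one_mem _)) (S.of_mem hp'.1) q1 (mul_one 1) q2 (by simp) c (by simp)
  exact ⟨w, hw, Bw, h.S_mul hA hp'.2 s1 s3⟩

/-- `cover`, `S_split`, `U_mul`, `b1`. -/
theorem U_ts (ht : t ∈ 𝐂(A)) (t2 : t * t = 1) (n : t ∉ A) (ha : a ∈ Γ.U A t) : a = 1 ∨ Γ.B a := by
  obtain ⟨u, hu, Bu, s⟩ := h.cover hA ht t2
  obtain ⟨p, hp, c, hc, rfl⟩ := h.S_split hA ht s
  rw [h.U_mul hA hp.2 hc, h.mem_U hA hp.2] at ha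
  exact (h.oc hA hu Bu).b1 p hp (sp_sq (h.frm hA) hp.2 hc t2) (fun m => n (mul_mem m hc)) a ha.1 ha.2

/-- `W = {⁅t, o⁆}` (range of the hom `o ↦ ⁅t, o⁆`, `comm_mul_right`) is a subgroup of `A` with `perp A W = U A t`; both are
totally singular (`b2`, `U_ts`), so both have order `≤ 32` (`card_ts`) with product `2 ^ 10` (`card_perp`). -/
theorem card_U (ht : t ∈ 𝐂(A)) (t2 : t * t = 1) (n : t ∉ A) : Nat.card (Γ.U A t) = 32 := by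
  have F := h.frm hA
  let W : Subgroup G :=
    { carrier := {w | ∃ o ∈ 𝐂(A), w = ⁅t, o⁆}
      mul_mem' := by
        rintro _ _ ⟨o, ho, rfl⟩ ⟨o', ho', rfl⟩
        exact ⟨o * o', mul_mem ho ho', (F.comm_mul_right ht ho ho').symm⟩
      one_mem' := ⟨1, one_mem _, by simp⟩
      inv_mem' := by
        rintro _ ⟨o, ho, rfl⟩
        rw [inv_eq_of_mul_eq_one_right (F.sq _ (F.commO ht ho))]
        exact ⟨o, ho, rfl⟩ }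
  have hW : W ≤ A := by
    rintro _ ⟨o, ho, rfl⟩
    exact F.commO ht ho
  have e : Γ.perp A W = Γ.U A t := by
    ext a
    rw [F.mem_perp hW, h.mem_U hA ht]
    refine and_congr_right fun _ => ⟨fun H o ho => H _ ⟨o, ho, rfl⟩, ?_⟩
    rintro H _ ⟨o, ho, rfl⟩
    exact H o ho
  have ts : ∀ w ∈ W, w = 1 ∨ Γ.B w := by
    rintro _ ⟨o, ho, rfl⟩
    obtain ⟨u, hu, Bu, s⟩ := h.cover hA ht t2
    obtain ⟨p, hp, c, hc, rfl⟩ := h.S_split hA ht s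
    rw [sp_comm hc ho]
    exact (h.oc hA hu Bu).b2 p hp (sp_sq F hp.2 hc t2) o ho
  have h1 := F.card_ts hW ts
  have h2 := F.card_ts (h.U_le hA t) fun a ha => h.U_ts hA ht t2 n ha
  have h3 := F.card_perp hW
  rw [e] at h3
  by_contra ne
  have h4 : Nat.card (Γ.U A t) ≤ 31 := by omega
  have h5 := Nat.mul_le_mul h1 h4
  omega

theorem perp_U (ht : t ∈ 𝐂(A)) (t2 : t * t = 1) (n : t ∉ A) : Γ.perp A (Γ.U A t) = Γ.U A t :=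
  (h.frm hA).perp_ts (h.U_le hA t) (fun _ ha => h.U_ts hA ht t2 n ha) (h.card_U hA ht t2 n)

theorem sg_U (ht : t ∈ 𝐂(A)) (t2 : t * t = 1) (n : t ∉ A) : Γ.Sg (Γ.U A t) :=
  h.sg_of_ts hA (h.U_le hA t) fun _ ha => h.U_ts hA ht t2 n ha

/-- Put `φ u = if u = 1 ∨ t ∈ Q u then 0 else 1`.  For `u ∈ U \ {1}` and any `a ∈ A`: `t a ∈ Q u ↔ b u a = φ u` (from one
`a₀` with `t a₀ ∈ Q u`, `memQ`).  Additive on `U`: for `u ≠ v` in `U \ {1}` take `a` with `b u a = φ u`, `b v a = φ v`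
(`exists_two`); `t a ∈ Q u ⊓ Q v ≤ Q (u v)` (`inf`), so `φ (u v) = b (u v) a`.  `exists_hom`. -/
theorem lift (ht : t ∈ 𝐂(A)) (t2 : t * t = 1) (n : t ∉ A) :
    ∃ a ∈ A, ∀ u ∈ Γ.U A t, u ≠ 1 → t * a ∈ Γ.Q u ∧ (t ∈ Γ.Q u ↔ Γ.b u a = 0) := by
  classical
  have F := h.frm hA
  have le := h.U_le hA t
  have hB : ∀ u ∈ Γ.U A t, u ≠ 1 → Γ.B u := fun u hu u1 => (h.U_ts hA ht t2 n hu).resolve_left u1
  let φ : G → ZMod 2 := fun u => if u = 1 ∨ t ∈ Γ.Q u then 0 else 1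
  have z2 : ∀ α β : ZMod 2, α + β = 0 ↔ β = α := by decide
  have z3 : ∀ α : ZMod 2, α ≠ 0 → α = 1 := by decide
  have φ1 : φ 1 = 0 := if_pos (.inl rfl)
  have φ0 : ∀ u, u ≠ 1 → (t ∈ Γ.Q u ↔ φ u = 0) := by
    intro u u1
    by_cases m : t ∈ Γ.Q u <;> simp [φ, m, u1]
  have key : ∀ u ∈ Γ.U A t, u ≠ 1 → ∀ a ∈ A, (t * a ∈ Γ.Q u ↔ Γ.b u a = φ u) := by
    intro u hu u1
    have Bu := hB u hu u1
    obtain ⟨a₀, ha₀, m⟩ := (h.S_iff hA (le hu) Bu ht).2 hu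
    have k : ∀ a ∈ A, (t * a ∈ Γ.Q u ↔ Γ.b u a = Γ.b u a₀) := by
      intro a ha
      have e : t * a = t * a₀ * (a₀ * a) := by rw [mul_assoc t a₀, ← mul_assoc a₀, F.sq a₀ ha₀, one_mul]
      rw [e, (Γ.Q u).mul_mem_cancel_left m, (h.pt hA (le hu) Bu).memQ _ (mul_mem ha₀ ha),
        F.b_mul_right (le hu) ha₀ ha, z2]
    have e : φ u = Γ.b u a₀ := by
      have k1 := k 1 (one_mem _)
      rw [mul_one, b_one_right, φ0 u u1] at k1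
      by_cases e0 : φ u = 0
      · rw [e0]; exact k1.1 e0
      · rw [z3 _ e0, z3 (Γ.b u a₀) fun e1 => e0 (k1.2 e1.symm)]
    intro a ha
    rw [k a ha, e]
  obtain ⟨a, ha, H⟩ := F.exists_hom le (φ := φ) (by
    intro u hu v hv
    by_cases u1 : u = 1
    · rw [u1, one_mul, φ1, zero_add]
    by_cases v1 : v = 1
    · rw [v1, mul_one, φ1, add_zero]
    by_cases ne : u = v
    · rw [ne, F.sq v (le hv), φ1, eq_comm, z2]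
    obtain ⟨a, ha, e1, e2⟩ := F.exists_two (le hu) (le hv) u1 v1 ne (φ u) (φ v)
    have uv : u * v ≠ 1 := fun e => ne (by
      rw [eq_inv_of_mul_eq_one_left e, inv_eq_of_mul_eq_one_right (F.sq v (le hv))])
    have m := h.inf (hB u hu u1) (hB v hv v1) ((h.sg_U hA ht t2 n u hu u1).2 hv) (Ne.symm ne)
      ((key u hu u1 a ha).2 e1) ((key v hv v1 a ha).2 e2)
    rw [← (key _ (mul_mem hu hv) uv a ha).1 m, F.b_mul u (le hu) v (le hv) a ha, e1, e2])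
  refine ⟨a, ha, fun u hu u1 => ?_⟩
  have e : Γ.b u a = φ u := by rw [b_comm (F.comm (le hu) ha), H u hu]
  exact ⟨(key u hu u1 a ha).2 e, by rw [φ0 u u1, e]⟩

/-- Otherwise (the order divides `2 ^ 10`) there is `V ≤ U t₁ ⊓ U t₂` of order 16 (`Sylow.exists_subgroup_card_pow_prime`),
singular.  `QU V` has order `≤ 128` (`Tab.card_le`) and contains `perp A V` (order 64, `memQ`) and `t₁ a₁`, `t₂ a₂` (`lift`),
which are not in `A`.  A subgroup of index `≤ 2`: `t₁ a₁ t₂ a₂ ∈ perp A V ≤ A`, so `t₁ t₂ ∈ A`. -/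
theorem card_UU_le (h1 : t₁ ∈ 𝐂(A)) (h2 : t₂ ∈ 𝐂(A)) (q1 : t₁ * t₁ = 1) (q2 : t₂ * t₂ = 1) (n1 : t₁ ∉ A) (n2 : t₂ ∉ A)
    (n3 : t₁ * t₂ ∉ A) : Nat.card ↥(Γ.U A t₁ ⊓ Γ.U A t₂) ≤ 8 := by
  have F := h.frm hA
  by_contra lt
  haveI : Fact (Nat.Prime 2) := ⟨Nat.prime_two⟩
  obtain ⟨k, ek⟩ := sp_pow F (inf_le_left.trans (h.U_le hA t₁) : Γ.U A t₁ ⊓ Γ.U A t₂ ≤ A)
  have d : 2 ^ 4 ∣ Nat.card ↥(Γ.U A t₁ ⊓ Γ.U A t₂) := by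
    rw [ek] at lt ⊢
    refine pow_dvd_pow 2 ?_
    by_contra k4
    exact lt (le_trans (Nat.pow_le_pow_right (by norm_num) (by omega : k ≤ 3)) (by norm_num))
  obtain ⟨K, hK⟩ := Sylow.exists_subgroup_card_pow_prime 2 d
  set V := K.map (Γ.U A t₁ ⊓ Γ.U A t₂).subtype with hV
  have h16 : Nat.card V = 16 := by rw [hV, card_map_of_injective (subtype_injective _), hK]; norm_num
  have le : V ≤ Γ.U A t₁ ⊓ Γ.U A t₂ := map_subtype_le K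
  have leA : V ≤ A := le.trans (inf_le_left.trans (h.U_le hA t₁))
  have sV : Γ.Sg V := (h.sg_U hA h1 q1 n1).mono (le.trans inf_le_left)
  obtain ⟨d, e, T⟩ := h.tab sV h16
  have c1 := T.card_le h16
  have c2 := F.card_perp leA
  rw [h16] at c2
  have c3 : Nat.card (Γ.perp A V) = 64 := by omega
  have pl : Γ.perp A V ≤ Γ.QU V := by
    intro a ha
    rw [F.mem_perp leA] at ha
    refine Γ.mem_QU.2 fun v hv v1 => ?_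
    rw [(h.pt hA (leA hv) (sV v hv v1).1).memQ a ha.1, b_comm (F.comm (leA hv) ha.1)]
    exact ha.2 v hv
  obtain ⟨a₁, ha₁, H1⟩ := h.lift hA h1 q1 n1
  obtain ⟨a₂, ha₂, H2⟩ := h.lift hA h2 q2 n2
  have m1 : t₁ * a₁ ∈ Γ.QU V := Γ.mem_QU.2 fun v hv v1 => (H1 v (le hv).1 v1).1
  have m2 : t₂ * a₂ ∈ Γ.QU V := Γ.mem_QU.2 fun v hv v1 => (H2 v (le hv).2 v1).1
  have k1 : (⟨_, m1⟩ : Γ.QU V) ∉ (Γ.perp A V).subgroupOf (Γ.QU V) := fun m =>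
    n1 ((A.mul_mem_cancel_right ha₁).1 (F.perp_le leA (mem_subgroupOf.1 m)))
  have k2 : (⟨_, m2⟩ : Γ.QU V) ∉ (Γ.perp A V).subgroupOf (Γ.QU V) := fun m =>
    n2 ((A.mul_mem_cancel_right ha₂).1 (F.perp_le leA (mem_subgroupOf.1 m)))
  have i1 := ((Γ.perp A V).subgroupOf (Γ.QU V)).card_mul_index
  rw [Nat.card_congr (subgroupOfEquivOfLe pl).toEquiv, c3] at i1
  have i2 : ((Γ.perp A V).subgroupOf (Γ.QU V)).index ≠ 1 := fun e1 => k1 (index_eq_one.1 e1 ▸ mem_top _)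
  have i3 : 0 < Nat.card (Γ.QU V) := Nat.card_pos
  have i4 : ((Γ.perp A V).subgroupOf (Γ.QU V)).index = 2 := by omega
  have m3 := (mul_mem_iff_of_index_two i4).2 (iff_of_false k1 k2)
  have m4 : t₁ * a₁ * (t₂ * a₂) ∈ A := F.perp_le leA (mem_subgroupOf.1 m3)
  rw [sp_mul h2 ha₁] at m4
  exact n3 ((A.mul_mem_cancel_right (mul_mem ha₁ ha₂)).1 m4)

/-- `b5`: the group contains `1, z, w, z w, w'`, five different elements, and its order divides `2 ^ 10`. -/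
theorem card_UU_ge (hz : z ∈ A) (Bz : Γ.B z) (h1 : t₁ ∈ 𝐂(A)) (h2 : t₂ ∈ 𝐂(A)) (s1 : Γ.S A z t₁) (s2 : Γ.S A z t₂)
    (q1 : t₁ * t₁ = 1) (q2 : t₂ * t₂ = 1) (c : t₁ * t₂ = t₂ * t₁) : 8 ≤ Nat.card ↥(Γ.U A t₁ ⊓ Γ.U A t₂) := by
  classical
  have F := h.frm hA
  have mz : z ∈ Γ.U A t₁ ⊓ Γ.U A t₂ := ⟨(h.S_iff hA hz Bz h1).1 s1, (h.S_iff hA hz Bz h2).1 s2⟩
  obtain ⟨p₁, hp₁, a₁, ha₁, rfl⟩ := h.S_split hA h1 s1
  obtain ⟨p₂, hp₂, a₂, ha₂, rfl⟩ := h.S_split hA h2 s2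
  obtain ⟨w, hw, w', hw', Bw, Bw', -, -, n1, n2, n3, n4, H⟩ := (h.oc hA hz Bz).b5 p₁ hp₁ p₂ hp₂ (sp_sq F hp₁.2 ha₁ q1)
    (sp_sq F hp₂.2 ha₂ q2) (sp_cm F hp₁.2 hp₂.2 ha₁ ha₂ c)
  have mw : w ∈ Γ.U A (p₁ * a₁) ⊓ Γ.U A (p₂ * a₂) :=
    ⟨(h.S_iff hA hw Bw h1).1 ((h.S_iff' hA hw Bw h1).2 fun o ho => by rw [sp_comm ha₁ ho]; exact (H o ho).1),
      (h.S_iff hA hw Bw h2).1 ((h.S_iff' hA hw Bw h2).2 fun o ho => by rw [sp_comm ha₂ ho]; exact (H o ho).2.1)⟩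
  have mw' : w' ∈ Γ.U A (p₁ * a₁) ⊓ Γ.U A (p₂ * a₂) :=
    ⟨(h.S_iff hA hw' Bw' h1).1 ((h.S_iff' hA hw' Bw' h1).2 fun o ho => by rw [sp_comm ha₁ ho]; exact (H o ho).2.2.1),
      (h.S_iff hA hw' Bw' h2).1 ((h.S_iff' hA hw' Bw' h2).2 fun o ho => by rw [sp_comm ha₂ ho]; exact (H o ho).2.2.2)⟩
  obtain ⟨k, ek⟩ := sp_pow F (inf_le_left.trans (h.U_le hA _) : Γ.U A (p₁ * a₁) ⊓ Γ.U A (p₂ * a₂) ≤ A)
  set P := Γ.U A (p₁ * a₁) ⊓ Γ.U A (p₂ * a₂)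
  have z1 := h.ne_one Bz
  have w1 := h.ne_one Bw
  have w1' := h.ne_one Bw'
  have zw : z * w ≠ 1 := fun e => n1 (by
    rw [eq_inv_of_mul_eq_one_right e, inv_eq_of_mul_eq_one_right (h.sq Bz)])
  have c5 : ({1, z, w, z * w, w'} : Finset G).card = 5 := by
    rw [Finset.card_insert_of_notMem, Finset.card_insert_of_notMem, Finset.card_insert_of_notMem,
      Finset.card_pair (Ne.symm n4)]
    · simp [z1, Ne.symm n3]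
    · simp [w1, Ne.symm n1, Ne.symm n2]
    · simp [Ne.symm z1, Ne.symm w1, Ne.symm w1', Ne.symm zw]
  have sub : (({1, z, w, z * w, w'} : Finset G) : Set G) ⊆ P := by
    intro x hx
    simp only [Finset.coe_insert, Finset.coe_singleton, Set.mem_insert_iff, Set.mem_singleton_iff] at hx
    rcases hx with rfl | rfl | rfl | rfl | rfl
    exacts [one_mem P, mz, mw, mul_mem mz mw, mw']
  have l := Set.ncard_le_ncard sub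
  rw [Set.ncard_coe_finset, c5, ← Nat.card_coe_set_eq] at l
  have l' : 5 ≤ 2 ^ k := ek ▸ l
  rw [ek]
  by_contra lt
  have k2 : k ≤ 2 := by
    by_contra k3
    exact lt (le_trans (by norm_num) (Nat.pow_le_pow_right (by norm_num) (by omega : 3 ≤ k)))
  have := Nat.pow_le_pow_right (by norm_num : 0 < 2) k2
  omega

/-- `y = p₀ a`, `x = p₁ a₁` with `p₀, p₁ ∈ Q v ⊓ O` (`S_split`), `p₀² = 1`.  `K = (A ⊓ Q v) ⊔ ⟨p₀⟩` consists of the `c` and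
`c p₀` (`c ∈ A ⊓ Q v`), so `p₁ ∉ K`.  `sep`: `g ∈ Q v ⊓ C(K)`, `g p₁ g⁻¹ = v p₁`.  `g ∈ O` (`At.cen`) commutes with `p₀`, `a`,
hence with `y`; so `g x g⁻¹ = v x ∈ Q y` (`cen_conj`) and `v ∈ Q y`. -/
theorem sepL (By : Γ.B y) (hy : y ∈ 𝐂(A)) (hx : x ∈ 𝐂(A)) (m : x ∈ Γ.Q y) (n1 : x ∉ A) (n2 : x * y ∉ A) (hv : v ∈ A)
    (Bv : Γ.B v) (s1 : Γ.S A v y) (s2 : Γ.S A v x) : v ∈ Γ.Q y := by
  have F := h.frm hA
  obtain ⟨p₀, hp₀, a, ha, rfl⟩ := h.S_split hA hy s1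
  obtain ⟨p₁, hp₁, a₁, ha₁, rfl⟩ := h.S_split hA hx s2
  have q0 : p₀ * p₀ = 1 := sp_sq F hp₀.2 ha (h.sq By)
  have i0 : p₀⁻¹ = p₀ := inv_eq_of_mul_eq_one_right q0
  let K : Subgroup G :=
    { carrier := {k | k ∈ Γ.Q v ∧ (k ∈ A ∨ k * p₀ ∈ A)}
      mul_mem' := by
        rintro k k' ⟨m1, e1⟩ ⟨m2, e2⟩
        refine ⟨mul_mem m1 m2, ?_⟩
        rcases e1 with e1 | e1 <;> rcases e2 with e2 | e2
        · exact .inl (mul_mem e1 e2)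
        · exact .inr (mul_assoc k k' p₀ ▸ mul_mem e1 e2)
        · refine .inr ?_
          rw [mul_assoc, hp₀.2 k' e2, ← mul_assoc]
          exact mul_mem e1 e2
        · refine .inl ?_
          have e3 : k * p₀ * (k' * p₀) = k * k' := by
            rw [mul_assoc, ← hp₀.2 _ e2, mul_assoc k', q0, mul_one]
          exact e3 ▸ mul_mem e1 e2
      one_mem' := ⟨one_mem _, .inl (one_mem _)⟩
      inv_mem' := by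
        rintro k ⟨m1, e1⟩
        refine ⟨inv_mem m1, e1.imp inv_mem fun e1 => ?_⟩
        have e2 := inv_mem e1
        have e3 : k⁻¹ * p₀ = (k * p₀)⁻¹ := by
          calc k⁻¹ * p₀ = p₀⁻¹ * (p₀ * k⁻¹ * p₀) := by group
            _ = p₀⁻¹ * ((k * p₀)⁻¹ * p₀) := by rw [mul_inv_rev, i0]
            _ = (k * p₀)⁻¹ := by rw [hp₀.2 _ e2]; group
        exact e3 ▸ e2 }
  have nK : p₁ ∉ K := by
    rintro ⟨-, e | e⟩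
    · exact n1 (mul_mem e ha₁)
    · exact n2 (by rw [sp_mul hp₀.2 ha₁]; exact mul_mem e (mul_mem ha₁ ha))
  obtain ⟨g, -, gK, e⟩ := h.sep Bv (K := K) (fun k hk => hk.1) ⟨h.self_mem Bv, .inl hv⟩ hp₁.1 nK
  have gO : g ∈ 𝐂(A) := (h.pt hA hv Bv).cen fun c hc => gK c ⟨hc.2, .inl hc.1⟩
  have g0 : p₀ * g = g * p₀ := gK p₀ ⟨hp₀.1, .inr (q0 ▸ one_mem _)⟩
  have gy : g * (p₀ * a) = p₀ * a * g := by rw [← mul_assoc, ← g0, mul_assoc, ← gO a ha, mul_assoc]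
  have m2 := h.cen_conj By gy m
  have e2 : g * (p₁ * a₁) * g⁻¹ = v * (p₁ * a₁) := by
    calc g * (p₁ * a₁) * g⁻¹ = g * p₁ * g⁻¹ * (g * a₁) * g⁻¹ := by group
      _ = v * (p₁ * a₁) := by rw [e, ← gO a₁ ha₁]; group
  rw [e2] at m2
  exact ((Γ.Q _).mul_mem_cancel_right m).1 m2

end Ax

end Dat

end Cfsg.Lib.ML
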