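import Cfsg.Agent.Lib.ML.Spin

/-!
# Maximal 2-local subgroups of the Monster: pairs of type `2a3` (design helper10)

`U₄ = U A y ⊓ Q y` is the group of the common neighbours of `z` and `y`.
-/

set_option autoImplicit false

namespace Cfsg.Lib.ML

open Subgroup Cfsg.Lib.ES
open scoped commutatorElement

variable {G : Type*} [Group G] [Finite G] {Γ : Dat G} {u v w x y a c z p : G} {A A' : Subgroup G}

theorem t3_half {P K : Subgroup G} (hz : z ∈ P) (n : z ∉ K) (H : ∀ u ∈ P, u ∈ K ∨ u * z ∈ K) :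
    Nat.card P = 2 * Nat.card ↥(P ⊓ K) := by
  have i : (K.subgroupOf P).index = 2 := by
    refine index_eq_two_iff.2 ⟨⟨z, hz⟩, fun b => ?_⟩
    simp only [mem_subgroupOf, coe_mul]
    by_cases m : (b : G) ∈ K
    · exact .inr ⟨m, fun m' => n ((K.mul_mem_cancel_left m).1 m')⟩
    · exact .inl ⟨(H b b.2).resolve_left m, m⟩
  rw [← (K.subgroupOf P).card_mul_index, i, mul_comm, ← inf_subgroupOf_left,
    Nat.card_congr (subgroupOfEquivOfLe (inf_le_left : P ⊓ K ≤ P)).toEquiv]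

omit [Finite G] in
theorem t3_z2 : ∀ α : ZMod 2, α ≠ 0 → α = 1 := by decide

namespace Dat.T3

variable (h : Γ.Ax) (T : Γ.T3 A z y)
include h T

theorem nQ' : z ∉ Γ.Q y := fun m => T.nQ (h.sym T.By T.Bz m)

theorem comm : y * z = z * y := (T.my z T.mz).symm

theorem mem_U : z ∈ Γ.U A y := (h.S_iff T.ark T.mz T.Bz T.my).1 T.S

/-- `x ∈ O` by `cenQ`; otherwise `sepL` with `v = z` gives `z ∈ Q y`. -/
theorem inter (h1 : x ∈ Γ.Q z) (h2 : x ∈ Γ.Q y) : x ∈ A ∨ x * y ∈ A := by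
  by_contra n
  rw [not_or] at n
  have hx := h.cenQ T.ark T.Bz T.mz T.nQ T.S h1 (h.comm_of_mem T.By h2)
  exact T.nQ' h (h.sepL T.ark T.By T.my hx h2 n.1 n.2 T.mz T.Bz T.S (S.of_mem h1))

/-- `lift`: for `u ∈ U \ {1}`, `u ∈ Q y ↔ y ∈ Q u ↔ b u a = 0`; `b z a = 1`. -/
theorem half (hu : u ∈ Γ.U A y) : u ∈ Γ.Q y ∨ u * z ∈ Γ.Q y := by
  have sU := h.sg_U T.ark T.my (h.sq T.By) T.nA
  obtain ⟨a, ha, H⟩ := h.lift T.ark T.my (h.sq T.By) T.nA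
  by_cases m : u ∈ Γ.Q y
  · exact .inl m
  right
  have u1 : u ≠ 1 := fun e => m (e ▸ one_mem _)
  by_cases e : u * z = 1
  · rw [e]; exact one_mem _
  have mu := mul_mem hu (T.mem_U h)
  refine h.sym (sU _ mu e).1 T.By ((H _ mu e).2.2 ?_)
  rw [(h.frm T.ark).b_mul u (h.U_le T.ark y hu) z T.mz a ha,
    t3_z2 _ fun e1 => m (h.sym (sU u hu u1).1 T.By ((H u hu u1).2.2 e1)),
    t3_z2 _ fun e1 => T.nQ ((H z (T.mem_U h) (h.ne_one T.Bz)).2.2 e1)]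
  decide

/-- index two in `U A y` (`half`, `nQ'`, `card_U`) -/
theorem card4 : Nat.card ↥(Γ.U A y ⊓ Γ.Q y) = 16 := by
  have e := t3_half (T.mem_U h) (T.nQ' h) fun u hu => T.half h hu
  rw [h.card_U T.ark T.my (h.sq T.By) T.nA] at e
  omega

theorem sg4 : Γ.Sg (Γ.U A y ⊓ Γ.Q y) := (h.sg_U T.ark T.my (h.sq T.By) T.nA).mono inf_le_left

theorem t3_U (hc : c ∈ A) (Bc : Γ.B c) (m : c ∈ Γ.Q y) : c ∈ Γ.U A y :=
  (h.S_iff T.ark hc Bc T.my).1 (S.of_mem (h.sym T.By Bc m))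

theorem t3_Q (hu : u ∈ Γ.U A y) (u1 : u ≠ 1) : z ∈ Γ.Q u := (h.sg_U T.ark T.my (h.sq T.By) T.nA u hu u1).2 (T.mem_U h)

theorem t3_perp (ha : a ∈ A) (h1 : ∀ u ∈ Γ.U A y ⊓ Γ.Q y, Γ.b a u = 0) (h2 : Γ.b a z = 0) : a ∈ Γ.U A y := by
  have F := h.frm T.ark
  have le := h.U_le T.ark y
  rw [← h.perp_U T.ark T.my (h.sq T.By) T.nA, F.mem_perp le]
  refine ⟨ha, fun v hv => ?_⟩
  rcases T.half h hv with m | m
  · exact h1 v ⟨hv, m⟩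
  · have e := h1 _ ⟨mul_mem hv (T.mem_U h), m⟩
    rwa [F.b_mul_right ha (le hv) T.mz, h2, add_zero] at e

/-- `→`: `sg_U`, `mem_U`, `sym`.  `←`: `inter`.  If `u ∈ A`: `y ∈ Q u`, `S_iff`.  If `u y ∈ A`: `a = y u` is in `B` (`mulB`;
`u ≠ y`), in `A ⊓ Q y`, so `a ∈ U A y`, so `a ∈ Q z`, so `y ∈ Q z`. -/
theorem mem4 : u ∈ Γ.U A y ⊓ Γ.Q y ↔ u = 1 ∨ Γ.B u ∧ u ∈ Γ.Q z ∧ u ∈ Γ.Q y := by
  constructor
  · intro hu
    by_cases u1 : u = 1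
    · exact .inl u1
    have Bu := (T.sg4 h u hu u1).1
    exact .inr ⟨Bu, h.sym Bu T.Bz (T.t3_Q h hu.1 u1), hu.2⟩
  · rintro (rfl | ⟨Bu, m1, m2⟩)
    · exact one_mem _
    rcases T.inter h m1 m2 with e | e
    · exact ⟨T.t3_U h e Bu m2, m2⟩
    · have ne : u ≠ y := fun e1 => T.nQ (e1 ▸ m1)
      have Ba := h.mulB T.By Bu m2 ne
      rw [h.comm_of_mem T.By m2] at e
      have m3 := T.t3_U h e Ba (mul_mem (h.self_mem T.By) m2)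
      have m4 := h.sym Ba T.Bz (T.t3_Q h m3 (h.ne_one Ba))
      exact absurd (((Γ.Q z).mul_mem_cancel_right m1).1 m4) T.nQ

/-- If `b u a = 1` then `q (u a) = q a + 1`, so `e = a` or `e = u a` has `q e = 0`, `b u e = 1`, so `e ≠ 1`, `B e`,
`e ∈ A ⊓ Q y`, so `e ∈ U A y` and `e ∈ Q u` (`sg_U`): `b u e = 0`. -/
theorem A_le (ha : a ∈ A) (m : a ∈ Γ.Q y) (hu : u ∈ Γ.U A y ⊓ Γ.Q y) (u1 : u ≠ 1) : a ∈ Γ.Q u := by
  have F := h.frm T.ark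
  have Bu := (T.sg4 h u hu u1).1
  have uA := h.U_le T.ark y hu.1
  have P := h.pt T.ark uA Bu
  have key : ∀ e ∈ A, e ∈ Γ.Q y → Γ.q e = 0 → Γ.b u e = 0 := by
    intro e he m1 q0
    rcases Γ.q_eq_zero.1 q0 with rfl | Be
    · exact b_one_right
    · exact (P.memQ e he).1 ((h.sg_U T.ark T.my (h.sq T.By) T.nA u hu.1 u1).2 (T.t3_U h he Be m1))
  rw [P.memQ a ha]
  by_cases q1 : Γ.q a = 0
  · exact key a ha m q1
  by_cases q2 : Γ.q (u * a) = 0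
  · have e := key _ (mul_mem uA ha) (mul_mem hu.2 m) q2
    rwa [F.b_mul_right uA uA ha, b_self (h.sq Bu), zero_add] at e
  · rw [Dat.b, t3_z2 _ q1, t3_z2 _ q2, Γ.q_eq_zero.2 (.inr Bu)]
    decide

/-- `inter`, `A_le`, `y ∈ Q u`. -/
theorem X_le (h1 : x ∈ Γ.Q z) (h2 : x ∈ Γ.Q y) (hu : u ∈ Γ.U A y ⊓ Γ.Q y) (u1 : u ≠ 1) : x ∈ Γ.Q u := by
  rcases T.inter h h1 h2 with e | e
  · exact T.A_le h e h2 hu u1
  · have m := T.A_le h e (mul_mem h2 (h.self_mem T.By)) hu u1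
    exact ((Γ.Q u).mul_mem_cancel_right (h.sym T.By (T.sg4 h u hu u1).1 hu.2)).1 m

/-- otherwise `twoA'` gives `z y ∈ A` -/
theorem B_mul : Γ.B (z * y) := by
  by_contra nB
  have m := h.twoA' T.ark T.Bz T.mz (fun m => T.nQ (((Γ.Q z).mul_mem_cancel_left (h.self_mem T.Bz)).1 m))
    (h.S_mul T.ark T.my (S.of_mem (h.self_mem T.Bz)) T.S) (by
      rw [mul_assoc, ← mul_assoc y, T.comm h, mul_assoc, h.sq T.By, mul_one, h.sq T.Bz]) nB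
  exact T.nA ((A.mul_mem_cancel_left T.mz).1 m)

/-- `Tab.pair` for `U₄` gives `c ∈ QU U₄ ⊓ Q z ⊓ Q y`, `c ≠ 1`, not in `B`.  If `c ∈ A` then `c ⊥ U₄` and `c ⊥ z`, so
`c ∈ perp A (U A y) = U A y` (`half`, `perp_U`) is singular.  So `d = c y ∈ A` (`inter`). -/
theorem exists_d : ∃ d ∈ A, d ∈ Γ.Q y ∧ d ∉ Γ.Q z := by
  have F := h.frm T.ark
  obtain ⟨d, e, tb⟩ := h.tab (T.sg4 h) (T.card4 h)
  obtain ⟨c, hc, m1, m2, c1, nB⟩ := tb.pair h.toAx0 (T.sg4 h) (T.card4 h)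
    (Γ.mem_QU.2 fun u hu u1 => T.t3_Q h hu.1 u1) (Γ.mem_QU.2 fun u hu u1 => h.sym T.By (T.sg4 h u hu u1).1 hu.2)
    T.Bz T.By (T.B_mul h) T.nQ
  rcases T.inter h m1 m2 with m | m
  · have k : ∀ u ∈ A, Γ.B u → c ∈ Γ.Q u → Γ.b c u = 0 := fun u hu Bu mu => by
      rw [b_comm (F.comm m hu)]
      exact ((h.pt T.ark hu Bu).memQ c m).1 mu
    have mU := T.t3_perp h m (fun u hu => by
      by_cases u1 : u = 1
      · rw [u1]; exact b_one_right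
      · exact k u (h.U_le T.ark y hu.1) (T.sg4 h u hu u1).1 (Γ.mem_QU.1 hc u hu u1)) (k z T.mz T.Bz m1)
    exact ((h.U_ts T.ark T.my (h.sq T.By) T.nA mU).elim c1 nB).elim
  · exact ⟨c * y, m, mul_mem m2 (h.self_mem T.By), fun m3 => T.nQ (((Γ.Q z).mul_mem_cancel_left m1).1 m3)⟩

/-- `a ⊥ U₄`, `a ⊥ z`, so `a ∈ perp A (U A y) = U A y`.  With `d` from `exists_d`: if `a ∉ Q y` then `a z ∈ U₄`, so
`b (a z) d = 0` (`A_le`), `b a d = 0`, so `b z d = 0`, i.e. `d ∈ Q z`. -/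
theorem perp4 (ha : a ∈ A) (h1 : ∀ c ∈ A, c ∈ Γ.Q y → Γ.b a c = 0) (h2 : Γ.b a z = 0) : a ∈ Γ.U A y ⊓ Γ.Q y := by
  have F := h.frm T.ark
  have mU := T.t3_perp h ha (fun u hu => h1 u (h.U_le T.ark y hu.1) hu.2) h2
  refine ⟨mU, ?_⟩
  rcases T.half h mU with m | m
  · exact m
  obtain ⟨d, hd, m1, m2⟩ := T.exists_d h
  have mu : a * z ∈ Γ.U A y ⊓ Γ.Q y := ⟨mul_mem mU (T.mem_U h), m⟩
  have e : Γ.b (a * z) d = 0 := by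
    by_cases e1 : a * z = 1
    · rw [e1]; exact b_one_left
    · exact ((h.pt T.ark (mul_mem ha T.mz) (T.sg4 h _ mu e1).1).memQ d hd).1 (T.A_le h hd m1 mu e1)
  rw [F.b_mul a ha z T.mz d hd, h1 d hd m1, zero_add] at e
  exact absurd (((h.pt T.ark T.mz T.Bz).memQ d hd).2 e) m2

/-- **Purity.**  Suppose `p ∉ Q w`.
* `p ∈ O` (`cenQ`).  If `p ∉ B`, `twoA'` at `w` gives `p ∈ A`.  So `B p` and `T' : T3 A w p`.
* `p ∉ Q y` (else `p ∈ U₄ ≤ A` by `mem4`), so `A'` exists.  `p ∉ A'`: else `b y p = 1` in `A'` (`memQ`), `y p ∉ B`, and `twoA'`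
  at `z` (`y p ∉ Q z`, `S A z (y p)`) gives `y p ∈ A`.  So `T'' : T3 A' y p`; `U' = U A' p ⊓ Q p` is singular of order 16 with
  `u ∈ U' ↔ u = 1 ∨ B u ∧ u ∈ Q y ∧ u ∈ Q p`.
* `Π = U A y ⊓ U A p` has order 8 (`card_UU_le`, `card_UU_ge`); `z ∈ Π \ Q y`, `w ∈ Π ⊓ Q y \ Q p`; by `T.half` (`z ∈ Π`) and
  `T'.half` (`w ∈ Π ⊓ Q y`) `S = Π ⊓ Q y ⊓ Q p` has order 2, `S = {1, u₀}`, `B u₀`, `u₀ ∈ U'`.
* Every `u' ∈ U'` is in `S` (so `16 ≤ 2`): let `u' ≠ 1, u₀`; `u' ∈ Q u₀`.  `u'` centralises `A ⊓ Q y`: for such `c`,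
  `⁅c, u'⁆ ∈ {1, y}` and `∈ Q p` (`c` centralises `p`), `y ∉ Q p`; likewise `A ⊓ Q p`.  `K = (A ⊓ Q y) ⊔ (A ⊓ Q p) ∋ z, w`;
  `perp A K ≤ S ≤ ⟨u₀⟩` by `T.perp4`, `T'.perp4`; so `A ⊓ Q u₀ = perp A ⟨u₀⟩ ≤ perp A (perp A K) = K` and
  `u' ∈ C(A ⊓ Q u₀) ≤ O`.  If `u' ∈ A`: `y, p ∈ Q u'`, `S_iff`.  If `u' ∉ A`:
  if `u' y ∈ A` then `u' p ∉ A`, `S A w u'`, and `sepL` for `(p, u', w)` gives `w ∈ Q p`;
  if `u' p ∈ A` then `S A z u'`, `sepL` for `(y, u', z)` gives `z ∈ Q y`;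
  else `cp3` at `u₀` for `y, p, u' ∈ Q u₀` gives `v ≠ u₀` in `Π`, and `sepL` twice gives `v ∈ Q y ⊓ Q p`, so `v ∈ S`. -/
theorem pur (hp : p ∈ Γ.Q z) (p2 : p * p = 1) (c : p * y = y * p) (n1 : p ∉ A) (n2 : p * y ∉ A)
    (hy : p ∉ Γ.Q y → ∃ A', Γ.Ark A' ∧ y ∈ A' ∧ p ∈ 𝐂(A') ∧ Γ.S A' y p) (hw : w ∈ Γ.U A y ⊓ Γ.Q y) (w1 : w ≠ 1)
    (s : Γ.S A w p) : p ∈ Γ.Q w := by
  by_contra nw
  have F := h.frm T.ark
  have y2 := h.sq T.By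
  have Bw : Γ.B w := (T.sg4 h w hw w1).1
  have wA : w ∈ A := h.U_le T.ark y hw.1
  have pO : p ∈ 𝐂(A) := h.cenQ T.ark T.Bz T.mz T.nQ T.S hp c
  have Bp : Γ.B p := by
    by_contra nB
    exact n1 (h.twoA' T.ark Bw wA nw s p2 nB)
  have T' : Γ.T3 A w p := ⟨T.ark, Bw, Bp, wA, pO, n1, nw, s⟩
  have npy : p ∉ Γ.Q y := fun m => n1 (h.U_le T.ark y ((T.mem4 h).2 (.inr ⟨Bp, hp, m⟩)).1)
  have nyp : y ∉ Γ.Q p := fun m => npy (h.sym Bp T.By m)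
  have n3 : y * p ∉ A := c ▸ n2
  obtain ⟨A', hA', yA', pO', s'⟩ := hy npy
  have nA' : p ∉ A' := by
    intro m
    refine n3 (h.twoA' T.ark T.Bz T.mz (fun m1 => T.nQ (((Γ.Q z).mul_mem_cancel_right hp).1 m1))
      (h.S_mul T.ark pO T.S (S.of_mem hp)) (by rw [mul_assoc, ← mul_assoc p, c, mul_assoc, p2, mul_one, y2])
      fun B1 => npy (((h.pt hA' yA' T.By).memQ p m).2 ?_))
    rw [Dat.b, Γ.q_eq_zero.2 (.inr B1), Γ.q_eq_zero.2 (.inr T.By), Γ.q_eq_zero.2 (.inr Bp), add_zero, add_zero]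
  have T'' : Γ.T3 A' y p := ⟨hA', T.By, Bp, yA', pO', nA', npy, s'⟩
  have zp : z ∈ Γ.Q p := h.sym T.Bz Bp hp
  have c8 : Nat.card ↥(Γ.U A y ⊓ Γ.U A p) = 8 := le_antisymm (h.card_UU_le T.ark T.my pO y2 p2 T.nA n1 n3)
    (h.card_UU_ge T.ark T.mz T.Bz T.my pO T.S (S.of_mem hp) y2 p2 c.symm)
  have e1 := t3_half (P := Γ.U A y ⊓ Γ.U A p) ⟨T.mem_U h, T'.t3_U h T.mz T.Bz zp⟩ (T.nQ' h) fun u hu => T.half h hu.1
  have e2 := t3_half (P := Γ.U A y ⊓ Γ.U A p ⊓ Γ.Q y) ⟨⟨hw.1, T'.mem_U h⟩, hw.2⟩ (T'.nQ' h) fun u hu => T'.half h hu.1.2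
  have c2 : Nat.card ↥(Γ.U A y ⊓ Γ.U A p ⊓ Γ.Q y ⊓ Γ.Q p) = 2 := by omega
  obtain ⟨⟨u₀, hu₀⟩, ne0, un⟩ := (Nat.card_eq_two_iff' 1).1 c2
  have u1 : u₀ ≠ 1 := fun e => ne0 (Subtype.ext e)
  have un' : ∀ v ∈ Γ.U A y ⊓ Γ.U A p ⊓ Γ.Q y ⊓ Γ.Q p, v ≠ 1 → v = u₀ := fun v hv v1 =>
    congrArg Subtype.val (un ⟨v, hv⟩ fun e => v1 (congrArg Subtype.val e))
  have B0 : Γ.B u₀ := (T.sg4 h u₀ ⟨hu₀.1.1.1, hu₀.1.2⟩ u1).1
  have A0 : u₀ ∈ A := h.U_le T.ark y hu₀.1.1.1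
  have U0 : u₀ ∈ Γ.U A' p ⊓ Γ.Q p := (T''.mem4 h).2 (.inr ⟨B0, hu₀.1.2, hu₀.2⟩)
  have hK : A ⊓ Γ.Q y ⊔ A ⊓ Γ.Q p ≤ A := sup_le inf_le_left inf_le_left
  have pK : Γ.perp A (A ⊓ Γ.Q y ⊔ A ⊓ Γ.Q p) ≤ zpowers u₀ := by
    intro a ha
    rw [F.mem_perp hK] at ha
    have m1 := T.perp4 h ha.1 (fun c hc m => ha.2 c (mem_sup_left ⟨hc, m⟩)) (ha.2 z (mem_sup_right ⟨T.mz, zp⟩))
    have m2 := T'.perp4 h ha.1 (fun c hc m => ha.2 c (mem_sup_right ⟨hc, m⟩)) (ha.2 w (mem_sup_left ⟨wA, hw.2⟩))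
    by_cases a1 : a = 1
    · rw [a1]; exact one_mem _
    · rw [un' a ⟨⟨⟨m1.1, m2.1⟩, m1.2⟩, m2.2⟩ a1]; exact mem_zpowers _
  have qK : A ⊓ Γ.Q u₀ ≤ A ⊓ Γ.Q y ⊔ A ⊓ Γ.Q p := by
    rw [← h.perp_zpowers T.ark A0 B0, ← F.perp_perp hK]
    exact F.perp_anti pK (zpowers_le.2 A0)
  have le : Γ.U A' p ⊓ Γ.Q p ≤ Γ.U A y ⊓ Γ.U A p ⊓ Γ.Q y ⊓ Γ.Q p := by
    intro u hu
    rcases (T''.mem4 h).1 hu with rfl | ⟨Bu, uy, up⟩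
    · exact one_mem _
    have u0 : u ∈ Γ.Q u₀ := (T''.sg4 h u₀ U0 u1).2 hu
    have cK : A ⊓ Γ.Q y ⊔ A ⊓ Γ.Q p ≤ centralizer {u} := by
      refine sup_le (fun c hc => ?_) fun c hc => ?_ <;> rw [mem_centralizer_singleton_iff,
        ← commutatorElement_eq_one_iff_mul_comm]
      · exact (h.comm_or T.By hc.2 uy).resolve_right fun e => nyp (e ▸ sp_Qr h.toAx0 Bp up (pO c hc.1).symm)
      · exact (h.comm_or Bp hc.2 up).resolve_right fun e => npy (e ▸ sp_Qr h.toAx0 T.By uy (T.my c hc.1).symm)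
    have uO : u ∈ 𝐂(A) := (h.pt T.ark A0 B0).cen fun c hc => mem_centralizer_singleton_iff.1 (cK (qK hc))
    by_cases uA : u ∈ A
    · exact ⟨⟨⟨T.t3_U h uA Bu uy, T'.t3_U h uA Bu up⟩, uy⟩, up⟩
    exfalso
    by_cases m1 : u * y ∈ A
    · have m2 : u * p ∉ A := fun m2 => n3 (by
        have m3 := mul_mem (inv_mem m1) m2
        rwa [show (u * y)⁻¹ * (u * p) = y⁻¹ * p by group, inv_eq_of_mul_eq_one_right y2] at m3)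
      have s2 := h.S_mul T.ark T.my (h.S_of_memA T.ark Bw m1) ((h.S_iff T.ark wA Bw T.my).2 hw.1)
      rw [mul_assoc, y2, mul_one] at s2
      exact T'.nQ' h (h.sepL T.ark Bp pO uO up uA m2 wA Bw s s2)
    by_cases m2 : u * p ∈ A
    · have s2 := h.S_mul T.ark pO (h.S_of_memA T.ark T.Bz m2) (S.of_mem hp)
      rw [mul_assoc, p2, mul_one] at s2
      exact T.nQ' h (h.sepL T.ark T.By T.my uO uy uA m1 T.mz T.Bz T.S s2)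
    obtain ⟨v, hv, Bv, -, ne, s1, s2, s3⟩ := h.cp3 T.ark A0 B0 T.my pO uO (S.of_mem (h.sym T.By B0 hu₀.1.2))
      (S.of_mem (h.sym Bp B0 hu₀.2)) (S.of_mem u0) y2 p2 (h.sq Bu) c.symm (h.comm_of_mem T.By uy).symm
      (h.comm_of_mem Bp up).symm
    exact ne (un' v ⟨⟨⟨(h.S_iff T.ark hv Bv T.my).1 s1, (h.S_iff T.ark hv Bv pO).1 s2⟩,
      h.sepL T.ark T.By T.my uO uy uA m1 hv Bv s1 s3⟩, h.sepL T.ark Bp pO uO up uA m2 hv Bv s2 s3⟩ (h.ne_one Bv))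
  have l := card_le_of_le le
  rw [T''.card4 h, c2] at l
  omega

end Dat.T3

end Cfsg.Lib.ML
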