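import Cfsg.Agent.Lib.ML.VC

/-!
# Maximal 2-local subgroups of the Monster: the standard ark is an orthogonal space (helper10)
-/

set_option autoImplicit false
set_option maxRecDepth 100000

namespace Cfsg.Lib.ML

open Subgroup MulAction Matrix Cfsg.Lib.Leech Cfsg.Lib.ES Cfsg.Spor Cfsg.Lib.Mon Cfsg.Lib.Calc Cfsg.Lib.F2 Cfsg.Lib.M5
open scoped commutatorElement

variable {G : Type*} [Group G] [Finite G] {z : G} {Q : Subgroup G} {D : XD z Q Co1 L2} {R : Subgroup G} {t : G}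

theorem bN_eq (k l : ℕ) : bN k l = appA 1 (k >>> 4) l 4 ^^^ appA 1 (l >>> 4) k 4 ^^^ (k >>> 8 &&& l >>> 9 &&& 1) ^^^
    (l >>> 8 &&& k >>> 9 &&& 1) := by
  simp only [bN, qN, Nat.shiftRight_xor_distrib, appA_xor, appA_xor_left, Nat.and_xor_distrib_left,
    Nat.and_xor_distrib_right]
  refine Nat.eq_of_testBit_eq fun i => ?_
  simp only [Nat.testBit_xor]
  grind

theorem conj_mul_aux (m g z : G) : m * (g * z * g⁻¹) * m⁻¹ = m * g * z * (m * g)⁻¹ := by group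

/-- `bN` is bilinear.  E.g. `bN k l = appA 1 (P k) l 10` with `P k` = `k` with the bits `i ↔ i + 4` (`i < 4`) and `8 ↔ 9`
swapped (`decide +kernel` over `allLt 1024 × 1024`, or first for `l = 2 ^ j`), then `appA_xor_left` and linearity of `P`;
or go through `qN_iff` and `quadFormPlus`. -/
theorem bN_xor {k l m : ℕ} (hk : k < 1024) (hl : l < 1024) (hm : m < 1024) : bN (k ^^^ l) m = bN k m ^^^ bN l m := by
  rw [bN_eq, bN_eq, bN_eq]
  simp only [Nat.shiftRight_xor_distrib, appA_xor, appA_xor_left, Nat.and_xor_distrib_left, Nat.and_xor_distrib_right]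
  ac_rfl

/-- `sq`, `card` (bijection with `Fin 1024` by `sur`, `eq_iff`; or `h.exists_psi`), `b_mul` (`b_eq`, `mul`, `bN_xor`, values
`< 2`), `nondeg` (`∀ k < 1024, (∀ j < 10, bN k (2 ^ j) = 0) → k = 0` by `decide +kernel`), `cc` (`cen_A0`; `C(O) ≤ C(E1 D) = O` for
`O = C(E1 D)` as `E1 D ≤ O`), `sqO` (`M5.sq_mem_Z` as in the first lines of `M5.exists_ten`), `cardO` (the block `cO` of
`M5.exists_ten`: `|O| = |fixL w8L| * |Q ⊓ O| = 2 ^ 9 * 2 ^ 17` by `card_map_mul`, `map_cen`, `card_cen`, `|E1 D| = 2 ^ 9`). -/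
theorem _root_.Cfsg.Lib.M5.St.frm (h : St D R t) : (dat D).Frm (A0 D) := by
  obtain ⟨b, c⟩ := h.exists_crd
  obtain ⟨n, y, e1, nO, hy, yE, y2, c1, c2⟩ := h.exists_y
  have cE : Nat.card (A0 D) = 2 ^ 10 := (h.exists_psi hy ⟨yE, y2⟩ c1 c2 rfl).2.1
  refine ⟨c.sq, cE, fun a ha a' ha' d hd => ?_, fun a ha k => ?_, ?_, fun o ho => ?_, ?_⟩
  · obtain ⟨k, hk, rfl⟩ := c.sur a ha
    obtain ⟨l, hl, rfl⟩ := c.sur a' ha'
    obtain ⟨m, hm, rfl⟩ := c.sur d hd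
    rw [← c.mul, c.b_eq hk hm, c.b_eq hl hm, c.b_eq (Nat.xor_lt_two_pow (n := 10) hk hl) hm, bN_xor hk hl hm,
      cast_xor (bN_lt _ _) (bN_lt _ _)]
  · obtain ⟨l, hl, rfl⟩ := c.sur a ha
    rw [(by decide +kernel : ∀ k < 1024, (∀ j < 10, bN k (2 ^ j) = 0) → k = 0) l hl fun j hj =>
      (c.b_eq_zero hl (Nat.pow_lt_pow_right (by norm_num) hj : 2 ^ j < 2 ^ 10)).1 (k _ (c.pmem _)), prodA_zero]
  · rw [cen_A0]
    exact le_inf (centralizer_le E1_comm) le_rfl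
  · rw [cen_A0] at ho
    exact sq o ▸ sq_mem_Z rfl rfl hy yE nO (e1 ▸ h.pr.ne) ho
  · rw [cen_A0]
    have a1 := D.card_map_mul (A0_le_cen D)
    have a2 := D.card_map_mul (cen_le_z (D := D))
    have c3 := card_cen D.lg D.es (E1_le D) (z_mem D)
    rw [show map D.ρ _ = zpowers s8 from le_antisymm (by rintro _ ⟨x, hx, rfl⟩; exact rho_Z hx.2)
      ((zpowers_le (G := Co1)).2 ⟨y, yE, hy⟩), fix8.1.card_zpowers, show Q ⊓ A0 D = E1 D from
        le_antisymm (fun x hx => inf_A0 D hx.1 hx.2) (le_inf (E1_le D) (E1_le_A0 D)), cE] at a1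
    rw [map_cen, fix8.2.2.1] at a2
    rw [h.card, show Nat.card (E1 D) = 2 ^ 9 by omega] at c3
    omega

/-- `dat_Qz`, `Crd.mem_Q`, `hz`, `b_eq_zero`, `∀ k < 1024, k < 512 ↔ bN 256 k = 0`. -/
theorem _root_.Cfsg.Lib.M5.St.memQ (h : St D R t) {a : G} (ha : a ∈ A0 D) : a ∈ Q ↔ (dat D).b z a = 0 := by
  obtain ⟨b, c⟩ := h.exists_crd
  obtain ⟨k, hk, rfl⟩ := c.sur a ha
  rw [c.mem_Q hk]
  conv_rhs => enter [1, 2]; rw [← c.hz]
  rw [c.b_eq_zero (by norm_num) hk]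
  exact (by decide +kernel : ∀ k < 1024, k < 512 ↔ bN 256 k = 0) k hk

theorem _root_.Cfsg.Lib.M5.St.trans1 (h : St D R t) {u : G} (hu : u ∈ A0 D) (hB : IsConj z u) (hQ : u ∈ Q) :
    ∃ g ∈ 𝐍(A0 D), g * z * g⁻¹ = u := by
  by_cases hz : u = z
  · exact ⟨1, one_mem _, by simp [hz]⟩
  obtain ⟨b, c⟩ := h.exists_crd
  let S : Finset ℕ := ((Finset.range 256).filter fun k => k ≠ 0 ∧ qN k = 0).image (app 24 tM)
  have cS : S.card ≤ 135 := Finset.card_image_le.trans (by decide +kernel)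
  have mS : ∀ v ∈ A0 D, IsConj z v → v ∈ Q → v ≠ z → code2 (D.π v) ∈ S := fun v h1 h2 h3 h4 => by
    obtain ⟨k, hk, rfl⟩ := c.sur v h1
    have a := (c.mem_Q hk).1 h3
    have a' := (c.B_iff hk).1 h2
    have a2 : k ≠ 256 := by rintro rfl; exact h4 c.hz
    exact Finset.mem_image.2 ⟨k % 256, Finset.mem_filter.2 ⟨Finset.mem_range.2 (Nat.mod_lt _ (by norm_num)), by omega,
      ((by decide +kernel : ∀ k < 512, qN (k % 256) = qN k) k a).trans a'.2⟩, (c.low k a).2.symm⟩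
  have sub : code2 '' orbit (gp1 gL) e0 ⊆ S := by
    rintro _ ⟨_, ⟨⟨k, hk⟩, rfl⟩, rfl⟩
    obtain ⟨d, rfl⟩ := D.surj k
    have := mS (d * t * (d : G)⁻¹) ((mem_normalizer_iff.1 (norm_A0 D (g_le hk)) t).1 (E1_le_A0 D h.t_mem))
      (IsConj.trans h.B_t (isConj_iff.2 ⟨_, rfl⟩)) (D.conj_mem d h.pr.mem_l) fun e => h.pr.ne (by
        rw [mul_inv_eq_iff_eq_mul, ← mem_centralizer_singleton_iff.1 d.2, mul_right_inj] at e; exact e)
    rwa [D.π_conj d t h.pr.mem_l, h.pi] at this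
  have := Set.eq_of_subset_of_ncard_le sub (by rw [Set.ncard_coe_finset]; exact cS.trans orb8)
  obtain ⟨_, ⟨⟨k, hk⟩, rfl⟩, e⟩ := this.ge (mS u hu hB hQ hz)
  obtain ⟨d, hd, e'⟩ := D.exists_conj h.pr.mem_l hQ (D.π_ne_zero h.pr.mem_l (ax0 D h.card |>.ne_one h.B_t) h.pr.ne)
    (g := k) (by rw [h.pi]; exact code2_injective e)
  obtain ⟨n, -, e1, nO, -⟩ := h.exists_y
  exact ⟨d * n, mul_mem (norm_A0 D (hd ▸ g_le hk)) (Core.le_normalizer_inf le_rfl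
    (Core.normalizer_le_normalizer_centralizer _) nO), by rw [← conj_mul_aux, e1, e']⟩

/-- `N(A0 D)` is transitive on the 2-central involutions of `A0 D`.
(1) `u ∈ Q`, `u ≠ z`: `code2 (π u) ∈ S := {app 24 tM k | k < 256, k ≠ 0, qN k = 0}` (`sur`, `mem_Q`, `low`, `B_iff`, `hz`,
`qN (k % 256) = qN k`), and `S.ncard ≤ 135` (image of a finset of that size, `decide +kernel`).  The set
`code2 '' orbit (gp1 gL) e0` has `≥ 135` elements (`orb8`) and lies in `S`: for `k = ρ c ∈ gp1 gL ≤ C(s8)` (`g_le`) the element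
`c t c⁻¹` lies in `A0 D` (`norm_A0`, `h.t_mem`), in `Q`, is conjugate to `z`, `≠ z`, and `π (c t c⁻¹) = k • e0`.  So the two sets
are equal (`Set.eq_of_subset_of_ncard_le`), `π u = k • π t`, and `D.exists_conj` gives `c` with `ρ c = k`, `c t c⁻¹ = u`.
With `n` of `h.exists_y` (`n z n⁻¹ = t`, `n ∈ N(C(E1 D)) ≤ N(A0 D)`), `g = c n`.
(2) `u = prodA b k 10` arbitrary: one of `l = 1, 2, 3` has `bN l k = 0` (`decide +kernel`), `w = prodA b l 10` is as in (1); take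
`m ∈ N(A0 D)` with `m z m⁻¹ = w`; `u' = m⁻¹ u m ∈ A0 D` has `b z u' = b w u = 0` (`(ax0 D h.card).b_conj`), so `u' ∈ Q` (`memQ`):
`u' = z` or (1). -/
theorem _root_.Cfsg.Lib.M5.St.trans (h : St D R t) {u : G} (hu : u ∈ A0 D) (hB : IsConj z u) :
    ∃ g ∈ 𝐍(A0 D), g * z * g⁻¹ = u := by
  obtain ⟨b, c⟩ := h.exists_crd
  obtain ⟨k, hk, rfl⟩ := c.sur u hu
  obtain ⟨l, hl, l0, l1, l2⟩ := (by decide +kernel : ∀ k < 1024, ∃ l < 4, l ≠ 0 ∧ qN l = 0 ∧ bN l k = 0) k hk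
  obtain ⟨m, hm, e⟩ := h.trans1 (c.pmem l) ((c.B_iff (by omega)).2 ⟨l0, l1⟩) ((c.mem_Q (by omega)).2 (by omega))
  have a1 : m⁻¹ * prodA b k 10 * m⁻¹⁻¹ ∈ A0 D := (mem_normalizer_iff.1 (inv_mem hm) _).1 hu
  obtain ⟨g, hg, e'⟩ := h.trans1 a1 (hB.trans (isConj_iff.2 ⟨_, rfl⟩)) ((h.memQ a1).2 (by
    rw [← (ax0 D h.card).b_conj m, e, show m * (m⁻¹ * prodA b k 10 * m⁻¹⁻¹) * m⁻¹ = prodA b k 10 by group]
    exact (c.b_eq_zero (by omega) hk).2 l2))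
  exact ⟨m * g, mul_mem hm hg, by rw [← conj_mul_aux m g z, e']; group⟩

/-- `A = A0 ⋆⋆ k`; `trans` for `k⁻¹ u k` gives `m`; `g = k m` (`conj_conj'`). -/
theorem _root_.Cfsg.Lib.M5.St.std (h : St D R t) {A : Subgroup G} {u : G} (hA : (dat D).Ark A) (hu : u ∈ A)
    (hB : (dat D).B u) : ∃ g, g * z * g⁻¹ = u ∧ A = (A0 D) ⋆⋆ g := by
  obtain ⟨k, rfl⟩ := hA
  obtain ⟨m, hm, e⟩ := h.trans (mem_conj'.1 hu) (IsConj.trans hB (isConj_iff.2 ⟨k⁻¹, by simp⟩))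
  refine ⟨k * m, by rw [← conj_mul_aux k m z, e]; group, ?_⟩
  rw [← conj_conj']
  congr 1
  ext x
  rw [mem_conj']
  simpa using mem_normalizer_iff.1 (inv_mem hm) x

theorem _root_.Cfsg.Lib.M5.St.frm' (h : St D R t) {A : Subgroup G} (hA : (dat D).Ark A) : (dat D).Frm A :=
  let ⟨g, e⟩ := hA; e ▸ (ax0 D h.card).frm_conj h.frm g

end Cfsg.Lib.ML
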