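import Cfsg.Agent.Lib.ML.VDef

/-!
# Maximal 2-local subgroups of the Monster: coordinates on the standard ark (helper10)
-/

set_option autoImplicit false
set_option maxRecDepth 100000

namespace Cfsg.Lib.ML

open Subgroup MulAction Matrix Cfsg.Lib.Leech Cfsg.Lib.ES Cfsg.Spor Cfsg.Lib.Mon Cfsg.Lib.Calc Cfsg.Lib.F2 Cfsg.Lib.M5
open scoped commutatorElement

variable {G : Type*} [Group G] [Finite G] {z : G} {Q : Subgroup G} {D : XD z Q Co1 L2} {R : Subgroup G} {t : G}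

/-- the polar form of `qN` on codes -/
noncomputable def bN (k l : ℕ) : ℕ := qN (k ^^^ l) ^^^ qN k ^^^ qN l

theorem qN_lt (k : ℕ) : qN k < 2 :=
  Nat.xor_lt_two_pow (n := 1) (appA_lt 1 _ _ _) (Nat.and_lt_two_pow _ (by norm_num))

theorem bN_lt (k l : ℕ) : bN k l < 2 :=
  Nat.xor_lt_two_pow (n := 1) (Nat.xor_lt_two_pow (n := 1) (qN_lt _) (qN_lt _)) (qN_lt _)

theorem cast_xor {a b : ℕ} (ha : a < 2) (hb : b < 2) : ((a ^^^ b : ℕ) : ZMod 2) = a + b := by
  interval_cases a <;> interval_cases b <;> rfl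

/-- Coordinates on `A0 D`: the element with code `k < 1024` is `prodA b k 10`. -/
structure Crd (D : XD z Q Co1 L2) (b : ℕ → G) : Prop where
  mem : ∀ i < 10, b i ∈ A0 D
  sq : ∀ x ∈ A0 D, x * x = 1
  sur : ∀ x ∈ A0 D, ∃ k < 1024, prodA b k 10 = x
  inj : ∀ k < 1024, prodA b k 10 = 1 → k = 0
  cls : ∀ k < 1024, (prodA b k 10 = 1 ∨ IsConj z (prodA b k 10) ↔ qN k = 0)
  hz : prodA b 256 10 = z
  low : ∀ k < 512, prodA b k 10 ∈ Q ∧ code2 (D.π (prodA b k 10)) = app 24 tM (k % 256)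
  high : ∀ k < 1024, 512 ≤ k → ∀ hc, D.ρ ⟨prodA b k 10, hc⟩ = s8

/-- Copy the proof of `M5.St.exists_psi` (Lib/M5/Ten2) with `y`, `yO := ⟨yE, y2⟩`, `c1`, `c2` from `h.exists_y`: its facts
`bA`/`FE` (`A0 D = F`, `A0 D` unfolds to `E`), `hF`, `mF`, the third argument of `exists_par` (= `inj`), `cls`, `j8`, `p2` are the
fields; `high`: for `512 ≤ k`, `prodA b k 10 = y * prodA b k 9` (as in `y9`) with `prodA b k 9 ∈ Q = ker ρ`. -/
theorem _root_.Cfsg.Lib.M5.St.exists_crd (h : St D R t) : ∃ b, Crd D b := by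
  obtain ⟨-, y, -, -, hy, yE, y2, c1, c2⟩ := h.exists_y
  have yO : (y : G) ∈ omZ (centralizer (E1 D : Set G)) := ⟨yE, y2⟩
  choose q hq cq using fun i => exists_of_code D (get_lt 24 uM i)
  obtain ⟨b, b8, b9, bi⟩ : ∃ b : ℕ → G, b 8 = z ∧ b 9 = y ∧ ∀ i < 8, b i = ⁅(y : G), q i⁆ :=
    ⟨fun i => if i = 8 then z else if i = 9 then y else ⁅(y : G), q i⁆, rfl, rfl, fun i hi =>
      (if_neg (by omega)).trans (if_neg (by omega))⟩
  have yQ : (y : G) ∉ Q := fun e => fix8.1.ne_one (hy ▸ (D.ker y).2 e)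
  have hb : ∀ i < 9, b i ∈ E1 D ∧ code2 (D.π (b i)) = get 24 tM i := fun i hi => by
    by_cases e : i = 8
    · rw [e, b8, D.π_z]; exact ⟨z_mem D, code2_zero⟩
    · rw [bi i (by omega), (code_comm D (hy ▸ lrep_s) (hq i)).2, cq]
      exact ⟨comm_mem (hy ▸ mem_zpowers _) (hq i), (by decide +kernel : ∀ i < 8,
        app 24 sM (get 24 uM i) ^^^ get 24 uM i = get 24 tM i) i (by omega)⟩
  have hA : ∀ x ∈ omZ (centralizer (E1 D : Set G)), x * x = 1 := fun x hx => hx.2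
  have EA : E1 D ≤ omZ (centralizer (E1 D : Set G)) := fun x hx => ⟨⟨E1_comm hx, fun d hd => (hd x hx).symm⟩, sq_E1 hx⟩
  have bA : ∀ i < 10, b i ∈ omZ (centralizer (E1 D : Set G)) := fun i hi => by
    by_cases e : i = 9
    · rw [e, b9]; exact yO
    · exact EA (hb i (by omega)).1
  have p1 : ∀ k, prodA b k 9 ∈ Q := fun k => prodA_mem fun i hi _ => (hb i hi).1.1
  have p2 : ∀ k < 512, prodA b k 10 ∈ Q ∧ code2 (D.π (prodA b k 10)) = app 24 tM (k % 256) := fun k hk => by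
    rw [prodA, Nat.testBit_lt_two_pow (show k < 2 ^ 9 from hk), if_neg Bool.false_ne_true, one_mul,
      code_prodA D (W := tM) fun i hi _ => ⟨(hb i hi).1.1, (hb i hi).2⟩]
    exact ⟨p1 k, (by decide +kernel : ∀ k < 512, appA 24 tM k 9 = app 24 tM (k % 256)) k hk⟩
  have j8 : prodA b 256 10 = z := (prodA_two_pow (i := 8) (by norm_num)).trans b8
  have j9 : prodA b 512 10 = y := (prodA_two_pow (i := 9) (by norm_num)).trans b9
  have act : ∀ i < 8, ∀ k, q i * prodA b k 10 * (q i)⁻¹ = prodA b (app 10 (nth 0 aL i) k) 10 := fun i hi =>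
    conj_prodA hA bA fun l hl => by
      obtain ⟨a1, a2, a3⟩ := (by decide +kernel : ∀ i < 8, get 10 (nth 0 aL i) 8 = 256 ∧ get 10 (nth 0 aL i) 9 = 512 ^^^ 2 ^ i ∧
        ∀ l < 8, get 10 (nth 0 aL i) l = if bil (get 24 uM i) (get 24 tM l) = 0 then 2 ^ l else 256 ^^^ 2 ^ l) i hi
      rcases (by omega : l < 8 ∨ l = 8 ∨ l = 9) with a | rfl | rfl
      · have a4 := comm_iff_bil D (hq i) (hb l (by omega)).1.1
        rw [cq, (hb l (by omega)).2] at a4
        rw [a3 l a]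
        split_ifs with a5
        · rw [prodA_two_pow hl, a4.2 a5, mul_inv_cancel_right]
        · rw [prodA_xor hA bA, j8, prodA_two_pow hl]
          exact (D.lg.conj_eq_or (hq i) (hb l (by omega)).1.1).resolve_left fun e => a5 (a4.1 (mul_inv_eq_iff_eq_mul.1 e))
      · rw [a1, j8, b8, D.lg.comm (hq i), mul_inv_cancel_right]
      · rw [a2, prodA_xor hA bA, j9, prodA_two_pow (by omega), b9, bi i hi, commutatorElement_def,
          inv_eq_of_mul_eq_one_left yO.2, ← mul_assoc, ← mul_assoc, ← mul_assoc, yO.2, one_mul]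
  have y9 : ∀ k < 1024, 512 ≤ k → prodA b k 10 ≠ 1 := fun k hk hk' e => by
    rw [prodA, (by decide +kernel : ∀ k < 1024, 512 ≤ k → k.testBit 9 = true) k hk hk', if_pos rfl, b9] at e
    exact yQ (eq_inv_of_mul_eq_one_left e ▸ Q.inv_mem (p1 k))
  have cls : ∀ r, ∀ k < 1024, k % 256 = r → (prodA b k 10 = 1 ∨ IsConj z (prodA b k 10) ↔ qN k = 0) := fun r => by
    induction r using Nat.strong_induction_on with
    | _ r ih =>
    intro k hk hr
    by_cases h0 : r = 0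
    · rcases (by omega : k = 0 ∨ k = 256 ∨ k = 512 ∨ k = 768) with rfl | rfl | rfl | rfl
      · exact iff_of_true (Or.inl prodA_zero) (by decide +kernel)
      · exact iff_of_true (Or.inr (j8 ▸ IsConj.refl _)) (by decide +kernel)
      · exact iff_of_true (Or.inr (j9 ▸ c1)) (by decide +kernel)
      · refine iff_of_false (not_or.2 ⟨y9 _ hk (by decide), ?_⟩) (by decide +kernel)
        rwa [show 768 = 512 ^^^ 256 from rfl, prodA_xor hA bA, j8, j9]
    by_cases h1 : k < 512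
    · have := h.cls (p2 k h1).1 (Nat.mod_lt _ (by norm_num)) (by omega) (p2 k h1).2
      rw [or_iff_right this.1, this.2, (by decide +kernel : ∀ k < 512, qN (k % 256) = qN k) k h1]
    · obtain ⟨i, hi, a1, a2⟩ := (by decide +kernel : ∀ k < 1024, ¬ k < 512 → k % 256 ≠ 0 → ∃ i < 8,
        app 10 (nth 0 aL i) k % 256 < k % 256 ∧ qN (app 10 (nth 0 aL i) k) = qN k) k hk h1 (hr ▸ h0)
      rw [← a2, ← ih _ (hr ▸ a1) _ (app_lt 10 _ _) rfl, ← act i hi, conj_eq_one_iff]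
      exact or_congr_right ⟨fun e => e.trans (isConj_iff.2 ⟨_, rfl⟩), fun e => e.trans (isConj_iff.2 ⟨_, rfl⟩).symm⟩
  have inj : ∀ k < 1024, prodA b k 10 = 1 → k = 0 := fun k hk e => by
    have h1 : k < 512 := not_le.1 fun a => y9 k hk a e
    have h2 := (p2 k h1).2
    rw [e, D.π_one, code2_zero] at h2
    refine ((by decide +kernel : ∀ k < 512, 0 = app 24 tM (k % 256) → k = 0 ∨ k = 256) k h1 h2).resolve_right ?_
    rintro rfl
    exact D.lg.ne_one (j8.symm.trans e)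
  obtain ⟨F, hF, -, mF, -⟩ := exists_par num_T hA bA inj
  have bF : ∀ i < 10, b i ∈ F := fun i hi => (mF _).2 ⟨_, Nat.pow_lt_pow_right (by norm_num) hi, prodA_two_pow hi⟩
  have EF : E1 D ≤ F := fun x hx => by
    obtain ⟨h1, k, -, e⟩ := mem_E1.1 hx
    refine (mem_of_span D (A := F ⊓ Q) inf_le_right ⟨b8 ▸ bF 8 (by norm_num), D.lg.mem⟩ (fun i hi _ => ?_) h1 e).1
    by_cases a : i < 9
    · exact ⟨b i, ⟨bF i (by omega), (hb i a).1.1⟩, (hb i a).2⟩
    · exact ⟨1, one_mem _, by rw [D.π_one, (by decide +kernel : ∀ i < 24, ¬ i < 9 → get 24 tM i = 0) i hi a, code2_zero]⟩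
  have FE : A0 D = F := (le_antisymm (fun x hx => by
    have k : ∀ x ∈ Q, x ∈ centralizer (centralizer (E1 D : Set G) : Set G) → x ∈ F := fun x h1 h2 =>
      EF (cen_cen D.lg D.es (E1_le D) (z_mem D) h1 fun w hw => h2 w hw.2)
    rcases mul_mem_or hy (rho_Z (x := ⟨x, cen_le_z hx.1⟩) hx.2) with a | a
    · exact k x a hx.2
    · exact (F.mul_mem_cancel_left (b9 ▸ bF 9 (by norm_num))).1 (k _ a (mul_mem yO.1.2 hx.2))) fun x hx => (hF hx).1)
  refine ⟨b, fun i hi => FE ▸ bF i hi, fun x hx => (hF (FE ▸ hx)).2, fun x hx => (mF x).1 (FE ▸ hx), inj, fun k hk => cls _ k hk rfl,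
    j8, p2, fun k hk hk' hc => ?_⟩
  have e : (⟨prodA b k 10, hc⟩ : centralizer ({z} : Set G)) = y * ⟨_, D.lg.cent (p1 k)⟩ := Subtype.ext (by
    change prodA b k 10 = y * prodA b k 9
    rw [prodA, (by decide +kernel : ∀ k < 1024, 512 ≤ k → k.testBit 9 = true) k hk hk', if_pos rfl, b9])
  rw [e, map_mul, hy, (D.ker _).2 (p1 k), mul_one]

namespace Crd

variable {b : ℕ → G} (c : Crd D b) {k l : ℕ}
include c

theorem pmem (k : ℕ) : prodA b k 10 ∈ A0 D := prodA_mem fun i hi _ => c.mem i hi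

theorem mul (k l : ℕ) : prodA b (k ^^^ l) 10 = prodA b k 10 * prodA b l 10 := prodA_xor c.sq c.mem

/-- `inj` applied to `k ^^^ l`. -/
theorem eq_iff (hk : k < 1024) (hl : l < 1024) : prodA b k 10 = prodA b l 10 ↔ k = l := by
  refine ⟨fun e => Nat.xor_eq_zero_iff.1 (c.inj _ (Nat.xor_lt_two_pow (n := 10) hk hl) ?_), fun e => e ▸ rfl⟩
  rw [c.mul, e, c.sq _ (c.pmem l)]

/-- `low`; `high` and `D.ker`, `fix8.1.ne_one`. -/
theorem mem_Q (hk : k < 1024) : prodA b k 10 ∈ Q ↔ k < 512 := by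
  refine ⟨fun e => not_le.1 fun a => fix8.1.ne_one ?_, fun a => (c.low k a).1⟩
  rw [← c.high k hk a (D.lg.cent e)]
  exact (D.ker _).2 e

/-- `cls`, `inj` (and `IsConj z x → x ≠ 1`). -/
theorem B_iff (hk : k < 1024) : IsConj z (prodA b k 10) ↔ k ≠ 0 ∧ qN k = 0 := by
  refine ⟨fun e => ⟨?_, (c.cls k hk).1 (.inr e)⟩, fun e => ((c.cls k hk).2 e.2).resolve_left fun a => e.1 (c.inj k hk a)⟩
  rintro rfl
  rw [prodA_zero, isConj_one_left] at e
  exact D.lg.ne_one e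

/-- `Dat.q_eq_zero`, `cls`, `qN k < 2`. -/
theorem q_eq (hk : k < 1024) : (dat D).q (prodA b k 10) = (qN k : ZMod 2) := by
  rcases (by have := qN_lt k; omega : qN k = 0 ∨ qN k = 1) with e | e <;> rw [e]
  · exact ((dat D).q_eq_zero.2 ((c.cls k hk).2 e)).trans Nat.cast_zero.symm
  · exact ((dat D).q_eq_one.2 fun a => by have := (c.cls k hk).1 a; omega).trans Nat.cast_one.symm

/-- `q_eq` three times, `mul`; all of `qN k`, `qN l`, `qN (k ^^^ l)` are `0` or `1`. -/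
theorem b_eq (hk : k < 1024) (hl : l < 1024) : (dat D).b (prodA b k 10) (prodA b l 10) = (bN k l : ZMod 2) := by
  rw [Dat.b, ← c.mul, c.q_eq hk, c.q_eq hl, c.q_eq (Nat.xor_lt_two_pow (n := 10) hk hl), bN, cast_xor (Nat.xor_lt_two_pow
    (n := 1) (qN_lt _) (qN_lt _)) (qN_lt _), cast_xor (qN_lt _) (qN_lt _)]

theorem b_eq_zero (hk : k < 1024) (hl : l < 1024) : (dat D).b (prodA b k 10) (prodA b l 10) = 0 ↔ bN k l = 0 := by
  rw [c.b_eq hk hl]
  rcases (by have := bN_lt k l; omega : bN k l = 0 ∨ bN k l = 1) with e | e <;> simp [e]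

/-- The element of `A0 D ∩ Q` with a given image in `L2`: `low`, `D.π_eq_iff`, `hz`, `mul` (`k ^^^ 256 = k + 256`). -/
theorem eq_or {x : G} (hx : x ∈ Q) (hk : k < 256) (e : code2 (D.π x) = app 24 tM k) :
    x = prodA b k 10 ∨ x = prodA b (k + 256) 10 := by
  have a := c.low k (by omega)
  rw [Nat.mod_eq_of_lt hk, ← e] at a
  refine ((D.π_eq_iff a.1 hx).1 (code2_injective a.2)).imp id fun e => ?_
  rw [e, ← c.hz, ← c.mul, (by decide +kernel : ∀ k < 256, 256 ^^^ k = k + 256) k hk]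

/-- some element of the ark acts as `s8` -/
theorem exists_y : ∃ y : centralizer ({z} : Set G), (y : G) ∈ A0 D ∧ D.ρ y = s8 :=
  ⟨⟨_, A0_le_cen D (c.pmem 512)⟩, c.pmem 512, c.high 512 (by norm_num) le_rfl _⟩

/-- `sur`, `mem_Q`, `high`. -/
theorem rho_eq {a : centralizer ({z} : Set G)} (ha : (a : G) ∈ A0 D) (n : (a : G) ∉ Q) : D.ρ a = s8 := by
  obtain ⟨k, hk, e⟩ := c.sur _ ha
  obtain ⟨a, h⟩ := a
  subst e
  exact c.high k hk (not_lt.1 fun b => n ((c.mem_Q hk).2 b)) h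

end Crd

end Cfsg.Lib.ML
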