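import Cfsg.Agent.Lib.ML.VB

/-!
# Maximal 2-local subgroups of the Monster: a singular point of the standard ark (helper10)
-/

set_option autoImplicit false
set_option maxRecDepth 100000

namespace Cfsg.Lib.ML

open Subgroup MulAction Matrix Cfsg.Lib.Leech Cfsg.Lib.ES Cfsg.Spor Cfsg.Lib.Mon Cfsg.Lib.Calc Cfsg.Lib.F2 Cfsg.Lib.M5
open scoped commutatorElement

variable {G : Type*} [Group G] [Finite G] {z : G} {Q : Subgroup G} {D : XD z Q Co1 L2} {R : Subgroup G} {t : G}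

/-- `π c = s8 • u + u`, `u = π p` (`π_surj`); `⁅p, a⁆ = p * (a * p⁻¹ * a⁻¹) ∈ Q` has the same `π` (`π_mul`, `π_conj`, `π_inv`,
`D.add_self`), `D.π_eq_iff`. -/
theorem exists_comm {a : centralizer ({z} : Set G)} (ha : D.ρ a = s8) {c : G} (hc : c ∈ E1 D) :
    ∃ p ∈ Q, ⁅p, (a : G)⁆ = c ∨ ⁅p, (a : G)⁆ = z * c := by
  obtain ⟨hc, u, hu⟩ := hc
  obtain ⟨p, hp, rfl⟩ := D.π_surj u
  have m := D.conj_mem a (Q.inv_mem hp)
  have e : ⁅p, (a : G)⁆ = p * (a * p⁻¹ * (a : G)⁻¹) := by group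
  refine ⟨p, hp, (D.π_eq_iff hc (e ▸ Q.mul_mem hp m)).1 ?_⟩
  rw [e, D.π_mul _ hp _ m, D.π_conj a _ (Q.inv_mem hp), D.π_inv hp, ha, hu,
    neg_eq_of_add_eq_zero_left (D.add_self _), add_comm]

omit [Finite G] in
theorem vp_left {p a : G} (h1 : Commute z p) (h2 : Commute z a) : ⁅z * p, a⁆ = ⁅p, a⁆ :=
  calc _ = z * (p * a * p⁻¹) * z⁻¹ * a⁻¹ := by group
    _ = _ := by rw [((h1.mul_right h2).mul_right h1.inv_right).mul_inv_cancel, commutatorElement_def]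

omit [Finite G] in
theorem vp_right {p a : G} (h1 : Commute z p) (h2 : Commute z a) : ⁅p, z * a⁆ = ⁅p, a⁆ := by
  rw [← commutatorElement_inv, vp_left h2 h1, commutatorElement_inv]

/-- Each `c ∈ E1 D` is `⁅p, a⁆` or `z * ⁅p, a⁆` (`exists_comm`); `x ⁅p, a⁆ x⁻¹ = ⁅x p x⁻¹, x a x⁻¹⁆ = ⁅p, a⁆` because
`x p x⁻¹ ∈ {p, z p}` (`D.lg.conj_eq_or`), `x a x⁻¹ ∈ {a, z a}` and `z` commutes with `p`, `a`; `cen_A0`. -/
theorem mem_cen {a : centralizer ({z} : Set G)} (ha : D.ρ a = s8) {x : G} (hx : x ∈ Q)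
    (e : x * a * x⁻¹ = a ∨ x * a * x⁻¹ = z * a) : x ∈ 𝐂(A0 D) := by
  rw [cen_A0]
  intro c hc
  obtain ⟨p, hp, e'⟩ := exists_comm ha hc
  have c1 : Commute z p := (D.lg.comm hp).symm
  have c2 : Commute z a := (mem_centralizer_singleton_iff.1 a.2).symm
  have k : x * ⁅p, (a : G)⁆ * x⁻¹ = ⁅p, (a : G)⁆ := by
    rw [conjugate_commutatorElement]
    rcases D.lg.conj_eq_or hx hp with e1 | e1 <;> rcases e with e | e <;> rw [e1, e]
    exacts [vp_right c1 c2, vp_left c1 c2, (vp_left c1 ((Commute.refl z).mul_right c2)).trans (vp_right c1 c2)]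
  rcases e' with e' | e' <;> rw [e'] at k
  · exact (mul_inv_eq_iff_eq_mul.1 k).symm
  · rw [← mul_assoc, D.lg.comm hx, mul_assoc, mul_assoc, mul_right_inj, ← mul_assoc] at k
    exact (mul_inv_eq_iff_eq_mul.1 k).symm

variable (h : St D R t)
include h

theorem vp_split {s : centralizer ({z} : Set G)} (hs : D.ρ s = s8) (h2 : (s : G) * s = 1) :
    ∃ y : centralizer ({z} : Set G), (y : G) ∈ A0 D ∧ (y : G) * y = 1 ∧ (y : G) * s ∈ Q ∧ (y : G) * s ∈ 𝐂(A0 D) ∧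
      (y : G) * (y * s) = s := by
  obtain ⟨b, cr⟩ := h.exists_crd
  obtain ⟨y, yA, hy⟩ := cr.exists_y
  have y2 := cr.sq y yA
  have hq : (y : G) * s ∈ Q := (D.ker (y * s)).1 (by rw [map_mul, hy, hs, fix8.1.mul_self])
  refine ⟨y, yA, y2, hq, mem_cen hy hq ?_, by rw [← mul_assoc, y2, one_mul]⟩
  have e : (y : G) * s * y * ((y : G) * s)⁻¹ = ((y : G) * s) ^ 2 * y := by
    rw [_root_.mul_inv_rev, inv_eq_of_mul_eq_one_left h2, inv_eq_of_mul_eq_one_left y2, pow_two]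
    group
  rw [e]
  exact (D.lg.mem_iff.1 (D.lg.sq_mem _ hq)).imp (fun e => by rw [e, one_mul]) fun e => by rw [e]

/-- `y ∈ A0 D` with `ρ y = s8` (`Crd.exists_y`), `y * y = 1`; `q = y s ∈ Q` (`D.ker`), `s = y q`; `s * s = 1` gives
`q y q⁻¹ = q * q * y` with `q * q ∈ {1, z}` (`D.lg.sq_mem`), so `q ∈ C(A0 D)` (`mem_cen`); `y ∈ C(A0 D)`; `s * y = y q y⁻¹ ∈ Q`. -/
theorem _root_.Cfsg.Lib.M5.St.of_s8 {s : centralizer ({z} : Set G)} (hs : D.ρ s = s8) (h2 : (s : G) * s = 1) :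
    (s : G) ∈ 𝐂(A0 D) ∧ (dat D).S (A0 D) z s := by
  obtain ⟨y, yA, y2, hq, hc, e⟩ := vp_split h hs h2
  refine ⟨e ▸ mul_mem (show (y : G) ∈ 𝐂(A0 D) from cen_A0 D ▸ yA.1) hc, y, yA, ?_⟩
  have := D.conj_mem y hq
  rwa [e, inv_eq_of_mul_eq_one_left y2, ← dat_Qz D] at this

/-- `k * ρ s * k⁻¹ = s8`, `k = ρ c`; `of_s8` for `c s c⁻¹`; `A = A0 D ⋆⋆ c⁻¹` (`c` normalises `Q`, `D.conj_mem`). -/
theorem _root_.Cfsg.Lib.M5.St.of_conj_s8 {s : centralizer ({z} : Set G)} (hs : IsConj (D.ρ s) s8) (h2 : (s : G) * s = 1) :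
    ∃ A, (dat D).Ark A ∧ z ∈ A ∧ (s : G) ∈ 𝐂(A) ∧ (dat D).S A z s := by
  obtain ⟨k, hk⟩ := isConj_iff.1 hs
  obtain ⟨c, rfl⟩ := D.surj k
  obtain ⟨h1, a, ha, m⟩ := h.of_s8 (s := c * s * c⁻¹) (by rwa [map_mul, map_mul, map_inv])
    (show (c : G) * s * (c : G)⁻¹ * (c * s * (c : G)⁻¹) = 1 by rw [conj_mul, h2, mul_one, mul_inv_cancel])
  refine ⟨(A0 D) ⋆⋆ ((c : G)⁻¹), ⟨_, rfl⟩, mem_conj'.2 ?_, ?_, (c : G)⁻¹ * a * (c : G)⁻¹⁻¹, ⟨a, ha, rfl⟩, ?_⟩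
  · rw [inv_inv, mem_centralizer_singleton_iff.1 c.2, mul_inv_cancel_right]
    exact z_mem_A0 D
  · rw [Dat.cj_cen, mem_conj', inv_inv]
    exact h1
  · rw [dat_Qz] at m ⊢
    convert D.conj_mem c⁻¹ m using 1
    simp only [coe_mul, coe_inv]
    group

/-- With `y`, `q = y s ∈ Q ⊓ C(A0 D)` as in `of_s8`: `q ∈ E1 D` by `cen_cen D.lg D.es (E1_le D) (z_mem D)`: for
`p ∈ Q ⊓ C(E1 D) = Q ⊓ C(A0 D)`, `s p s⁻¹ = y (q p q⁻¹) y⁻¹ = q p q⁻¹ ∈ {p, z p}`, and `z p` is excluded.  So `s = y q ∈ A0 D`. -/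
theorem _root_.Cfsg.Lib.M5.St.mem_of_s8 {s : centralizer ({z} : Set G)} (hs : D.ρ s = s8) (h2 : (s : G) * s = 1)
    (hn : ∀ p ∈ Q, s * p * (s : G)⁻¹ ≠ z * p) : (s : G) ∈ A0 D := by
  obtain ⟨y, yA, y2, hq, hc, e⟩ := vp_split h hs h2
  refine e ▸ mul_mem yA (E1_le_A0 D (cen_cen D.lg D.es (E1_le D) (z_mem D) hq fun p hp => ?_))
  refine (mul_inv_eq_iff_eq_mul.1 ((D.lg.conj_eq_or hq hp.1).resolve_right fun e' => hn p hp.1 ?_)).symm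
  calc _ = y * (y * s * p * ((y : G) * s)⁻¹) * (y : G)⁻¹ := by nth_rw 1 [← e]; nth_rw 2 [← e]; group
    _ = _ := by
      rw [e', ← mul_assoc, mem_centralizer_singleton_iff.1 y.2, mul_assoc z, ← yA.2 p hp.2, ← mul_assoc,
        mul_inv_cancel_right]

/-- Let `x ∈ I = Q ⊓ Q v`.  `ρ v = s8` (`Crd.rho_eq`); `I ≤ C(v)` (`Ax0.comm_of_mem`), so `I ≤ C(A0 D)` (`mem_cen`), and `I` is
abelian (`Ax0.comm_or` for `z` and for `v ≠ z`).  `decomp8` (`D.fix_of_comm`) gives `c < 256` and `e ∈ E1 D` with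
`code2 (π (x e)) = app 24 rM c` (as in `M5.sq_mem_Z`).  `iso8`: let `ρ k ∈ C(s8)`.  `k v k⁻¹ ∈ A0 D` (`norm_A0`) is `e' v` with
`e' ∈ A0 D ⊓ Q`, i.e. `e' ∈ E1 D` (`ρ (k v k⁻¹) = s8`, `inf_A0`); by `exists_comm`, `p v p⁻¹ = ⁅p, v⁆ v ∈ {e' v, z e' v}`, so
`k' = p⁻¹ k` maps `v` to `v` or `z v`, and `z v` is not 2-central (`q (z v) = q z + q v + b z v = 1` by `memQ`).  So `k'`
centralises `z`, `v`, normalises `I` (`Ax0.cen_conj`) and `E1 D` (`norm_E1`), `ρ k' = ρ k`, and `x e` commutes with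
`k' (x e) k'⁻¹`: `comm_iff_bil`.  Hence `c = 0`, `x e ∈ {1, z}`, `x ∈ E1 D`. -/
theorem _root_.Cfsg.Lib.M5.St.disj {v : G} (hv : v ∈ A0 D) (hB : IsConj z v) (n : v ∉ Q) : Q ⊓ (dat D).Q v ≤ A0 D := by
  obtain ⟨b, cr⟩ := h.exists_crd
  have ax := ax0 D h.card
  obtain ⟨v, rfl⟩ : ∃ w : centralizer ({z} : Set G), (w : G) = v := ⟨⟨v, A0_le_cen D hv⟩, rfl⟩
  have hy := cr.rho_eq hv n
  have IA : Q ⊓ (dat D).Q v ≤ 𝐂(A0 D) := fun x hx =>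
    mem_cen hy hx.1 (.inl (mul_inv_eq_iff_eq_mul.2 (ax.comm_of_mem hB hx.2)))
  have Iab : ∀ x ∈ Q ⊓ (dat D).Q v, ∀ y ∈ Q ⊓ (dat D).Q v, Commute x y := fun x hx y hy =>
    commutatorElement_eq_one_iff_commute.1 ((D.lg.mem_iff.1 (D.lg.commutator_mem hx.1 hy.1)).elim id fun e =>
      (ax.comm_or hB hx.2 hy.2).resolve_right fun e' => n (e.symm.trans e' ▸ D.lg.mem))
  have lift : ∀ k : centralizer ({z} : Set G), D.ρ k ∈ centralizer {s8} →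
      ∃ k' : centralizer ({z} : Set G), D.ρ k' = D.ρ k ∧ (k' : G) * v = v * k' := fun k hk => by
    have w1 := (mem_normalizer_iff.1 (norm_A0 D hk) v).1 hv
    have w2 : k * v * (k : G)⁻¹ * v ∈ Q := (D.ker (k * v * k⁻¹ * v)).1 (by
      rw [map_mul, map_mul, map_mul, map_inv, hy, mem_centralizer_singleton_iff.1 hk, mul_inv_cancel_right,
        fix8.1.mul_self])
    obtain ⟨p, hp, e⟩ := exists_comm hy (inf_A0 D w2 (mul_mem w1 hv))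
    have e1 : p * v * p⁻¹ = ⁅p, (v : G)⁆ * v := by group
    rcases e with e | e <;> rw [e] at e1
    · refine ⟨⟨p, D.lg.cent hp⟩⁻¹ * k, by rw [map_mul, map_inv, (D.ker ⟨p, _⟩).2 hp, inv_one, one_mul], ?_⟩
      rw [mul_assoc _ _ (v : G), cr.sq v hv, mul_one] at e1
      calc p⁻¹ * k * v = p⁻¹ * (k * v * (k : G)⁻¹) * k := by group
        _ = v * (p⁻¹ * k) := by rw [← e1]; group
    · rw [mul_assoc z, mul_assoc _ _ (v : G), cr.sq v hv, mul_one] at e1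
      refine absurd ((mul_mem_cancel_left ((h.memQ w1).2 ?_)).1 w2) n
      rw [Dat.b, ← e1, ax.q_conj, ax.q_conj, (dat D).q_eq_zero.2 (.inr hB), (dat D).q_eq_zero.2 (.inr (B_z D))]
      rfl
  intro x hx
  obtain ⟨c, hc, u, e⟩ := decomp8 (hy ▸ D.fix_of_comm hx.1 (ax.comm_of_mem hB hx.2).symm)
  obtain ⟨p, hp, rfl⟩ := D.π_surj u
  have a1 := comm_mem (c := v) (by rw [hy]; exact mem_zpowers _) hp
  have a2 : code2 (D.π (x * ⁅(v : G), p⁆)) = app 24 rM c := by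
    rw [code_mul D hx.1 a1.1, (code_comm D (hy ▸ lrep_s) hp).2, ← e, code2_add, code2_add, lrep_s]
  have a4 := mul_mem hx.1 a1.1
  rw [← (A0 D).mul_mem_cancel_right (E1_le_A0 D a1)]
  generalize ⁅(v : G), p⁆ = r at a1 a2 a4
  obtain rfl := iso8 hc fun k hk H hH => by
    obtain ⟨k, rfl⟩ := D.surj k
    obtain ⟨k', e1, e2⟩ := lift k hk
    rw [← a2, ← hH, ← e1, ← D.π_conj k' _ a4]
    refine (comm_iff_bil D a4 (D.conj_mem k' a4)).1 ?_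
    have m1 : k' * x * (k' : G)⁻¹ ∈ Q ⊓ (dat D).Q v := ⟨D.conj_mem k' hx.1, ax.cen_conj hB e2 hx.2⟩
    have m2 := (mem_normalizer_iff.1 (norm_E1 (e1 ▸ hk)) r).1 a1
    rw [← conj_mul]
    exact ((Iab _ hx _ m1).mul_right (IA hx _ (E1_le_A0 D m2)).symm).mul_left
      (Commute.mul_right (IA m1 _ (E1_le_A0 D a1)) (E1_comm m2 _ a1))
  exact E1_le_A0 D (mem_E1.2 ⟨a4, 0, by norm_num, by rw [a2, app_zero, app_zero]⟩)

/-- `rw [dat_Qz]`.  `memQ`: `h.memQ`.  `norm`: `norm_A0` (`ρ q = 1`).  `cen`: `E1 D ≤ A0 D ⊓ Q`, `cen_A0`.  `comm`: `Crd.rho_eq`,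
`inf_A0`, `exists_comm`.  `key`: `ρ t` centralises `ρ (C(E1 D)) = fixL w8L` (`map_cen`, `D.ker`), so `ρ t ∈ zpowers s8`
(`fix8.1.centralizer_eq fix8.2.1`, as in `rho_Z`), `mul_mem_or` with `y` of `Crd.exists_y` (`t y = y t`).  `disj`. -/
theorem _root_.Cfsg.Lib.M5.St.at0 : (dat D).At (A0 D) z := by
  obtain ⟨b, cr⟩ := h.exists_crd
  constructor <;> rw [dat_Qz]
  · exact fun a ha => h.memQ ha
  · exact fun q hq => norm_A0 D (c := ⟨q, D.lg.cent hq⟩) (by rw [(D.ker _).2 hq]; exact one_mem _)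
  · rw [cen_A0]
    exact centralizer_le (le_inf (E1_le_A0 D) (E1_le D))
  · exact fun a ha n c hc m => exists_comm (a := ⟨a, A0_le_cen D ha⟩) (cr.rho_eq ha n) (inf_A0 D m hc)
  · intro s hs e
    obtain ⟨y, yA, hy⟩ := cr.exists_y
    obtain ⟨s, rfl⟩ : ∃ w : centralizer ({z} : Set G), (w : G) = s := ⟨⟨s, cen_le_z (cen_A0 D ▸ hs)⟩, rfl⟩
    have k : D.ρ s ∈ zpowers s8 := (fix8.1.centralizer_eq fix8.2.1).le fun r hr => by
      obtain ⟨d, hd, rfl⟩ := (map_cen (D := D)).ge hr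
      refine (commutatorElement_eq_one_iff_mul_comm.1 ?_).symm
      rw [← map_commutatorElement, D.ker]
      exact e d ((cen_A0 D).ge hd)
    rcases mul_mem_or hy k with m | m
    · exact ⟨1, one_mem _, by rwa [mul_one, dat_Qz]⟩
    · exact ⟨y, yA, by rwa [← hs y yA, dat_Qz]⟩
  · exact fun v hv Bv n => h.disj hv Bv n

theorem _root_.Cfsg.Lib.M5.St.at' {A : Subgroup G} {u : G} (hA : (dat D).Ark A) (hu : u ∈ A) (hB : (dat D).B u) :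
    (dat D).At A u := by
  obtain ⟨g, rfl, rfl⟩ := h.std hA hu hB
  exact (ax0 D h.card).at_conj (B_z D) h.at0 g

end Cfsg.Lib.ML
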