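import Cfsg.Agent.Lib.ML.VM
import Cfsg.Agent.Lib.ML.VP

/-!
# Maximal 2-local subgroups of the Monster: involutions of `C(z)` outside `Q` (helper10)
-/

set_option autoImplicit false

namespace Cfsg.Lib.Griess.MT

open Finset Matrix Subgroup Cfsg.Lib.Leech Cfsg.Lib.Mon Cfsg.Lib.ES Cfsg.Lib.ML Cfsg.Lib.M5


/-- `mo 1 d = CoT.sg0 (support₂ d)` (`CoT.sg0_eq`), `CoT.conj_oct`. -/
theorem conj_mo_s8 {d : Cd} (h : wt d = 8) : IsConj (mo 1 d : Spor.Co1) s8 := by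
  have e : (mo 1 d : Spor.Co1) = CoT.sg (support₂ d) := by
    rw [CoT.sg, CoT.sg0_eq (support_mem_GC d.2), mo]; rfl
  obtain ⟨k, hk⟩ := CoT.conj_oct (support_mem_GC d.2) (.inl h)
  exact (isConj_iff.2 ⟨_, hk.trans e.symm⟩).symm

theorem vd_sub {f g : Cd} (h : wt g = 12) (k : (f : W) * g = f) : f = 0 ∨ f = g := by
  have h1 := wt_add f g
  have h2 := wt_code f
  have h3 := wt_code (f + g)
  rw [k, h] at h1
  rw [Submodule.coe_add] at h3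
  rcases (by omega : wt f = 0 ∨ wt ((f : W) + g) = 0) with e | e
  exacts [.inl (Subtype.ext (wt_eq_zero e)), .inr (Subtype.ext (w_eq_iff.2 (wt_eq_zero e)))]
/-- `mul_cases` gives `e * d = 0` or `e * d = d`.  A code word inside the dodecad `d + Om` is `0` or `d + Om` (its weight is
`0`, `8` or `12`, and for `8` the sum with `d + Om` has weight `4`); apply this to `e`, resp. `e + d`. -/
theorem dod_cases {d e : Cd} (h : wt d = 12) (k : (e : W) * d ∈ golayCode) : e = 0 ∨ e = Om ∨ e = d ∨ e = d + Om := by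
  have h' : wt (d + Om : Cd) = 12 := by rw [Submodule.coe_add, coe_Om, wt_add_one, h]
  have key {f : Cd} (e : (f : W) * d = 0) : f = 0 ∨ f = d + Om :=
    vd_sub h' (by rw [Submodule.coe_add, coe_Om, mul_add, e, mul_one, zero_add])
  rcases vd_sub (f := ⟨_, k⟩) h (by simp only [mul_assoc, w_mul_self]) with a | a
  · rcases key (congrArg Subtype.val a) with b | b
    exacts [.inl b, .inr (.inr (.inr b))]
  · rcases key (f := e + d) (by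
      rw [Submodule.coe_add, add_mul, w_mul_self, show (e : W) * d = d from congrArg Subtype.val a, w_add_self]) with b | b
    · exact .inr (.inr (.inl (by rw [← add_zero e, ← cd_add_self d, ← add_assoc, b, zero_add])))
    · exact .inr (.inl (add_right_cancel (b.trans (add_comm _ _))))

variable [MQ] [MN]

/-- The dodecad case.  `t = a * yq 0 d`, `a = ev s n γ`.  `sq_cond` (write `a = qV (nq s n γ 0)`) gives `d ⬝ᵥ γ = qw d = 1`.  Let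
`x = qV q` commute with `t`; then `yq 0 d * x * (yq 0 d)⁻¹ = a⁻¹ x a ∈ {x, zA x}` (`qV_conj`).  `x ∈ NV` by `yq_conj_odd`
(`d + m • Om ≠ 0`; cf. `mem_NV_of_yq`), `q = nq s' n' γ' (q.d + 0 • Om)` (`exists_nq'`); `yq_conj`, `nq_inj` give
`q.d * d ∈ golayCode`, `dod_cases`.  For `q.d ∈ {0, Om}`, `x = ev _ _ δ` with `δ` even: `mem_zw`.  For `q.d ∈ {d, d + Om}` write
`q = nq s' n' γ' d`: `yq_conj` (`hw d = 0`, `d * d = d ∈ golayCode`) and `nq_inj` give `d ⬝ᵥ γ' = 0` and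
`yq 0 d * x * (yq 0 d)⁻¹ = x`, while `a x a⁻¹ = zA x` (`qV_conj`, `pr = d ⬝ᵥ γ = 1`): contradiction. -/
theorem cen_dod {s n : ZMod 2} {γ : W} (h : γ ⬝ᵥ 1 = 0) {d : Cd} (hd : wt d = 12)
    (h2 : ev s n γ * yq 0 d * (ev s n γ * yq 0 d) = 1) {x : Aut} (hx : x ∈ qV.range)
    (e : x * (ev s n γ * yq 0 d) = ev s n γ * yq 0 d * x) : x ∈ gm.Q wA := by
  have a0 : qV (nq s n γ 0) = ev s n γ := by rw [qV_nq, xq_zero, zp_zero, map_one, mul_one]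
  have c1 : (d : W) ⬝ᵥ γ = 1 := by
    have := (sq_cond h (a0.symm ▸ h2)).2.1
    rw [ZeroMemClass.coe_zero, zero_mul, hw_zero, add_zero, qw, hd] at this
    exact z2_eq_iff.2 this
  obtain ⟨q, rfl⟩ := hx
  obtain ⟨p, hp⟩ := exists_conj (NV_le (yq_mem 0 d)) q
  obtain ⟨r, hr, rfl⟩ : ∃ r, r = pr (n • Om) p.c + pr p.d (cs γ) ∧ q = zp r * p := ⟨_, rfl, qV_injective (by
    rw [map_mul]
    refine Eq.trans ?_ (qV_conj (qe s (n • Om) γ) p)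
    rw [← hp]
    calc qV q = qV q * (ev s n γ * yq 0 d) * (ev s n γ * yq 0 d)⁻¹ := by group
      _ = _ := by rw [e]; group)⟩
  have m : qV (zp r * p) ∈ NV := by_contra fun m => by
    obtain ⟨p', l, k1, k2⟩ := yq_conj_odd 0 d m
    rw [qV_injective (k1.symm.trans hp), show (zp r * p).d = p.d by simp, add_assoc, left_eq_add] at k2
    have := congrArg (wt ·) (congrArg Subtype.val k2)
    rcases z2_cases l with rfl | rfl <;> simp [wt_add_one, hd] at this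
  have key (l : ZMod 2) : ((p.d + l • Om : Cd) : W) * d ∈ golayCode ∧ hw (((p.d + l • Om : Cd) : W) * d) = r := by
    obtain ⟨t, δ, h0, k⟩ := exists_nq' m l
    rw [show (zp r * p).d = p.d by simp] at k
    have k' : p = nq (r + t) l δ (p.d + l • Om) := by
      rw [nq, ← zp_mul_qe, mul_assoc, ← nq, ← k]
      ext1 <;> simp [← add_assoc, CharTwo.add_self_eq_zero]
    rw [k, yq_conj _ _ _ _ h0] at hp
    obtain ⟨k1, -, k2⟩ := nq_inj ((qV_injective hp).trans k')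
    rw [add_right_comm, w_add_self, zero_add] at k2
    exact ⟨k2, add_left_cancel (k1.trans (add_comm _ _))⟩
  have ev' (l : ZMod 2) (k : p.d = l • Om) : qV (zp r * p) ∈ gm.Q wA := by
    obtain ⟨s', d', δ, rfl⟩ := qe_surj p
    rw [zp_mul_qe] at m ⊢
    exact (mem_zw.2 ⟨_, l, δ, qV_mem_NV.1 m, congrArg (fun x => qV (qe _ x δ)) k⟩).2
  have no (l : ZMod 2) (k : p.d + l • Om = d) : False := by
    have k1 := (key l).2
    rw [k, w_mul_self, hw_code] at k1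
    have k2 : pr Om p.c = 0 := by simpa using mem_NV_qV.1 m
    have k3 : pr (n • Om) p.c = 0 := by
      rcases z2_cases n with rfl | rfl
      · obtain ⟨_, _, _, rfl⟩ := qe_surj p
        simp
      · rwa [one_smul]
    rw [← k, Submodule.coe_add, add_dotProduct, Submodule.coe_smul, smul_dotProduct, coe_Om, dotProduct_comm 1, h, smul_zero,
      add_zero] at c1
    rw [hr, k3, pr_cs, c1] at k1
    exact absurd k1 (by decide)
  have k0 := (key 0).1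
  rw [zero_smul, add_zero] at k0
  rcases dod_cases hd k0 with k | k | k | k
  exacts [ev' 0 (k.trans (zero_smul _ _).symm), ev' 1 (k.trans (one_smul _ _).symm), (no 0 (by rw [k, zero_smul, add_zero])).elim,
    (no 1 (by rw [k, one_smul, add_assoc, cd_add_self, add_zero])).elim]

/-- `qw_of`, `QW.exists`: `c t c⁻¹ = tau * qV p * tau⁻¹`, `qV p ∈ NV` (block `m` of `exists_yq`); `exists_le p.d`, `exists_nq'`:
`p = nq s n γ d` with `wt d ≤ 12`; `qV_nq`, `tau_conj_A`; `d ≠ 0` by `mem_range_of_conj`; `wt_code`. -/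
theorem exists_ev_yq {t : Aut} (h : t ∈ CZ) (h2 : t * t = 1) (hQ : t ∉ qV.range) :
    ∃ c ∈ CZ, ∃ s n γ d, γ ⬝ᵥ 1 = 0 ∧ (wt (d : Cd) = 8 ∨ wt d = 12) ∧ c * t * c⁻¹ = ev s n γ * yq 0 d := by
  obtain ⟨c, a, p, e⟩ := ((qw_of h h2).resolve_left hQ).exists
  have m : qV p ∈ NV := by
    have k := mem_CZc.1 (e ▸ mul_mem (mul_mem a h) (inv_mem a))
    rw [← tau_conj_zw, _root_.conj_mul, _root_.conj_mul, mul_left_inj, mul_right_inj, ← mul_assoc, mem_CZc.1 (qV_mem p),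
      mul_assoc, mul_assoc, mul_right_inj] at k
    exact mem_NV.2 ⟨mem_CZc.1 (qV_mem p), k⟩
  obtain ⟨k, hk⟩ := exists_le p.d
  obtain ⟨s, γ, h0, l⟩ := exists_nq' m k
  generalize p.d + k • Om = d at hk l
  rw [l, qV_nq, ← _root_.conj_mul, tau_conj_A _ _ h0, ← yq] at e
  refine ⟨c, a, _, _, γ, d, h0, ?_, e⟩
  have := wt_code d
  have : wt d ≠ 0 := fun w => hQ (mem_range_of_conj a ⟨qe _ _ γ, by
    rw [e, show d = 0 from Subtype.ext (wt_eq_zero w), yq, xq_zero, zp_zero, map_one, mul_one, mul_inv_cancel, mul_one]⟩)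
  omega

theorem vd_conj {t c : Aut} (h : t ∈ CZ) (a : c ∈ CZ) {d : Cd} (hd : wt d = 8) (i : Ind (c * t * c⁻¹) 1 d) :
    IsConj (rhoC ⟨t, h⟩) s8 :=
  IsConj.trans (isConj_iff.2 ⟨rhoC ⟨c, a⟩, by rw [← map_inv, ← map_mul, ← map_mul]; exact i.2⟩) (conj_mo_s8 hd)
/-- `exists_ev_yq`.  Octad: `Ind (c t c⁻¹) 1 d` (`ind_qV`, `ind_yq`), so `rhoC t` is conjugate to `s8` (`conj_mo_s8`):
`gm_st.of_conj_s8`.  Dodecad: `w = c⁻¹ wA c`; `c t c⁻¹ ∈ Q wA` (`inQ_w`, `inQ_yq`, `gm_mem`), `cen_dod`, `gm_ax0.qconj_iff`. -/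
theorem dich0 {t : Aut} (h : t ∈ CZ) (h2 : t * t = 1) (hQ : t ∉ qV.range) :
    (∃ w, gm.B w ∧ w ∈ qV.range ∧ t ∈ gm.Q w ∧ ∀ x ∈ qV.range, x * t = t * x → x ∈ gm.Q w) ∨
      ∃ A, gm.Ark A ∧ zA ∈ A ∧ t ∈ 𝐂(A) ∧ gm.S A zA t := by
  obtain ⟨c, a, s, n, γ, d, h0, hd | hd, e⟩ := exists_ev_yq h h2 hQ
  · exact .inr (gm_st.of_conj_s8 (s := ⟨t, h⟩) (vd_conj h a hd (by simpa [e] using (ind_qV _).mul (ind_yq 0 d))) h2)
  have back {x : Aut} (m : c * x * c⁻¹ ∈ gm.Q wA) : x ∈ gm.Q (c⁻¹ * wA * c⁻¹⁻¹) := by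
    have := gm_ax0.qconj c⁻¹ gm_Bw m
    rwa [show c⁻¹ * (c * x * c⁻¹) * c⁻¹⁻¹ = x by group] at this
  refine .inl ⟨_, gm_ax0.conj c⁻¹ gm_Bw, (exists_conj (inv_mem a) aOm).imp fun _ => Eq.symm, back ?_, fun x ⟨q, hq⟩ k => back ?_⟩
  · exact e ▸ (gm_mem gm_Bw).2 ((inQ_w h0 s n).mul (inQ_yq 0 d))
  · refine cen_dod h0 hd (s := s) (n := n) (by rw [← e, _root_.conj_mul, h2, mul_one, mul_inv_cancel])
      (hq ▸ (exists_conj a q).imp fun _ => Eq.symm) ?_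
    rw [← e, _root_.conj_mul, _root_.conj_mul, k]

omit [MN] in
theorem vd_red {g t : Aut} (h : g * t * g⁻¹ * (g * zA * g⁻¹) = g * zA * g⁻¹ * (g * t * g⁻¹))
    (h2 : g * t * g⁻¹ * (g * t * g⁻¹) = 1) (hQ : g * t * g⁻¹ ∉ gm.Q (g * zA * g⁻¹)) : t ∈ CZ ∧ t * t = 1 ∧ t ∉ qV.range := by
  rw [_root_.conj_mul, _root_.conj_mul, mul_left_inj, mul_right_inj] at h
  rw [_root_.conj_mul, conj_eq_one_iff] at h2
  exact ⟨mem_CZc.2 h, h2, fun m => hQ (gm_ax0.qconj g (B_z xd) (gm_Qz.ge m))⟩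
/-- Conjugate `z = g zA g⁻¹` to `zA`; `dich0` for `g⁻¹ t g`; transport back (`gm_ax0.conj`, `qconj_iff`, `conjK`). -/
theorem gm_dich {z t : Aut} (hz : gm.B z) (h : t * z = z * t) (h2 : t * t = 1) (hQ : t ∉ gm.Q z) :
    (∃ w, gm.B w ∧ w ∈ gm.Q z ∧ t ∈ gm.Q w ∧ ∀ x ∈ gm.Q z, x * t = t * x → x ∈ gm.Q w) ∨
      ∃ A, gm.Ark A ∧ z ∈ A ∧ t ∈ 𝐂(A) ∧ gm.S A z t := by
  obtain ⟨g, rfl⟩ := isConj_iff.1 hz
  obtain ⟨t, rfl⟩ : ∃ u, g * u * g⁻¹ = t := ⟨g⁻¹ * t * g, by group⟩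
  obtain ⟨a, b, c⟩ := vd_red h h2 hQ
  rcases dich0 a b c with ⟨w, k1, k2, k3, k4⟩ | ⟨A, k1, k2, k3, x, k4, k5⟩
  · refine .inl ⟨_, gm_ax0.conj g k1, gm_ax0.qconj g (B_z xd) (gm_Qz.ge k2), gm_ax0.qconj g k1 k3, fun x m e => ?_⟩
    obtain ⟨x, rfl⟩ : ∃ u, g * u * g⁻¹ = x := ⟨g⁻¹ * x * g, by group⟩
    rw [_root_.conj_mul, _root_.conj_mul, mul_left_inj, mul_right_inj] at e
    exact gm_ax0.qconj g k1 (k4 x (gm_Qz.le ((gm_ax0.qconj_iff g (B_z xd)).1 m)) e)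
  · refine .inr ⟨_, gm_ax0.conjK g k1, ⟨_, k2, rfl⟩, ?_, _, ⟨x, k4, rfl⟩, ?_⟩
    · rintro _ ⟨y, m, rfl⟩
      change g * y * g⁻¹ * _ = _ * (g * y * g⁻¹)
      rw [_root_.conj_mul, _root_.conj_mul, k3 y m]
    · change g * t * g⁻¹ * (g * x * g⁻¹) ∈ _
      rw [_root_.conj_mul]
      exact gm_ax0.qconj g (B_z xd) k5

/-- Conjugate `z` to `zA`.  `exists_yq`, `ind_yq`, `conj_mo_s8`: some `c ∈ CZ` has `rhoC (c t c⁻¹) = s8`; `gm_st.mem_of_s8` with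
`ne_of_not` for `c t c⁻¹`; `A = A0 xd ⋆⋆ c⁻¹`. -/
theorem gm_twoA {z t : Aut} (hz : gm.B z) (h : t * z = z * t) (h2 : t * t = 1) (hQ : t ∉ gm.Q z) (hB : ¬ gm.B t) :
    ∃ A, gm.Ark A ∧ z ∈ A ∧ t ∈ A := by
  obtain ⟨g, rfl⟩ := isConj_iff.1 hz
  obtain ⟨t, rfl⟩ : ∃ u, g * u * g⁻¹ = t := ⟨g⁻¹ * t * g, by group⟩
  obtain ⟨a, b, c⟩ := vd_red h h2 hQ
  rw [gm_ax0.conj_iff] at hB
  obtain ⟨k, m, s, O, hO, e⟩ := exists_yq a b c hB
  obtain ⟨r, hr⟩ := isConj_iff.1 (vd_conj a m hO (e ▸ ind_yq s O))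
  obtain ⟨l, rfl⟩ := xd.surj r
  rw [← map_inv, ← map_mul, ← map_mul] at hr
  have := gm_st.mem_of_s8 hr (_root_.conj_mul.trans (by rw [b, mul_one, mul_inv_cancel])) (by
    rintro _ ⟨q, rfl⟩
    exact ne_of_not (u := l * t * (l : Aut)⁻¹) (mul_mem (mul_mem l.2 a) (inv_mem l.2)) (_root_.conj_mul.trans (by rw [b, mul_one, mul_inv_cancel]))
      (fun i => c (mem_range_of_conj l.2 i)) (fun i => hB ((gm_ax0.conj_iff (u := t) l).1 i)) q)
  refine ⟨_, ⟨g * (l : Aut)⁻¹, rfl⟩, ⟨zA, z_mem_A0 xd, ?_⟩, _, this, ?_⟩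
  · change g * (l : Aut)⁻¹ * zA * (g * (l : Aut)⁻¹)⁻¹ = _
    rw [mul_assoc g, mem_CZc.1 (inv_mem l.2)]
    group
  · change g * (l : Aut)⁻¹ * (l * t * (l : Aut)⁻¹) * (g * (l : Aut)⁻¹)⁻¹ = _
    group

/-- Each involution `s` centralises a conjugate of `zA` (`gm_ax0.exists_cen (B_z xd)` for `zpowers s`), so is conjugate into
`CZ`; `cls` with a fixed short `x` (`short_eP`): `s` and `t` are both conjugate to `qV x`. -/
theorem gm_trA {s t : Aut} (s2 : s * s = 1) (t2 : t * t = 1) (s1 : s ≠ 1) (t1 : t ≠ 1) (hs : ¬ gm.B s) (ht : ¬ gm.B t) :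
    ∃ g, g * s * g⁻¹ = t := by
  have : Fact (Nat.Prime 2) := ⟨Nat.prime_two⟩
  have hx := short_eP 0 (show (none : Pt) ≠ some 0 from nofun)
  have key {s : Aut} (s2 : s * s = 1) (s1 : s ≠ 1) (hs : ¬ gm.B s) : IsConj (qV (eP 0 none (some 0))) s := by
    obtain ⟨u, hu, l⟩ := gm_ax0.exists_cen (B_z xd) (P := zpowers s)
      (.of_card (n := 1) (by rw [Nat.card_zpowers, orderOf_eq_prime ((sq s).trans s2) s1, pow_one]))
    obtain ⟨g, rfl⟩ := isConj_iff.1 hu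
    obtain ⟨s, rfl⟩ : ∃ u, g * u * g⁻¹ = s := ⟨g⁻¹ * s * g, by group⟩
    have c := mem_centralizer_singleton_iff.1 (l (mem_zpowers _))
    rw [_root_.conj_mul, _root_.conj_mul, mul_left_inj, mul_right_inj] at c
    rw [_root_.conj_mul, conj_eq_one_iff] at s2
    rw [gm_ax0.conj_iff] at hs
    rcases cls (mem_CZc.2 c) s2 (fun e => s1 (conj_eq_one_iff.2 e)) hx with ⟨k, -, e⟩ | ⟨k, -, e⟩
    exacts [absurd (isConj_iff.2 ⟨k, e⟩) hs, (isConj_iff.2 ⟨k, e⟩).trans (isConj_iff.2 ⟨g, rfl⟩)]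
  exact isConj_iff.1 ((key s2 s1 hs).symm.trans (key t2 t1 ht))

end Cfsg.Lib.Griess.MT
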