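import Cfsg.Agent.Lib.ML.Base
import Cfsg.Agent.Lib.M5.Ten

/-!
# Maximal 2-local subgroups of the Monster: the geometry of a group of Monster type (helper10)

`D : XD z Q Co1 L2` are the data of `C(z) = 2 ^ (1 + 24) . Co₁`.  `dat D`: `B` is the class of `z`, `QQ z Q u` the conjugate
of `Q` with centre `u`, the arks are the conjugates of `A0 D = Z(C(E1 D))`.
-/

set_option autoImplicit false

namespace Cfsg.Lib.ML

open Subgroup Cfsg.Lib.Leech Cfsg.Lib.ES Cfsg.Spor Cfsg.Lib.Mon Cfsg.Lib.M5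

variable {G : Type*} [Group G] {z : G} {Q : Subgroup G}

/-- the conjugate of `Q` that belongs to `u` -/
def QQ (z : G) (Q : Subgroup G) (u : G) : Subgroup G := ⨆ g ∈ {g : G | g * z * g⁻¹ = u}, Q ⋆⋆ g

/-- the standard ark -/
def A0 (D : XD z Q Co1 L2) : Subgroup G := 𝐂(E1 D) ⊓ 𝐂(𝐂(E1 D))

/-- the geometry -/
def dat (D : XD z Q Co1 L2) : Dat G := ⟨fun u => IsConj z u, QQ z Q, fun A => ∃ g, A = (A0 D) ⋆⋆ g⟩

variable (D : XD z Q Co1 L2)

theorem dat_B {u : G} : (dat D).B u ↔ IsConj z u := Iff.rfl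

theorem dat_Ark {A : Subgroup G} : (dat D).Ark A ↔ ∃ g, A = (A0 D) ⋆⋆ g := Iff.rfl

theorem dat_Q {g u : G} (e : g * z * g⁻¹ = u) : (dat D).Q u = Q ⋆⋆ g :=
  le_antisymm (iSup₂_le fun _ hm => (D.lg.map_conj_eq (hm.trans e.symm)).le) (le_iSup₂_of_le (f := fun g (_ : g ∈ {g : G |
    g * z * g⁻¹ = u}) => Q ⋆⋆ g) g e le_rfl)

theorem conj_one' (A : Subgroup G) : A ⋆⋆ (1 : G) = A := by
  ext x; simp

theorem conj_conj' (A : Subgroup G) (g k : G) : (A ⋆⋆ g) ⋆⋆ k = A ⋆⋆ (k * g) := by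
  rw [map_map]; congr 1; ext x; simp [mul_assoc]

theorem mem_conj' {A : Subgroup G} {g x : G} : x ∈ A ⋆⋆ g ↔ g⁻¹ * x * g ∈ A := by
  rw [mem_map_equiv]; simp

theorem dat_Qz : (dat D).Q z = Q := (dat_Q D (g := 1) (by simp)).trans (conj_one' Q)

theorem B_z : (dat D).B z := IsConj.refl z

theorem ark_A0 : (dat D).Ark (A0 D) := ⟨1, (conj_one' _).symm⟩

theorem E1_le_A0 [Finite G] : E1 D ≤ A0 D := fun w hw => ⟨E1_comm hw, fun d hd => (hd w hw).symm⟩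

theorem z_mem_A0 [Finite G] : z ∈ A0 D := E1_le_A0 D (z_mem D)

theorem ax0 [Finite G] (hc : Nat.card Q = 2 ^ (2 * 12 + 1)) : (dat D).Ax0 where
  conj g h := IsConj.trans h (isConj_iff.2 ⟨g, rfl⟩)
  tr h h' := isConj_iff.1 (IsConj.trans (IsConj.symm h) h')
  qconj {u x} g h hx := by
    obtain ⟨k, rfl⟩ := isConj_iff.1 h
    rw [dat_Q D rfl] at hx
    rw [dat_Q D (g := g * k) (by group), ← conj_conj']
    exact ⟨x, hx, rfl⟩
  lg h := by
    obtain ⟨k, rfl⟩ := isConj_iff.1 h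
    rw [dat_Q D rfl]; exact D.lg.conj k
  es h := by
    obtain ⟨k, rfl⟩ := isConj_iff.1 h
    rw [dat_Q D rfl]; exact isExtraspecial_conj D.es k
  cardQ h := by
    obtain ⟨k, rfl⟩ := isConj_iff.1 h
    rw [dat_Q D rfl, card_map_of_injective (MulAut.conj k).injective, hc]
  conjK g := fun ⟨k, e⟩ => ⟨g * k, by rw [e, conj_conj']⟩

theorem trK {A A' : Subgroup G} (h : (dat D).Ark A) (h' : (dat D).Ark A') : ∃ g, A' = A ⋆⋆ g :=
  let ⟨g, e⟩ := h; let ⟨k, e'⟩ := h'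
  ⟨k * g⁻¹, by rw [e, e', conj_conj', inv_mul_cancel_right]⟩

/-- `Q ∩ A0 = E1` -/
theorem inf_A0 [Finite G] {x : G} (hx : x ∈ Q) (h : x ∈ A0 D) : x ∈ E1 D :=
  cen_cen D.lg D.es (E1_le D) (z_mem D) hx fun w hw => h.2 w hw.2

/-- `C(A0) = C(E1)` -/
theorem cen_A0 [Finite G] : 𝐂(A0 D) = 𝐂(E1 D) :=
  le_antisymm (centralizer_le (E1_le_A0 D)) fun d hd _ he => (he.2 d hd).symm

theorem A0_le_cen [Finite G] : A0 D ≤ centralizer {z} := fun _ h => cen_le_z h.1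

theorem norm_A0 [Finite G] {c : centralizer ({z} : Set G)} (hc : D.ρ c ∈ centralizer {s8}) : (c : G) ∈ 𝐍(A0 D) :=
  Core.le_normalizer_inf le_rfl (Core.normalizer_le_normalizer_centralizer _)
    (Core.normalizer_le_normalizer_centralizer _ (norm_E1 hc))

variable {D} {R : Subgroup G} {t : G}

theorem _root_.Cfsg.Lib.M5.St.Q_t (h : St D R t) : (dat D).Q t = R := let ⟨_, a, b⟩ := h.cj; (dat_Q D a).trans b

theorem _root_.Cfsg.Lib.M5.St.B_t (h : St D R t) : (dat D).B t := let ⟨g, a, _⟩ := h.cj; isConj_iff.2 ⟨g, a⟩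

end Cfsg.Lib.ML
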