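import Cfsg.Agent.Lib.ML.VB

/-!
# Maximal 2-local subgroups of the Monster: three arks through a point (trace argument in `Co₀`) (helper10)
-/

set_option autoImplicit false
set_option maxRecDepth 100000

namespace Cfsg.Lib.ML

open Subgroup MulAction Matrix Cfsg.Lib.Leech Cfsg.Lib.ES Cfsg.Spor Cfsg.Lib.Mon Cfsg.Lib.Calc Cfsg.Lib.F2 Cfsg.Lib.M5

/-- `64` times the trace -/
def tr8 (g : Co0) : ℤ := ∑ i, dt(g • e8 i, e8 i)

/-- `coe_e8`, `dot_single`. -/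
theorem parseval (x y : leechLattice) : ∑ i, dt(x, e8 i) * dt(y, e8 i) = 64 * dt(x, y) := by
  simp only [coe_e8, dot_single]
  rw [dotInt, Finset.mul_sum]
  exact Finset.sum_congr rfl fun i _ => by ring

theorem vl_adj (g : Co0) (v w : leechLattice) : dt(g • v, w) = dt(v, g⁻¹ • w) := by
  rw [← dot_smul g v (g⁻¹ • w), smul_inv_smul]

/-- With `f i = k⁻¹ • e8 i`: `dt(k g k⁻¹ e_i, e_i) = dt(g f_i, f_i)` (`dot_smul`), and `64 ∑_i dt(g f_i, f_i) =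
∑_i ∑_j dt(g f_i, e_j) dt(f_i, e_j) = ∑_j ∑_i dt(k g⁻¹ e_j, e_i) dt(k e_j, e_i) = 64 ∑_j dt(g⁻¹ e_j, e_j)` (`parseval` twice). -/
theorem tr8_conj (k g : Co0) : tr8 (k * g * k⁻¹) = tr8 g := by
  have h1 : ∀ i, 64 * dt((k * g * k⁻¹) • e8 i, e8 i) =
      ∑ j, dt((k * g⁻¹) • e8 j, e8 i) * dt(k • e8 j, e8 i) := by
    intro i
    rw [mul_smul, mul_smul, vl_adj, ← parseval]
    refine Finset.sum_congr rfl fun j _ => ?_
    rw [vl_adj g, vl_adj k⁻¹, vl_adj k⁻¹, inv_inv, ← mul_smul, dot_comm, dot_comm (e8 i : GolayPt → ℤ)]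
  have h2 : 64 * tr8 (k * g * k⁻¹) = 64 * tr8 g := by
    rw [tr8, Finset.mul_sum, Finset.sum_congr rfl fun i _ => h1 i, Finset.sum_comm, tr8, Finset.mul_sum]
    refine Finset.sum_congr rfl fun j _ => ?_
    rw [parseval, mul_smul, dot_smul, vl_adj, inv_inv, dot_comm]
  omega

/-- the lift of `s8` with trace `-8`: it fixes the coordinates in the octad and negates the other ones -/
noncomputable def n8 : Co0 := negOne * CoT.sg0 (Golay.G.toF 8536111)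

/-- `CoT.pr1_negOne` -/
theorem pr1_n8 : (n8 : Co1) = s8 := by
  change pr1 n8 = _
  rw [n8, map_mul, CoT.pr1_negOne, one_mul]; rfl

/-- `negOne_comm`, `CoT.sg0_mul`, `CoT.sg0_empty`. -/
theorem n8_sq : n8 * n8 = 1 := by
  rw [n8, mul_assoc, ← mul_assoc (CoT.sg0 _), negOne_comm, mul_assoc, CoT.sg0_mul CoT.oct0 CoT.oct0, symmDiff_self,
    Finset.bot_eq_empty, CoT.sg0_empty, mul_one]
  exact co0_ext fun v => by rw [mul_smul, negOne_smul, negOne_smul, neg_neg, one_smul]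

theorem vl_n8 (v : leechLattice) (i : GolayPt) : ((n8 • v : leechLattice) : GolayPt → ℤ) i =
    if i ∈ Golay.G.toF 8536111 then (v : GolayPt → ℤ) i else -(v : GolayPt → ℤ) i := by
  rw [n8, mul_smul, negOne_smul, CoT.sg0_eq CoT.oct0, AddSubgroup.coe_neg, Pi.neg_apply, mono_smul, signedPerm]
  split_ifs
  exacts [neg_neg _, rfl]

/-- `CoT.sg0_eq CoT.oct0`, `mono_smul_e8`; `8 * 64 - 16 * 64`. -/
theorem tr8_n8 : tr8 n8 = -512 := by
  simp only [tr8, coe_e8, dot_single, vl_n8, Pi.single_eq_same]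
  decide +kernel

/-- `range8`: `code2 y = app 24 tM k`, `k ≠ 0` (`mk_ne_zero`).  `qN k = 0` is excluded by `type8`, `nm_eq_of_mk`.  For `qN k = 1` the
vector `a = get 192 tT k` of the table of `type8` is short, has the code of `y` and vanishes outside the octad (one more
`allLt 256` check as in `type8`), and `y = ± lv a` (`eq_or_neg_of_code`). -/
theorem n8_fix {y : leechLattice} (hy : nm(y) = 32) {u : L2} (e : (y : L2) = s8 • u + u) : n8 • y = y := by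
  obtain ⟨k, hk, e1⟩ := range8.1 ⟨u, e⟩
  have h0 : k ≠ 0 := by
    rintro rfl
    rw [app_zero, ← code2_zero] at e1
    exact mk_ne_zero (x := y) (by omega) (by omega) (code2_injective e1)
  obtain ⟨x, hx, e'⟩ := type8 hk h0 e1
  have hq : qN k ≠ 0 := by
    rcases e' with a | a
    · have := nm_eq_of_mk (x := y) (y := x) (by omega) (by omega) hx
      omega
    · exact a.1
  have := allLt_iff.1 (show allLt 256 (fun k => forceB (get 192 tT k) fun a => band (band (isL a)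
    (Nat.beq (codeN a) (app 24 tM k))) (bor (Nat.beq (qN k) 0) (band (dotV a a 32 0) (allLt 24 fun i =>
      bor (Nat.testBit 8536111 i) (Nat.beq (get 8 a i) 64))))) = true by decide +kernel) k hk
  simp only [forceB_eq, band_eq_true, bor_eq_true, beq_iff, hq, false_or, dotV_iff, allLt_iff] at this
  obtain ⟨⟨a1, a2⟩, a3, a4⟩ := this
  have f : n8 • lv (get 192 tT k) = lv (get 192 tT k) := Subtype.ext (funext fun i => by
    rw [vl_n8]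
    split_ifs with hi
    · rfl
    · have := (a4 _ (gIdx_lt i)).resolve_left fun a => hi (Golay.G.mem_toF.2 a)
      rw [coe_lv a1, vN, this]; simp)
  rcases eq_or_neg_of_code (x := lv (get 192 tT k)) (y := y) (by rw [coe_lv a1, sqNorm_eq_dot, a3]; norm_num)
    (by omega) (by rw [code_lv a1, a2, ← e1, code2_mk]) with a | a
  · rw [a, f]
  · rw [a, smul_neg, f]

/-- `P v = v + a₁ v + a₂ v + a₃ v`.  The `a_i` are commuting involutions with `a₁ a₂ = a₃` etc., so `a_i P v = P v`,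
`dt(P v, w) = dt(v, P w)` and `nm(P v) = 4 dt(P v, v)`.  Then `∑ nm(P e_i) = 4 (24 * 64 + tr8 a₁ + tr8 a₂ + tr8 a₃) = 0`, so
`P e_i = 0`, `dt(4 x, e_i) = dt(P x, e_i) = dt(x, P e_i) = 0` for all `i`, and `x = 0`. -/
theorem four_fix {a₁ a₂ a₃ : Co0} (h1 : a₁ * a₁ = 1) (h2 : a₂ * a₂ = 1) (h3 : a₃ * a₃ = 1) (e : a₁ * a₂ * a₃ = 1)
    (ht : tr8 a₁ + tr8 a₂ + tr8 a₃ = -1536) {x : leechLattice} (f1 : a₁ • x = x) (f2 : a₂ • x = x) (f3 : a₃ • x = x) :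
    x = 0 := by
  have i1 : a₁⁻¹ = a₁ := inv_eq_of_mul_eq_one_right h1
  have i2 : a₂⁻¹ = a₂ := inv_eq_of_mul_eq_one_right h2
  have i3 : a₃⁻¹ = a₃ := inv_eq_of_mul_eq_one_right h3
  have e12 : a₁ * a₂ = a₃ := by rw [← i3]; exact eq_inv_of_mul_eq_one_left e
  have e21 : a₂ * a₁ = a₃ := by rw [← i1, ← i2, ← _root_.mul_inv_rev, e12, i3]
  have e13 : a₁ * a₃ = a₂ := by rw [← e12, ← mul_assoc, h1, one_mul]
  have e23 : a₂ * a₃ = a₁ := by rw [← e21, ← mul_assoc, h2, one_mul]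
  have e31 : a₃ * a₁ = a₂ := by rw [← e21, mul_assoc, h1, mul_one]
  have e32 : a₃ * a₂ = a₁ := by rw [← e12, mul_assoc, h2, mul_one]
  let P : leechLattice → leechLattice := fun v => v + a₁ • v + a₂ • v + a₃ • v
  have adj : ∀ v w, dt(P v, w) = dt(v, P w) := fun v w => by
    simp only [P, AddSubgroup.coe_add, dot_add_left, dot_add_right]
    rw [vl_adj a₁, vl_adj a₂, vl_adj a₃, i1, i2, i3]
  have pp : ∀ v, P (P v) = P v + P v + P v + P v := fun v => by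
    simp only [P, smul_add, ← mul_smul, h1, h2, h3, e12, e21, e13, e23, e31, e32, one_smul]
    abel
  have hn : ∀ v, nm(P v) = 4 * dt(P v, v) := fun v => by
    rw [sqNorm_eq_dot, adj, pp, dot_comm (P v : GolayPt → ℤ)]
    simp only [AddSubgroup.coe_add, dot_add_right]
    ring
  have hs : ∑ i, nm(P (e8 i)) = 0 := by
    simp only [hn, ← Finset.mul_sum]
    simp only [P, AddSubgroup.coe_add, dot_add_left, Finset.sum_add_distrib, ← sqNorm_eq_dot, sqNorm_e8]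
    have : (Finset.univ : Finset GolayPt).card = 24 := by decide +kernel
    simp only [tr8] at ht
    rw [Finset.sum_const, this, nsmul_eq_mul]
    push_cast
    omega
  have h0 : ∀ i, ((P (e8 i) : leechLattice) : GolayPt → ℤ) = 0 := fun i =>
    sqNorm_eq_zero ((Finset.sum_eq_zero_iff_of_nonneg fun j _ => sqNorm_nonneg _).1 hs i (Finset.mem_univ i))
  refine Subtype.ext (funext fun i => ?_)
  have := adj x (e8 i)
  rw [h0] at this
  simp only [P, f1, f2, f3, AddSubgroup.coe_add, dot_add_left, coe_e8, dot_single] at this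
  simp only [dotInt, Pi.zero_apply, mul_zero, Finset.sum_const_zero] at this
  change (x : GolayPt → ℤ) i = 0
  omega

/-- Lift `k_i` to `Co0`; `a_i = k_i n8 k_i⁻¹` fix `x` (`n8_fix` for `k_i⁻¹ • x`); `a₁ a₂ a₃ ∈ {1, -1}` (`CoT.pr1_eq_iff`) fixes
`x ≠ 0`, so is `1`; `four_fix`, `tr8_conj`, `tr8_n8`. -/
theorem not_short {k₁ k₂ k₃ : Co1} (e : k₁ * s8 * k₁⁻¹ * (k₂ * s8 * k₂⁻¹) * (k₃ * s8 * k₃⁻¹) = 1) {x : leechLattice}
    (hx : nm(x) = 32) (h1 : ∃ u : L2, k₁⁻¹ • (x : L2) = s8 • u + u) (h2 : ∃ u : L2, k₂⁻¹ • (x : L2) = s8 • u + u)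
    (h3 : ∃ u : L2, k₃⁻¹ • (x : L2) = s8 • u + u) : False := by
  obtain ⟨l₁, rfl⟩ := QuotientGroup.mk_surjective k₁
  obtain ⟨l₂, rfl⟩ := QuotientGroup.mk_surjective k₂
  obtain ⟨l₃, rfl⟩ := QuotientGroup.mk_surjective k₃
  have fx : ∀ l : Co0, (∃ u : L2, (l : Co1)⁻¹ • (x : L2) = s8 • u + u) → (l * n8 * l⁻¹) • x = x := by
    rintro l ⟨u, hu⟩
    rw [← QuotientGroup.mk_inv, mk_smul_mk] at hu
    rw [mul_smul, mul_smul, n8_fix (by rw [sqNorm_smul, hx]) hu, smul_inv_smul]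
  have sq : ∀ l : Co0, (l * n8 * l⁻¹) * (l * n8 * l⁻¹) = 1 := fun l => by
    rw [show l * n8 * l⁻¹ * (l * n8 * l⁻¹) = l * (n8 * n8) * l⁻¹ by group, n8_sq, mul_one, mul_inv_cancel]
  have x0 : x ≠ 0 := by
    rintro rfl
    simp [sqNorm] at hx
  have e' : pr1 (l₁ * n8 * l₁⁻¹ * (l₂ * n8 * l₂⁻¹) * (l₃ * n8 * l₃⁻¹)) = pr1 1 := by
    rw [← pr1_n8] at e
    exact e
  rcases CoT.pr1_eq_iff.1 e' with a | a
  · exact x0 (four_fix (sq l₁) (sq l₂) (sq l₃) a (by simp only [tr8_conj, tr8_n8]; norm_num) (fx _ h1) (fx _ h2) (fx _ h3))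
  · have b : (l₁ * n8 * l₁⁻¹ * (l₂ * n8 * l₂⁻¹) * (l₃ * n8 * l₃⁻¹)) • x = x := by
      rw [mul_smul _ (l₃ * n8 * l₃⁻¹), fx _ h3, mul_smul _ (l₂ * n8 * l₂⁻¹), fx _ h2, fx _ h1]
    rw [a, mul_one, negOne_smul] at b
    refine x0 (Subtype.ext (funext fun i => ?_))
    have := congrFun (congrArg Subtype.val b) i
    change -(x : GolayPt → ℤ) i = _ at this
    change (x : GolayPt → ℤ) i = 0
    omega

variable {G : Type*} [Group G] [Finite G] {z : G} {Q : Subgroup G} {D : XD z Q Co1 L2} {R : Subgroup G} {t : G}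

/-- The case of the base point.  `A_i = A0 D ⋆⋆ g_i` with `g_i z g_i⁻¹ = z` (`h.std`); `g_i⁻¹ a_i g_i ∈ A0 D \ Q` acts as `s8`
(`Crd.rho_eq`), so `ρ a_i = k_i s8 k_i⁻¹` for `k_i = ρ g_i`, with product `1` (`D.ker`); `g_i⁻¹ v g_i ∈ E1 D` (`inf_A0`).  If
`v ≠ 1`, `v ≠ z`, then (`v * v = 1` by `sq_E1`) `nm_cases`: norm `64` gives `IsConj z v` (`isConj_of_nm` as in `St.cls`), norm
`32` contradicts `not_short` (`π_conj`). -/
theorem _root_.Cfsg.Lib.M5.St.lemP0 (h : St D R t) {A₁ A₂ A₃ : Subgroup G} {a₁ a₂ a₃ v : G} (k₁ : (dat D).Ark A₁)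
    (k₂ : (dat D).Ark A₂) (k₃ : (dat D).Ark A₃) (z₁ : z ∈ A₁) (z₂ : z ∈ A₂) (z₃ : z ∈ A₃) (m₁ : a₁ ∈ A₁) (m₂ : a₂ ∈ A₂)
    (m₃ : a₃ ∈ A₃) (n₁ : a₁ ∉ Q) (n₂ : a₂ ∉ Q) (n₃ : a₃ ∉ Q) (e : a₁ * a₂ * a₃ ∈ Q) (v₁ : v ∈ A₁) (v₂ : v ∈ A₂) (v₃ : v ∈ A₃)
    (hv : v ∈ Q) : v = 1 ∨ IsConj z v := by
  by_cases v1 : v = 1
  · exact Or.inl v1
  by_cases vz : v = z
  · exact Or.inr (vz ▸ IsConj.refl _)
  obtain ⟨b, c⟩ := h.exists_crd
  have key : ∀ {A : Subgroup G} {a : G}, (dat D).Ark A → z ∈ A → a ∈ A → a ∉ Q → v ∈ A → v * v = 1 ∧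
      ∃ (ha : a ∈ centralizer ({z} : Set G)) (k : Co1), D.ρ ⟨a, ha⟩ = k * s8 * k⁻¹ ∧
        ∃ u : L2, k⁻¹ • D.π v = s8 • u + u := by
    intro A a hA hz ha hn hvA
    obtain ⟨g, hg, rfl⟩ := h.std hA hz (B_z D)
    have gc : g ∈ centralizer ({z} : Set G) := mem_centralizer_singleton_iff.2 (mul_inv_eq_iff_eq_mul.1 hg)
    rw [mem_conj'] at ha hvA
    have vq : g⁻¹ * v * g ∈ Q := by simpa using D.conj_mem (⟨g, gc⟩ : centralizer ({z} : Set G))⁻¹ hv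
    have vE := inf_A0 D vq hvA
    have ac := A0_le_cen D ha
    have ac' : a ∈ centralizer ({z} : Set G) := by
      have := mul_mem (mul_mem gc ac) (inv_mem gc)
      rwa [show g * (g⁻¹ * a * g) * g⁻¹ = a by group] at this
    refine ⟨?_, ac', D.ρ ⟨g, gc⟩, ?_, ?_⟩
    · have := sq_E1 vE
      rw [show v * v = g * (g⁻¹ * v * g * (g⁻¹ * v * g)) * g⁻¹ by group, this, mul_one, mul_inv_cancel]
    · rw [← c.rho_eq (a := ⟨_, ac⟩) ha fun hq => hn (by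
        have := D.conj_mem ⟨g, gc⟩ hq
        rwa [show g * (g⁻¹ * a * g) * g⁻¹ = a by group] at this), ← map_inv, ← map_mul, ← map_mul]
      congr 1
      refine Subtype.ext ?_
      change a = g * (g⁻¹ * a * g) * g⁻¹
      group
    · obtain ⟨u, hu⟩ := vE.2
      refine ⟨u, ?_⟩
      rw [← hu, ← map_inv, ← D.π_conj _ v hv]
      simp
  obtain ⟨vv, c₁, l₁, r₁, s₁⟩ := key k₁ z₁ m₁ n₁ v₁
  obtain ⟨-, c₂, l₂, r₂, s₂⟩ := key k₂ z₂ m₂ n₂ v₂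
  obtain ⟨-, c₃, l₃, r₃, s₃⟩ := key k₃ z₃ m₃ n₃ v₃
  obtain ⟨x, hx, a | a⟩ := nm_cases D hv (orderOf_eq_prime (by rw [sq, vv]) v1) vz
  · rw [hx] at s₁ s₂ s₃
    refine (not_short ?_ a s₁ s₂ s₃).elim
    rw [← r₁, ← r₂, ← r₃, ← map_mul, ← map_mul]
    exact (D.ker _).2 e
  · obtain ⟨g, rfl, -⟩ := h.cj
    exact Or.inr (isConj_of_nm D h.card h.pr.mem_l h.pr.ne hv hx a)

/-- Conjugate `u = g z g⁻¹` to `z` (`dat_Q`, `mem_conj'`, `Ax0.conjK`); `lemP0`. -/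
theorem _root_.Cfsg.Lib.M5.St.lemP (h : St D R t) {u : G} {A₁ A₂ A₃ : Subgroup G} {a₁ a₂ a₃ v : G} (hu : (dat D).B u)
    (k₁ : (dat D).Ark A₁) (k₂ : (dat D).Ark A₂) (k₃ : (dat D).Ark A₃) (z₁ : u ∈ A₁) (z₂ : u ∈ A₂) (z₃ : u ∈ A₃)
    (m₁ : a₁ ∈ A₁) (m₂ : a₂ ∈ A₂) (m₃ : a₃ ∈ A₃) (n₁ : a₁ ∉ (dat D).Q u) (n₂ : a₂ ∉ (dat D).Q u) (n₃ : a₃ ∉ (dat D).Q u)
    (e : a₁ * a₂ * a₃ ∈ (dat D).Q u) (v₁ : v ∈ A₁) (v₂ : v ∈ A₂) (v₃ : v ∈ A₃) (hv : v ∈ (dat D).Q u) :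
    v = 1 ∨ (dat D).B v := by
  obtain ⟨g, rfl⟩ := isConj_iff.1 hu
  rw [dat_Q D rfl, mem_conj'] at n₁ n₂ n₃ e hv
  have m : ∀ {A : Subgroup G} {a : G}, a ∈ A → g⁻¹ * a * g ∈ A ⋆⋆ g⁻¹ := fun {A a} ha => ⟨a, ha, by simp⟩
  have m' : ∀ {A : Subgroup G}, g * z * g⁻¹ ∈ A → z ∈ A ⋆⋆ g⁻¹ := fun {A} ha => mem_conj'.2 (by simpa using ha)
  have K := fun {A : Subgroup G} (k : (dat D).Ark A) => (ax0 D h.card).conjK g⁻¹ k
  refine (h.lemP0 (K k₁) (K k₂) (K k₃) (m' z₁) (m' z₂) (m' z₃) (m m₁) (m m₂) (m m₃) n₁ n₂ n₃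
    (by rwa [show g⁻¹ * a₁ * g * (g⁻¹ * a₂ * g) * (g⁻¹ * a₃ * g) = g⁻¹ * (a₁ * a₂ * a₃) * g by group])
    (m v₁) (m v₂) (m v₃) hv).imp (fun a => ?_) fun a => a.trans (isConj_iff.2 ⟨g, by group⟩)
  rw [show v = g * (g⁻¹ * v * g) * g⁻¹ by group, a, mul_one, mul_inv_cancel]

end Cfsg.Lib.ML
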