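import Cfsg.Agent.Lib.ML.VDef
import Cfsg.Agent.Lib.MT.Inv

/-!
# Maximal 2-local subgroups of the Monster: the geometry in Conway's coordinates (helper10)
-/

set_option autoImplicit false

namespace Cfsg.Lib.Griess.MT

open Finset Matrix Subgroup Cfsg.Lib.Leech Cfsg.Lib.Mon Cfsg.Lib.ES Cfsg.Lib.ML Cfsg.Lib.M5
open scoped commutatorElement

variable [MQ]

/-- the geometry -/
abbrev gm : Dat Aut := dat xd

/-- the elements of `Q z ∩ Q ω` -/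
abbrev ev (s n : ZMod 2) (δ : W) : Aut := qV (qe s (n • Om) δ)

theorem gm_ax0 : gm.Ax0 := ax0 xd card_range_qV

theorem gm_Qz : gm.Q zA = qV.range := dat_Qz xd

theorem ev_mem (s n : ZMod 2) (δ : W) : ev s n δ ∈ gm.Q zA := gm_Qz.ge ⟨_, rfl⟩

/-- `r = g zA g⁻¹`, `dat_Q`, `InQ.exists`. -/
theorem gm_mem {r x : Aut} (h : gm.B r) : x ∈ gm.Q r ↔ InQ r x := by
  refine ⟨fun m => ?_, fun ⟨g, q, a, b⟩ => ?_⟩
  · obtain ⟨g, e⟩ := isConj_iff.1 h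
    rw [dat_Q xd e] at m
    obtain ⟨_, ⟨q, rfl⟩, k⟩ := m
    exact ⟨g, q, e, k⟩
  · rw [dat_Q xd a]
    exact ⟨_, ⟨q, rfl⟩, b⟩

/-- `qe_eq_iff` -/
theorem ev_congr {δ ε : W} (h : δ + ε ∈ golayCode) (s n : ZMod 2) : ev s n δ = ev s n ε :=   congrArg qV (qe_eq_iff.2 ⟨rfl, rfl, h⟩)

theorem ev_zero (δ : W) : ev 0 0 δ = bq δ := by
  rw [ev, zero_smul, bq]

theorem ev_z : ev 1 0 0 = zA :=   congrArg qV (by ext1 <;> simp)

theorem ev_w : ev 0 1 0 = wA :=   congrArg qV (by ext1 <;> simp)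

theorem ev_mul (s t n m : ZMod 2) {δ : W} (h : δ ⬝ᵥ 1 = 0) (ε : W) : ev s n δ * ev t m ε = ev (s + t) (n + m) (δ + ε) :=
  qV_A_mul s t n m h ε

/-- `qV_injective`, `qe_eq_iff`. -/
theorem ev_eq_iff {s t n m : ZMod 2} {δ ε : W} : ev s n δ = ev t m ε ↔ s = t ∧ n = m ∧ δ + ε ∈ golayCode := by
  rw [qV_injective.eq_iff, qe_eq_iff]
  refine and_congr_right fun _ => and_congr_left fun _ => ⟨fun e => ?_, fun e => e ▸ rfl⟩
  simpa using congrFun (congrArg Subtype.val e) none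

omit [MQ] in
/-- Even cocode words: weight `0`, `2` or `4`.  (Induction on the weight: if `wt δ ≥ 6`, five of its points lie in an octad `O`,
and `wt (δ + O) ≤ wt δ - 2`.) -/
theorem even_cases {δ : W} (h : δ ⬝ᵥ 1 = 0) :
    δ ∈ golayCode ∨ (∃ i j, i ≠ j ∧ δ + (e1 i + e1 j) ∈ golayCode) ∨ ∃ ε, wt ε = 4 ∧ δ + ε ∈ golayCode := by
  induction hk : wt δ using Nat.strong_induction_on generalizing δ with
  | _ k ih =>
  obtain ⟨m, hm⟩ := even_wt_iff.2 h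
  by_cases h6 : 5 ≤ wt δ
  · obtain ⟨s, hs, c5⟩ := exists_subset_card_eq (s := support₂ δ) h6
    obtain ⟨O, hO, k1⟩ := M3.exists_oct s c5.le
    have h1 : s.card ≤ wt (δ * O) := M3.card_le_wt fun i hi => by
      have : δ i = 1 := by simpa [support₂, zmod2_ne_zero] using hs hi
      rw [Pi.mul_apply, this, k1 i hi, one_mul]
    have h2 := wt_add δ O
    have tr {X : W} (e : δ + O + X ∈ golayCode) : δ + X ∈ golayCode := by
      rw [add_right_comm] at e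
      exact (golayCode.add_mem_iff_left O.2).1 e
    rcases ih (wt (δ + O)) (by omega) (δ := δ + O) (by simp [h]) rfl with e | ⟨i, j, n, e⟩ | ⟨ε, w, e⟩
    exacts [.inl ((golayCode.add_mem_iff_left O.2).1 e), .inr (.inl ⟨i, j, n, tr e⟩), .inr (.inr ⟨ε, w, tr e⟩)]
  rcases (by omega : wt δ = 0 ∨ wt δ = 2 ∨ wt δ = 4) with e | e | e
  · exact .inl (wt_eq_zero e ▸ zero_mem _)
  · obtain ⟨i, j, n, e⟩ := card_eq_two.1 e
    refine .inr (.inl ⟨i, j, n, ?_⟩)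
    have : δ = e1 i + e1 j := funext fun l => by
      have := Finset.ext_iff.1 e l
      simp only [support₂, mem_filter, mem_univ, true_and, mem_insert, mem_singleton, zmod2_ne_zero] at this
      by_cases a : l = i
      · rw [this.2 (.inl a), a, Pi.add_apply, e1_self, e1_ne n.symm, add_zero]
      by_cases b : l = j
      · rw [this.2 (.inr b), b, Pi.add_apply, e1_self, e1_ne n, zero_add]
      rw [Pi.add_apply, e1_ne (Ne.symm a), e1_ne (Ne.symm b), add_zero]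
      exact (z2_cases _).resolve_right fun c => (this.1 c).elim a b
    rw [← this, w_add_self]
    exact zero_mem _
  · exact .inr (.inr ⟨δ, e, w_add_self δ ▸ zero_mem _⟩)

theorem ev_ne {δ : W} (h0 : wt δ ≠ 0) (h : wt δ < 8) (s n t m : ZMod 2) : ev s n δ ≠ ev t m 0 := fun e =>
  h0 (by rw [eq_zero_of_wt_lt (add_zero δ ▸ (ev_eq_iff.1 e).2.2) h, wt_zero])

theorem z_mul_ev (s n : ZMod 2) (δ : W) : zA * ev s n δ = ev (1 + s) n δ := by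
  rw [← ev_z, ev_mul _ _ _ _ (by simp), zero_add, zero_add]

theorem w_mul_ev (s n : ZMod 2) (δ : W) : wA * ev s n δ = ev s (1 + n) δ := by
  rw [← ev_w, ev_mul _ _ _ _ (by simp), zero_add, zero_add]
/-- `ev s n (e1 i + e1 j) = qV (zp s * eP n i j)` is short (`short_zp_mul`, `short_eP`): `not_conj_short`; `≠ 1` by `ev_eq_iff`
(`ev 0 0 0 = 1`) and `eq_zero_of_wt_lt`. -/
theorem ev_duad {i j : Pt} (h : i ≠ j) (s n : ZMod 2) : ¬ gm.B (ev s n (e1 i + e1 j)) ∧ ev s n (e1 i + e1 j) ≠ 1 := by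
  refine ⟨fun k => not_conj_short ((short_zp_mul s _).2 (short_eP n h)) ?_, ?_⟩
  · rwa [eP, zp_mul_qe, add_zero]
  · rw [← bq_zero, ← ev_zero]
    exact ev_ne (by rw [wt_pair h]; norm_num) (by rw [wt_pair h]; norm_num) _ _ _ _

variable [MN]

theorem gm_Bw : gm.B wA := isConj_iff.2 ⟨tau, tau_conj_zQ⟩

/-- As in `M5.exists_st` with `g = tau` (`tau_conj_zQ`, `piM_qV`, `om_eq`, `img_eq_signs`). -/
theorem gm_st : St xd (qV.range ⋆⋆ tau) wA := by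
  have hg : tau * zA * tau⁻¹ ∈ qV.range := tau_conj_zQ ▸ ⟨_, rfl⟩
  have hne : tau * zA * tau⁻¹ ≠ zA := fun e => by
    simpa using congrArg Q.s (qV_injective (tau_conj_zQ.symm.trans e))
  have pi : xd.π (tau * zA * tau⁻¹) = (e8 none : L2) := by rw [tau_conj_zQ]; exact (piM_qV _).trans om_eq
  have k : St xd (qV.range ⋆⋆ tau) (tau * zA * tau⁻¹) :=
    ⟨card_range_qV, xd.lg.pr hg hne, pi, img_eq_signs xd card_range_qV hg pi, tau, rfl, rfl⟩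
  rwa [show tau * zA * tau⁻¹ = wA from tau_conj_zQ] at k

/-- `gm_mem`; `←`: `inQ_w`; `→`: `x = qV q = tau * qV p * tau⁻¹` (`InQ.exists` with `tau_conj_zQ`), `eq_A`, `tau_conj_A`. -/
theorem mem_zw {x : Aut} : x ∈ gm.Q zA ∧ x ∈ gm.Q wA ↔ ∃ s n δ, δ ⬝ᵥ 1 = 0 ∧ x = ev s n δ := by
  refine ⟨fun ⟨h1, h2⟩ => ?_, fun ⟨s, n, δ, h, e⟩ => e ▸ ⟨ev_mem _ _ _, (gm_mem gm_Bw).2 (inQ_w h s n)⟩⟩
  obtain ⟨q, rfl⟩ := gm_Qz.le h1
  rw [dat_Q xd tau_conj_zQ] at h2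
  obtain ⟨_, ⟨p, rfl⟩, k⟩ := h2
  obtain ⟨s, n, δ, h, rfl⟩ := eq_A k
  exact ⟨_, _, δ, h, k.symm.trans (tau_conj_A s n h)⟩

/-- `b_four`; for `s = 1` use `gm_ax0.mulB` with `zA` (`ev 1 n δ = zA * ev 0 n δ`). -/
theorem ev_tet {δ : W} (h : wt δ = 4) (s n : ZMod 2) : gm.B (ev s n δ) := by
  rcases z2_cases s with rfl | rfl
  · exact b_four h n
  · rw [← add_zero 1, ← z_mul_ev]
    exact gm_ax0.mulB (B_z xd) (b_four h n) (ev_mem _ _ _) (ev_z ▸ ev_ne (by omega) (by omega) _ _ _ _)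

/-- `gm_ax0.inf` with `zA` and `wA` (`ev (s + 1) n δ = zA * ev s n δ`, `ev s (n + 1) δ = wA * ev s n δ`, all `ev s n δ` lie in
`Q zA ∩ Q wA`, are 2-central and differ from `zA`, `wA`). -/
theorem mem_tet {δ : W} (h : wt δ = 4) (s n : ZMod 2) {x : Aut} (h1 : x ∈ gm.Q zA) (h2 : x ∈ gm.Q wA) :
    x ∈ gm.Q (ev s n δ) ↔ x ∈ gm.Q (bq δ) := by
  have a (s n) (m : x ∈ gm.Q (ev s n δ)) : x ∈ gm.Q (ev (1 + s) n δ) := z_mul_ev s n δ ▸
    gm_ax0.inf (B_z xd) (ev_tet h s n) (ev_mem _ _ _) (ev_z ▸ ev_ne (by omega) (by omega) _ _ _ _) h1 m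
  have b (s n) (m : x ∈ gm.Q (ev s n δ)) : x ∈ gm.Q (ev s (1 + n) δ) := w_mul_ev s n δ ▸
    gm_ax0.inf gm_Bw (ev_tet h s n) (mem_zw.2 ⟨s, n, δ, even_wt_iff.1 ⟨2, h⟩, rfl⟩).2
      (ev_w ▸ ev_ne (by omega) (by omega) _ _ _ _) h2 m
  rw [← ev_zero]
  rcases z2_cases s with rfl | rfl <;> rcases z2_cases n with rfl | rfl
  exacts [Iff.rfl, ⟨b 0 1, b 0 0⟩, ⟨a 1 0, a 0 0⟩, ⟨fun m => a 1 0 (b 1 1 m), fun m => a 0 1 (b 0 0 m)⟩]

/-- `bq T = bq δ` (`ev_congr`), `inQ_bq_pair`, `mem_tet`. -/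
theorem duad_mem {δ T : W} (hT : wt T = 4) (e : δ + T ∈ golayCode) {i j : Pt} (h : i ≠ j) (hi : T i = 1) (hj : T j = 1)
    (s n : ZMod 2) : bq (e1 i + e1 j) ∈ gm.Q (ev s n δ) := by
  obtain ⟨h1, h2⟩ := mem_zw.2 ⟨0, 0, _, pair_dot_one i j, (ev_zero _).symm⟩
  rw [ev_congr e, mem_tet hT s n h1 h2]
  exact (gm_mem (ev_zero T ▸ ev_tet hT 0 0)).2 (inQ_bq_pair hT h hi hj)

/-- `xq 0 O ∈ Q (bq T)` (`inQ_bq_of` as in `inQ_xq`; or `inQ_xq` needs `T = O * P`), so the commutator of `x = ev t m ε` and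
`xq 0 O` lies in `{1, bq T}` (`gm_ax0.comm_or`) and in `{1, zA}`, and `bq T ≠ zA`: they commute, `pr_eq_of_comm` (cf.
`xq_comm_bq`).  Reduce to `s = n = 0`, `δ = T` by `ev_congr`, `mem_tet`. -/
theorem dot_of_mem {δ T : W} (hT : wt T = 4) (e : δ + T ∈ golayCode) {O : Cd} (hO : wt O = 8) (hs : T * O = T)
    {s n t m : ZMod 2} {ε : W} (h : ε ⬝ᵥ 1 = 0) (hm : ev t m ε ∈ gm.Q (ev s n δ)) : (O : W) ⬝ᵥ ε = 0 := by
  obtain ⟨h1, h2⟩ := mem_zw.2 ⟨t, m, ε, h, rfl⟩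
  rw [ev_congr e, mem_tet hT s n h1 h2] at hm
  have B : gm.B (bq T) := ev_zero T ▸ ev_tet hT 0 0
  have hx : xq 0 O ∈ gm.Q (bq T) := (gm_mem B).2 (inQ_bq_of hT (nm_lT (good_zero hO)) ((mk_lT _).trans (by rw [eT_zero])) (by
    have : ∀ k, vT O 0 k * (4 * vz (T k)) = 8 * vz (T k) := fun k => by
      have := congrFun hs k
      simp only [vT, Pi.mul_apply, Pi.zero_apply] at this ⊢
      generalize (O : W) k = a, T k = b at this ⊢
      revert a b; decide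
    simp only [dotInt, lT, lF, this, ← mul_sum, sum_vz, hT]; rfl))
  have c : ⁅ev t m ε, xq 0 O⁆ = 1 := (gm_ax0.comm_or B hm hx).resolve_right fun c => by
    rcases gm_ax0.comm_or (B_z xd) h1 (gm_Qz.ge ⟨_, rfl⟩ : xq 0 O ∈ _) with d | d
    · exact gm_ax0.ne_one B (c.symm.trans d)
    · exact ev_ne (δ := T) (by omega) (by omega) 0 0 1 0 ((ev_zero T).trans (c.symm.trans (d.trans ev_z.symm)))
  simpa using pr_eq_of_comm (commutatorElement_eq_one_iff_mul_comm.1 c)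

/-- `xp σ` centralises `zA`, `wA` (`xp_mem`), `xp_bq`; `ev s n δ = ev s n 0 * bq δ`, `comm_V`. -/
theorem xp_ev (σ : M24) (s n : ZMod 2) {δ : W} (h : δ ⬝ᵥ 1 = 0) : xp σ * ev s n δ * (xp σ)⁻¹ = ev s n (sW σ δ) := by
  rw [ev, ev, qe_Om, qe_Om s n (sW σ δ), map_mul, map_mul, ← bq, ← bq, ← xp_bq, ← mul_assoc, comm_V (xp_mem σ)]
  simp only [mul_assoc]

end Cfsg.Lib.Griess.MT
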