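import Cfsg.Agent.Lib.ML.VO2
import Cfsg.Agent.Lib.ML.VP

/-!
# Maximal 2-local subgroups of the Monster: the octonion facts (helper10)
-/

set_option autoImplicit false
set_option maxRecDepth 100000

namespace Cfsg.Lib.ML

open Subgroup MulAction Cfsg.Lib.Leech Cfsg.Lib.ES Cfsg.Spor Cfsg.Lib.Mon Cfsg.Lib.Calc Cfsg.Lib.F2 Cfsg.Lib.M5
open scoped commutatorElement

variable {G : Type*} [Group G] [Finite G] {z : G} {Q : Subgroup G} {D : XD z Q Co1 L2} {R : Subgroup G} {t : G}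

/-- `s ∈ Q ∩ C(A0 D)` has the code `c` modulo `E1 D` -/
structure Rc (D : XD z Q Co1 L2) (s : G) (c : ℕ) : Prop where
  lt : c < 256
  mem : s ∈ Q
  cen : s ∈ 𝐂(E1 D)
  ex : ∃ e ∈ E1 D, code2 (D.π (s * e)) = app 24 rM c

/-- `o` has the code `e` -/
def Ro (D : XD z Q Co1 L2) (o : G) (e : ℕ) : Prop :=
  ∀ s c, Rc D s c → ⁅s, o⁆ ∈ Q ∧ code2 (D.π ⁅s, o⁆) = app 24 tM (mu e c)

theorem Crd.exists_rc {b : ℕ → G} (c : Crd D b) {s : G} (h : s ∈ (dat D).Q z ⊓ 𝐂(A0 D)) : ∃ k, Rc D s k := by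
  rw [dat_Qz] at h
  obtain ⟨y, hy, e⟩ := c.exists_y
  obtain ⟨k, hk, u, a⟩ := decomp8 (e ▸ D.fix_of_comm h.1 (h.2 y hy))
  obtain ⟨p, hp, hu⟩ := D.π_surj (s8 • u + u)
  exact ⟨k, hk, h.1, cen_A0 D ▸ h.2, p, ⟨hp, u, hu⟩, by rw [D.π_mul _ h.1 _ hp, hu, a]⟩

theorem ro_of_mu {o : centralizer ({z} : Set G)} (ho : (o : G) ∈ 𝐂(E1 D)) {e : ℕ} (h : Mu (D.ρ o) e) : Ro D o e := by
  rintro s c ⟨hc, hs, -, x, hx, a⟩
  have m : (o : G) * s⁻¹ * (o : G)⁻¹ ∈ Q := D.conj_mem o (inv_mem hs)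
  have e1 : ⁅s, (o : G)⁆ = s * (o * s⁻¹ * (o : G)⁻¹) := by group
  have e2 := h c hc _ a
  rw [D.π_mul _ hs _ hx.1, smul_add, fix_E1 (map_cen.le ⟨o, ho, rfl⟩) hx, code2_add] at e2
  rw [D.π_mul _ hs _ hx.1, code2_add] at a
  refine ⟨e1 ▸ mul_mem hs m, ?_⟩
  rw [e1, code_mul D hs m, D.π_conj o _ (inv_mem hs), D.π_inv hs, smul_neg, code2_neg]
  refine Nat.xor_right_inj.1 (Eq.trans ?_ e2)
  rw [← a, Nat.xor_comm (code2 (D.π s)), Nat.xor_assoc, ← Nat.xor_assoc (code2 (D.π s)), Nat.xor_self, Nat.zero_xor, Nat.xor_comm]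

theorem exists_ro {o : G} (ho : o ∈ 𝐂(A0 D)) : ∃ e < 256, Ro D o e ∧ (o * o = 1 → qeT.testBit e = false) := by
  rw [cen_A0] at ho
  obtain ⟨e, he, a, b⟩ := exists_mu.1 _ (map_cen.le ⟨⟨o, cen_le_z ho⟩, ho, rfl⟩)
  exact ⟨e, he, ro_of_mu (o := ⟨o, cen_le_z ho⟩) ho a, fun h => b (by
    rw [← map_mul, ← map_one D.ρ]; exact congrArg D.ρ (Subtype.ext h))⟩

theorem exists_ro' {e : ℕ} (he : e < 256) : ∃ o ∈ 𝐂(A0 D), Ro D o e := by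
  obtain ⟨f, hf, a⟩ := exists_mu.2 e he
  obtain ⟨o, ho, rfl⟩ := (map_cen (D := D)).ge hf
  exact ⟨o, cen_A0 D ▸ ho, ro_of_mu ho a⟩

variable {s s' : G}

section

variable {c c' : ℕ}

theorem Rc.sq (h : Rc D s c) (h2 : s * s = 1) : qcT.testBit c = false := by
  obtain ⟨e, he, a⟩ := h.ex
  have := chk_q
  simp only [forceB_eq, allLt_iff, bor_eq_true, band_eq_true, beq_iff, bit_eq] at this
  obtain ⟨⟨a1, a2⟩, a3⟩ := this c h.lt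
  refine Bool.eq_false_iff.2 fun n => ?_
  have a4 := (sqv_eq_zero_iff D (mul_mem h.mem he.1) (v := lv (sumV c))
    (code2_injective (by rw [code2_mk, code_lv a1, a2, a]))).1 (sqv_eq_zero.2 (by
      rw [_root_.sq, mul_assoc, ← mul_assoc e, h.cen e he, mul_assoc, sq_E1 he, mul_one, h2]))
  have a5 := dotO_eq (sumV c) (sumV c)
  rw [coe_lv a1, sqNorm_eq_dot] at a4
  have : dotO (sumV c) (sumV c) % 32 = 16 := a3.resolve_right (by simp [n])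
  omega

theorem Rc.cm (h : Rc D s c) (h' : Rc D s' c') (h2 : s * s = 1) (h2' : s' * s' = 1) (e : s * s' = s' * s) :
    (get 256 cmT c).testBit c' = true := by
  obtain ⟨x, hx, a⟩ := h.ex
  obtain ⟨y, hy, a'⟩ := h'.ex
  refine cm_spec h.lt h'.lt (h.sq h2) (h'.sq h2') ?_
  rw [← a, ← a']
  refine (comm_iff_bil D (mul_mem h.mem hx.1) (mul_mem h'.mem hy.1)).1 ?_
  exact ((Commute.mul_right e (h.cen y hy).symm).mul_left (Commute.mul_right (h'.cen x hx) (E1_comm hy x hx)))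

theorem Rc.ne (h : Rc D s c) (n : s ∉ A0 D) : c ≠ 0 := by
  rintro rfl
  obtain ⟨x, hx, a⟩ := h.ex
  exact n (E1_le_A0 D (((E1 D).mul_mem_cancel_right hx).1 (mem_E1.2 ⟨mul_mem h.mem hx.1, 0, by norm_num, by
    rw [a, app_zero, app_zero]⟩)))

theorem Ro.eq_zero {o : G} {e : ℕ} (h : Ro D o e) (h' : Rc D s c) (k : s * o = o * s) : mu e c = 0 := by
  have := (h s c h').2
  rw [commutatorElement_eq_one_iff_mul_comm.2 k, D.π_one, code2_zero, ← app_zero 24 tM] at this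
  exact (tM_inj (by norm_num) (mu_lt _ _) this).symm

end

theorem bN_hi {k m : ℕ} (hk : k < 512) (hm : m < 256) : bN k (m + 256) = bN k m := by
  rw [(by decide +kernel : ∀ m < 256, m + 256 = m ^^^ 256) m hm, bN_comm', bN_xor (by omega) (by norm_num) (by omega),
    (by decide +kernel : ∀ k < 512, bN 256 k = 0) k hk, Nat.xor_zero, bN_comm']

namespace Crd

variable {b : ℕ → G} (h : St D R t) (c : Crd D b) {k m : ℕ} {x : G}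
include c

theorem b_code (hk : k < 512) (hm : m < 256) (hx : x ∈ Q ∧ code2 (D.π x) = app 24 tM m) :
    x ∈ A0 D ∧ ((dat D).b (prodA b k 10) x = 0 ↔ bN k m = 0) := by
  rcases c.eq_or hx.1 hm hx.2 with rfl | rfl
  · exact ⟨c.pmem _, c.b_eq_zero (by omega) (by omega)⟩
  · exact ⟨c.pmem _, by rw [c.b_eq_zero (by omega) (by omega), bN_hi hk hm]⟩

theorem pt (hk : k < 256) (h0 : k ≠ 0) (h1 : qN k = 0) : prodA b k 10 ∈ A0 D ∧ (dat D).B (prodA b k 10) ∧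
    prodA b k 10 ∈ (dat D).Q z ∧ prodA b k 10 ≠ z :=
  ⟨c.pmem _, (c.B_iff (by omega)).2 ⟨h0, h1⟩, (dat_Qz D).ge ((c.mem_Q (by omega)).2 (by omega)), fun e =>
    absurd ((c.eq_iff (by omega) (by norm_num)).1 (e.trans c.hz.symm)) (by omega)⟩

include h

theorem memw (hk : k < 256) (h0 : k ≠ 0) (h1 : qN k = 0) (hm : m < 256) (e : bN k m = 0)
    (hx : x ∈ Q ∧ code2 (D.π x) = app 24 tM m) : x ∈ (dat D).Q (prodA b k 10) :=
  let a := c.b_code (k := k) (by omega) hm hx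
  ((h.at' (ark_A0 D) (c.pmem k) (c.pt hk h0 h1).2.1).memQ x a.1).2 (a.2.2 e)

theorem of_mk {d : ℕ} (hs : Rc D s d) (e : (get 256 mkT d).testBit k = true) {o : G} (ho : o ∈ 𝐂(A0 D)) :
    ⁅s, o⁆ ∈ (dat D).Q (prodA b k 10) :=
  let ⟨a1, a2, a3, a4⟩ := mk_spec hs.lt e
  let ⟨f, _, r, _⟩ := exists_ro ho
  c.memw h a1 a2 a3 (mu_lt f d) (a4 f) (r s d hs)

end Crd

theorem _root_.Cfsg.Lib.M5.St.oc0 (h : St D R t) : (dat D).Oc (A0 D) z := by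
  obtain ⟨b, c⟩ := h.exists_crd
  refine ⟨fun s hs h2 n a ha k => ?_, fun s hs h2 o ho => ?_, fun s₁ m₁ s₂ m₂ s₃ m₃ q₁ q₂ q₃ e₁ e₂ e₃ => ?_,
    fun s₁ m₁ s₂ m₂ s₃ m₃ q₁ q₂ q₃ e₁ e₂ e₃ => ?_, fun s₁ m₁ s₂ m₂ q₁ q₂ e₁ => ?_⟩
  · obtain ⟨d, r⟩ := c.exists_rc hs
    obtain ⟨l, hl, rfl⟩ := c.sur a ha
    have hl' : l < 512 := by
      obtain ⟨p, hp, e⟩ : ∃ p ∈ Q ⊓ 𝐂(E1 D), ⁅s, p⁆ = z := by
        by_contra! k'
        exact n (E1_le_A0 D (cen_cen D.lg D.es (E1_le D) (z_mem D) r.mem fun p hp => (commutatorElement_eq_one_iff_mul_comm.1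
          ((D.lg.mem_iff.1 (D.lg.commutator_mem r.mem hp.1)).resolve_right (k' p hp))).symm))
      have := k p (cen_A0 D ▸ hp.2)
      rw [e, Dat.b_comm (mem_centralizer_singleton_iff.1 (A0_le_cen D ha))] at this
      exact (c.mem_Q hl).1 ((h.memQ ha).2 this)
    refine (c.cls l hl).2 ?_
    rw [← (by decide +kernel : ∀ k < 512, qN (k % 256) = qN k) l hl']
    refine n_b1 r.lt (r.ne n) (r.sq h2) (Nat.mod_lt _ (by norm_num)) fun j hj => ?_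
    obtain ⟨o, ho, e⟩ := exists_ro' (D := D) (Nat.pow_lt_pow_right (n := 8) (by norm_num) hj : 2 ^ j < 256)
    have := (c.b_code hl' (mu_lt _ _) (e s d r)).2.1 (k o ho)
    by_cases a : l < 256
    · rwa [Nat.mod_eq_of_lt a]
    · rwa [bN_comm', ← bN_hi ((mu_lt _ _).trans (by norm_num)) (Nat.mod_lt _ (by norm_num)), bN_comm',
        show l % 256 + 256 = l by omega]
  · obtain ⟨d, r⟩ := c.exists_rc hs
    obtain ⟨e, he, a, -⟩ := exists_ro ho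
    have a1 := n_b2 he r.lt (r.sq h2)
    have a2 := mu_lt e d
    rcases c.eq_or (a s d r).1 a2 (a s d r).2 with k | k <;> rw [k]
    · exact (c.cls _ (by omega)).2 a1
    · exact (c.cls _ (by omega)).2 (((by decide +kernel : ∀ k < 256, qN (k + 256) = qN k) _ a2).trans a1)
  · obtain ⟨d₁, r₁⟩ := c.exists_rc m₁
    obtain ⟨d₂, r₂⟩ := c.exists_rc m₂
    obtain ⟨d₃, r₃⟩ := c.exists_rc m₃
    obtain ⟨k, ⟨a1, a2⟩, a3⟩ := (n_b35 r₁.lt (r₁.cm r₂ q₁ q₂ e₁)).2 d₃ (r₁.cm r₃ q₁ q₃ e₂) (r₂.cm r₃ q₂ q₃ e₃)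
    obtain ⟨b1, b2, b3, -⟩ := mk_spec r₁.lt a1
    obtain ⟨c1, c2, c3, c4⟩ := c.pt b1 b2 b3
    exact ⟨_, c1, c2, c3, c4, fun o ho => ⟨c.of_mk h r₁ a1 ho, c.of_mk h r₂ a2 ho, c.of_mk h r₃ a3 ho⟩⟩
  · obtain ⟨d₁, r₁⟩ := c.exists_rc m₁
    obtain ⟨d₂, r₂⟩ := c.exists_rc m₂
    obtain ⟨e, he, r₃, a⟩ := exists_ro m₃
    obtain ⟨k, ⟨a3, a1⟩, a2⟩ := n_b4 he (a q₃) r₁.lt (r₁.cm r₂ q₁ q₂ e₁) (r₃.eq_zero r₁ e₂) (r₃.eq_zero r₂ e₃)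
    obtain ⟨b1, b2, b3, b4⟩ := mf_spec he a3
    obtain ⟨c1, c2, c3, c4⟩ := c.pt b1 b2 b3
    refine ⟨_, c1, c2, c3, c4, fun o ho => ⟨c.of_mk h r₁ a1 ho, c.of_mk h r₂ a2 ho⟩, fun p hp => ?_⟩
    obtain ⟨d, r⟩ := c.exists_rc hp
    rw [← commutatorElement_inv]
    exact inv_mem (c.memw h b1 b2 b3 (mu_lt e d) (b4 d) (r₃ p d r))
  · obtain ⟨d₁, r₁⟩ := c.exists_rc m₁
    obtain ⟨d₂, r₂⟩ := c.exists_rc m₂
    obtain ⟨k, l, n, ⟨a1, a2⟩, a3, a4⟩ := (n_b35 r₁.lt (r₁.cm r₂ q₁ q₂ e₁)).1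
    obtain ⟨b1, b2, b3, -⟩ := mk_spec r₁.lt a1
    obtain ⟨b4, b5, b6, -⟩ := mk_spec r₁.lt a3
    obtain ⟨c1, c2, c3, c4⟩ := c.pt b1 b2 b3
    obtain ⟨c5, c6, c7, c8⟩ := c.pt b4 b5 b6
    refine ⟨_, c1, _, c5, c2, c6, c3, c7, c4, c8, fun e => n ((c.eq_iff (by omega) (by omega)).1 e).symm, fun e => ?_,
      fun o ho => ⟨c.of_mk h r₁ a1 ho, c.of_mk h r₂ a2 ho, c.of_mk h r₁ a3 ho, c.of_mk h r₂ a4 ho⟩⟩
    rw [← c.hz, ← c.mul, Nat.xor_comm, ← (by decide +kernel : ∀ m < 256, m + 256 = m ^^^ 256) k b1,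
      c.eq_iff (by omega) (by omega)] at e
    omega

theorem _root_.Cfsg.Lib.M5.St.oc' (h : St D R t) {A : Subgroup G} {u : G} (hA : (dat D).Ark A) (hu : u ∈ A)
    (hB : (dat D).B u) : (dat D).Oc A u := by
  obtain ⟨g, rfl, rfl⟩ := h.std hA hu hB
  exact (ax0 D h.card).oc_conj (B_z D) h.oc0 g

end Cfsg.Lib.ML
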