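import Cfsg.Agent.Lib.ML.VO1

/-!
# Maximal 2-local subgroups of the Monster: reading the octonion tables (helper10)
-/

set_option autoImplicit false
set_option maxRecDepth 100000

namespace Cfsg.Lib.ML

open Subgroup MulAction Cfsg.Lib.Leech Cfsg.Lib.ES Cfsg.Spor Cfsg.Lib.Mon Cfsg.Lib.Calc Cfsg.Lib.F2 Cfsg.Lib.M5

theorem appA_ind {P : ℕ → Prop} (h0 : P 0) (hx : ∀ a b, P a → P b → P (a ^^^ b)) {d C m : ℕ} (h : ∀ i < m, P (get d C i))
    (c : ℕ) : P (appA d C c m) := by
  induction m with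
  | zero => exact h0
  | succ m ih =>
    rw [appA_succ]
    refine hx _ _ ?_ (ih fun i hi => h i (by omega))
    split_ifs
    exacts [h m (by omega), h0]

theorem appA_low {d C c m : ℕ} (hc : c < 256) (hm : 8 ≤ m) : appA d C c m = appA d C c 8 := by
  induction m, hm using Nat.le_induction with
  | base => rfl
  | succ m hm ih =>
    rw [appA_succ, Nat.testBit_lt_two_pow (hc.trans_le (Nat.pow_le_pow_right (n := 2) (by norm_num) hm)), ih]; simp

theorem xor_lt {a b : ℕ} (ha : a < 256) (hb : b < 256) : a ^^^ b < 256 := Nat.xor_lt_two_pow (n := 8) ha hb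

theorem MU_lt : ∀ j < 8, ∀ i < 8, get 24 (get 192 MU j) i < 256 := by decide +kernel

theorem row_lt (e : ℕ) : ∀ i < 8, get 24 (row e) i < 256 :=
  appA_ind (P := fun X => ∀ i < 8, get 24 X i < 256) (fun i _ => by rw [get_zero]; norm_num)
    (fun a b ha hb i hi => by rw [get_xor]; exact xor_lt (ha i hi) (hb i hi)) MU_lt e

theorem appA_lt8 {X : ℕ} (h : ∀ i < 8, get 24 X i < 256) (c : ℕ) : appA 24 X c 8 < 256 :=
  appA_ind (P := (· < 256)) (by norm_num) (fun _ _ => xor_lt) h c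

theorem mu_lt (e c : ℕ) : mu e c < 256 := appA_lt8 (row_lt e) c

theorem bN_comm' (k l : ℕ) : bN k l = bN l k := by
  rw [bN, bN, Nat.xor_comm k l, Nat.xor_assoc, Nat.xor_assoc, Nat.xor_comm (qN k)]

theorem bN_zero' (k : ℕ) : bN k 0 = 0 := by
  rw [bN, Nat.xor_zero, Nat.xor_self, Nat.zero_xor]; decide +kernel

theorem bN_right {k a b : ℕ} (hk : k < 256) (ha : a < 256 ∧ bN k a = 0) (hb : b < 256 ∧ bN k b = 0) :
    a ^^^ b < 256 ∧ bN k (a ^^^ b) = 0 :=
  ⟨xor_lt ha.1 hb.1, by rw [bN_comm', bN_xor (by omega) (by omega) (by omega), bN_comm' a, bN_comm' b, ha.2, hb.2]; rfl⟩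

theorem lt_of_bit {T c k : ℕ} (h : (get 256 T c).testBit k = true) : k < 256 := by
  rw [testBit_get] at h
  simp only [Bool.and_eq_true, decide_eq_true_eq] at h
  exact h.1

theorem mk_spec {c k : ℕ} (hc : c < 256) (h : (get 256 mkT c).testBit k = true) :
    k < 256 ∧ k ≠ 0 ∧ qN k = 0 ∧ ∀ e, bN k (mu e c) = 0 := by
  have hk := lt_of_bit h
  have := chk_mk
  simp only [forceB_eq, allLt_iff, bor_eq_true, band_eq_true, blt_iff, beq_iff, bit_eq] at this
  obtain ⟨⟨a1, a2⟩, a3⟩ := (this c hc k hk).resolve_left (by simp [h])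
  refine ⟨hk, by omega, a2, fun e => ?_⟩
  refine (appA_ind (P := fun X => (∀ i < 8, get 24 X i < 256) ∧ bN k (appA 24 X c 8) = 0) ⟨fun i _ => ?_, ?_⟩
    (fun a b ha hb => ⟨fun i hi => ?_, ?_⟩) (fun j hj => ⟨MU_lt j hj, a3 j hj⟩) e).2
  · rw [get_zero]; norm_num
  · rw [appA_ind (P := (· = 0)) rfl (fun a b ha hb => by rw [ha, hb]; rfl) (fun i _ => get_zero _ _), bN_zero']
  · rw [get_xor]; exact xor_lt (ha.1 i hi) (hb.1 i hi)
  · rw [appA_xor_left]; exact (bN_right hk ⟨appA_lt8 ha.1 c, ha.2⟩ ⟨appA_lt8 hb.1 c, hb.2⟩).2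

theorem mf_spec {e k : ℕ} (he : e < 256) (h : (get 256 mfT e).testBit k = true) :
    k < 256 ∧ k ≠ 0 ∧ qN k = 0 ∧ ∀ c, bN k (mu e c) = 0 := by
  have hk := lt_of_bit h
  have := chk_mf
  simp only [forceB_eq, allLt_iff, bor_eq_true, band_eq_true, blt_iff, beq_iff, bit_eq] at this
  obtain ⟨⟨a1, a2⟩, a3⟩ := (this e he k hk).resolve_left (by simp [h])
  exact ⟨hk, by omega, a2, fun c => (appA_ind (P := fun y => y < 256 ∧ bN k y = 0) ⟨by norm_num, bN_zero' k⟩
    (fun _ _ => bN_right hk) (fun i hi => ⟨row_lt e i hi, a3 i hi⟩) c).2⟩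

theorem cm_spec {c d : ℕ} (hc : c < 256) (hd : d < 256) (h1 : qcT.testBit c = false) (h2 : qcT.testBit d = false)
    (h : bil (app 24 rM c) (app 24 rM d) = 0) : (get 256 cmT c).testBit d = true := by
  have := chk_cm
  simp only [forceB_eq, allLt_iff, bor_eq_true, blt_iff, bit_eq] at this
  exact (((this c hc).resolve_left (by simp [h1]) d hd).resolve_right
    (not_or.2 ⟨by simp [h2], fun a => a.ne' h⟩))

theorem exists_bit {X : ℕ} (h : 0 < X) : ∃ k, X.testBit k = true := Nat.exists_testBit_of_ne_zero h.ne'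

theorem exists_two_bits {X : ℕ} (h : 0 < X &&& (X - 1)) : ∃ k l, k ≠ l ∧ X.testBit k = true ∧ X.testBit l = true := by
  obtain ⟨k, hk⟩ := exists_bit h
  rw [Nat.testBit_and, Bool.and_eq_true] at hk
  by_contra! n
  have : X = 2 ^ k := Nat.eq_of_testBit_eq fun i => by
    rw [Nat.testBit_two_pow]
    by_cases e : k = i
    · simp [← e, hk.1]
    · simpa [e] using n k i e hk.1
  rw [this, Nat.testBit_two_pow_sub_one] at hk
  simp at hk

theorem n_b1 {c k : ℕ} (hc : c < 256) (h0 : c ≠ 0) (h1 : qcT.testBit c = false) (hk : k < 256) (h : ∀ j < 8, bN k (mu (2 ^ j) c) = 0) :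
    qN k = 0 := by
  have := chk_b1
  simp only [forceB_eq, allLt_iff, anyLt_iff, bor_eq_true, blt_iff, beq_iff, bit_eq] at this
  refine ((this c hc).resolve_left (by simp [h0, h1]) k hk).resolve_right fun ⟨j, hj, a⟩ => a.ne' ?_
  rw [get_pack (fun i hi => appA_lt8 (MU_lt i hi) c) hj, ← h j hj, mu,
    (by decide +kernel : ∀ j < 8, row (2 ^ j) = get 192 MU j) j hj]

theorem n_b2 {e c : ℕ} (he : e < 256) (hc : c < 256) (h1 : qcT.testBit c = false) : qN (mu e c) = 0 := by
  have := chk_b2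
  simp only [forceB_eq, allLt_iff, bor_eq_true, beq_iff, bit_eq] at this
  exact (this e he c hc).resolve_left (by simp [h1])

theorem n_b35 {a b : ℕ} (ha : a < 256) (h : (get 256 cmT a).testBit b = true) :
    (∃ k l, k ≠ l ∧ ((get 256 mkT a).testBit k = true ∧ (get 256 mkT b).testBit k = true) ∧
      (get 256 mkT a).testBit l = true ∧ (get 256 mkT b).testBit l = true) ∧
    ∀ c, (get 256 cmT a).testBit c = true → (get 256 cmT b).testBit c = true →
      ∃ k, ((get 256 mkT a).testBit k = true ∧ (get 256 mkT b).testBit k = true) ∧ (get 256 mkT c).testBit k = true := by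
  have := chk_b3
  simp only [forceB_eq, allLt_iff, bor_eq_true, band_eq_true, blt_iff, bit_eq, Nat.land_eq, Nat.sub_eq] at this
  obtain ⟨a1, a2⟩ := (this a ha b (lt_of_bit h)).resolve_left (by simp [h])
  refine ⟨by simpa only [Nat.testBit_and, Bool.and_eq_true] using exists_two_bits a1, fun c h1 h2 => ?_⟩
  simpa only [Nat.testBit_and, Bool.and_eq_true] using exists_bit ((a2 c (lt_of_bit h1)).resolve_left (by simp [h1, h2]))

theorem n_b4 {e a b : ℕ} (he : e < 256) (h1 : qeT.testBit e = false) (ha : a < 256) (h : (get 256 cmT a).testBit b = true)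
    (h2 : mu e a = 0) (h3 : mu e b = 0) :
    ∃ k, ((get 256 mfT e).testBit k = true ∧ (get 256 mkT a).testBit k = true) ∧ (get 256 mkT b).testBit k = true := by
  have := chk_b4
  have hb := lt_of_bit h
  simp only [forceB_eq, allLt_iff, bor_eq_true, blt_iff, bit_eq, Nat.land_eq, Nat.testBit_and, testBit_pack_one] at this
  rw [mu] at h2 h3
  simpa only [Nat.testBit_and, Bool.and_eq_true] using exists_bit ((((this e he).resolve_left (by simp [h1]) a ha).resolve_left
    (by simp [ha, h2]) b hb).resolve_left (by simp [hb, h3, h]))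

theorem tM_inj {k l : ℕ} (hk : k < 256) (hl : l < 256) (h : app 24 tM k = app 24 tM l) : k = l :=
  Nat.xor_eq_zero_iff.1 ((by decide +kernel : ∀ k < 256, app 24 tM k = 0 → k = 0) _ (xor_lt hk hl) (by rw [app_xor, h, Nat.xor_self]))

/-- `f` acts on the vectors with code `app 24 rM c` through `mu e` -/
def Mu (f : Co1) (e : ℕ) : Prop :=
  ∀ c < 256, ∀ v : L2, code2 v = app 24 rM c → code2 (f • v) = app 24 rM c ^^^ app 24 tM (mu e c)

theorem exists_fg : ∃ g : ℕ → Co1, ∀ i < 8, g i ∈ fixL w8L ∧ LRep 24 code2 (g i) (nth 0 fL i) := by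
  obtain ⟨k, h1, h2, -⟩ := exists_k
  have a : ∀ C ∈ fL, Good 24 code2 (⊤ : Subgroup Co1) C := fun C hC => by
    obtain ⟨C', h, rfl⟩ := (by decide +kernel : ∀ C ∈ fL, ∃ C' ∈ Co2.qL, C = mmul 24 kM (mmul 24 C' kI)) C hC
    exact Good.mul ⟨k, trivial, h1⟩ (Good.mul ((Co2.good_q C' h).mono le_top) ⟨_, trivial, h2⟩)
  have b := good_fix (S := w8L) a (by decide +kernel)
  choose! g hg using fun i (hi : i < 8) => b (nth 0 fL i) ((by decide +kernel : ∀ i < 8, nth 0 fL i ∈ fL) i hi)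
  exact ⟨g, hg⟩

theorem exists_mu : (∀ f ∈ fixL w8L, ∃ e < 256, Mu f e ∧ (f * f = 1 → qeT.testBit e = false)) ∧
    ∀ e < 256, ∃ f ∈ fixL w8L, Mu f e := by
  obtain ⟨g, hg⟩ := exists_fg
  have r (e : ℕ) : ∀ m ≤ 8, LRep 24 code2 (prodA g e m) (pm e m) := fun m hm => by
    induction m with
    | zero => exact LRep.one code2_lt
    | succ m ih =>
      change LRep 24 code2 (_ * _) (cnd (bit e m) (mmul 24 (nth 0 fL m) (pm e m)) (pm e m))
      rw [bit_eq]
      cases e.testBit m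
      · simpa using ih (by omega)
      · simpa using (hg m (by omega)).2.mul (ih (by omega))
  have hm (e : ℕ) : prodA g e 8 ∈ fixL w8L := prodA_mem fun i hi _ => (hg i hi).1
  have ch := chk_f
  simp only [forceB_eq, allLt_iff, bor_eq_true, band_eq_true, blt_iff, beq_iff, bit_eq, Nat.xor_eq] at ch
  have m1 : ∀ e < 256, Mu (prodA g e 8) e := fun e he c hc v hv => by
    rw [r e 8 le_rfl, hv, ← app_mmul, (ch e he).1, app_xor_left, app_mmul, mu, ← appA_low (m := 24) hc (by norm_num)]; rfl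
  have m2 : ∀ f e, Mu f e → f ∈ fixL w8L → Mu (s8 * f) e := fun f e h hf c hc v hv => by
    rw [mem_centralizer_iff.1 fix8.1.mem_centralizer f hf |>.symm, mul_smul]
    exact h c hc _ (by rw [lrep_s, hv, ← app_mmul, (by decide +kernel : mmul 24 sM rM = rM)])
  have m3 : ∀ f, ∀ e < 256, ∀ e' < 256, Mu f e → Mu f e' → e = e' := fun f e he e' he' h h' => by
    refine Nat.xor_eq_zero_iff.1 ((ch _ (xor_lt he he')).2.1.resolve_right (Nat.not_lt.2 (Nat.le_of_eq ?_)))
    rw [row, appA_xor, Nat.xor_eq_zero_iff]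
    refine eq_of_get_eq (w := 24) (n := 8) (appA_lt _ _ _ _) (appA_lt _ _ _ _) fun i hi => ?_
    have hc : 2 ^ i < 256 := Nat.pow_lt_pow_right (n := 8) (by norm_num) hi
    obtain ⟨v, hv⟩ := exists_code2 (app_lt 24 rM (2 ^ i))
    have := tM_inj (mu_lt _ _) (mu_lt _ _) (Nat.xor_right_inj.1 ((h _ hc v hv).symm.trans (h' _ hc v hv)))
    rwa [mu, mu, ← appA_low (m := 24) hc (by norm_num), ← appA_low (m := 24) hc (by norm_num), ← app, ← app,
      app_two_pow (by omega), app_two_pow (by omega)] at this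
  refine ⟨fun f hf => ?_, fun e he => ⟨_, hm e, m1 e he⟩⟩
  let φ : Fin 256 × Bool → fixL w8L := fun p => ⟨(if p.2 then s8 else 1) * prodA g p.1 8,
    mul_mem (by split_ifs; exacts [fix8.1.mem, one_mem _]) (hm _)⟩
  have m4 (p : Fin 256 × Bool) : Mu (φ p) p.1 := by
    obtain ⟨e, _ | _⟩ := p
    · simpa [φ] using m1 e e.2
    · simpa [φ] using m2 _ _ (m1 e e.2) (hm e)
  have hφ : Function.Injective φ := by
    rintro ⟨e, a⟩ ⟨e', a'⟩ h
    obtain rfl : e = e' := Fin.ext (m3 _ _ e.2 _ e'.2 (m4 (e, a)) (h ▸ m4 (e', a')))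
    have := mul_right_cancel (congrArg Subtype.val h)
    have n := fix8.1.ne_one
    cases a <;> cases a' <;> simp_all
  obtain ⟨p, hp⟩ := ((Nat.bijective_iff_injective_and_card φ).2 ⟨hφ, by simp [fix8.2.2.1]⟩).2 ⟨f, hf⟩
  obtain rfl : (φ p : Co1) = f := congrArg Subtype.val hp
  refine ⟨p.1, p.1.2, m4 p, fun h2 => ?_⟩
  have h3 : prodA g p.1 8 * prodA g p.1 8 = 1 := by
    obtain ⟨e, _ | _⟩ := p
    · simpa [φ] using h2
    · have := mem_centralizer_iff.1 fix8.1.mem_centralizer _ (hm e)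
      simp only [φ, if_true] at h2
      rwa [mul_assoc, ← mul_assoc (prodA _ _ _), this, ← mul_assoc, ← mul_assoc, fix8.1.mul_self, one_mul] at h2
  obtain ⟨v, hv⟩ := exists_code2 (c := 1)
  have h4 := ((r p.1 8 le_rfl).mul (r p.1 8 le_rfl)) v
  rw [h3, one_smul, hv, app_mmul] at h4
  simpa [← h4] using (ch _ p.1.2).2.2

end Cfsg.Lib.ML
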