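import Cfsg.Agent.Lib.ML.VM

/-!
# Maximal 2-local subgroups of the Monster: singular subgroups of order `4`, `8`, `16` (helper10)
-/

set_option autoImplicit false
set_option maxRecDepth 100000

namespace Cfsg.Lib.Griess.MT

open Finset Matrix Subgroup Cfsg.Lib.Leech Cfsg.Lib.Mon Cfsg.Lib.ES Cfsg.Lib.ML Cfsg.Lib.M5

/-- the word with a given mask (bit `i` is the point `Golay.gPt i`) -/
def wd (m : ℕ) : W := ind (Golay.G.toF m)

/-- `G.toF_xor`, `ind_symmDiff` -/
theorem wd_xor (a b : ℕ) : wd (a ^^^ b) = wd a + wd b :=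
  (congrArg ind (Golay.G.toF_xor a b)).trans (ind_symmDiff _ _)

/-- `Golay.mem_CW_of_isCW`, `mem_GC_iff` -/
theorem wd_mem {m : ℕ} (h : Golay.isCW m = true) : wd m ∈ golayCode :=
  mem_GC_iff.1 ⟨_, Golay.mem_CW.1 (Golay.mem_CW_of_isCW h), Golay.support₂_word _⟩

/-- `Golay.toF_mem_CW` -/
theorem wd_mem_iff {m : ℕ} (hm : m < 2 ^ 24) : wd m ∈ golayCode ↔ Golay.isCW m = true := by
  refine ⟨fun h => (Golay.toF_mem_CW hm).1 ?_, wd_mem⟩
  rw [← support_ind (Golay.G.toF m)]
  exact Golay.support₂_mem_supports.2 h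

/-- `support_ind`, `Golay.card_toF` -/
theorem wt_wd {m : ℕ} (hm : m < 2 ^ 24) : wt (wd m) = Golay.pc m := by
  rw [wt, wd, support_ind, Golay.card_toF hm]

theorem wd_mul (a b : ℕ) : wd a * wd b = wd (a &&& b) := by
  funext p
  have := Golay.G.toF_land a b
  rw [Nat.land_eq] at this
  simp only [wd, this, ind, Pi.mul_apply, mem_inter]
  by_cases h : p ∈ Golay.G.toF a <;> by_cases h' : p ∈ Golay.G.toF b <;> simp [h, h']

/-- `wt_mul_cast`, `wd_mul`, `wt_wd` -/
theorem wd_dot {a : ℕ} (ha : a < 2 ^ 24) (b : ℕ) : wd a ⬝ᵥ wd b = (Golay.pc (a &&& b) : ZMod 2) := by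
  rw [← wt_mul_cast, wd_mul, wt_wd (Nat.and_le_left.trans_lt ha)]

/-- `G.exists_toF`, `ind_support` -/
theorem exists_wd (δ : W) : ∃ m < 2 ^ 24, wd m = δ :=
  let ⟨m, hm, e⟩ := Golay.G.exists_toF (support₂ δ); ⟨m, hm, (congrArg ind e).trans (ind_support δ)⟩

/-- classes `4096 i` modulo the code and tables of elements of `M24` that fix the sextet of `15` and map the class to `16419` -/
def sgL : List (ℕ × ℕ) := [(60, 934658278036783575772165636348134583), (90, 972554588603571951662470962567724648), (102, 982766728948793883032210571950135606),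
  (126, 628350555604900628999898941737188069), (172, 976647473713906606042312759130378930), (180, 964841858526881773979335663711341205),
  (202, 924449512722448935893451107874351244), (210, 105891436310271884749887460082932011), (238, 222727653326758872909524713768847361),
  (282, 23819657471673239989883455574328503), (294, 26558950177243337527989907835104470), (344, 30759707749546545071301107806556749),
  (356, 981425713062257321252793557051756040), (380, 466641765558783325672385475996432050), (394, 444880732011169495014337326084541928),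
  (402, 354673874916879061808687069649767456), (430, 584971488389805373528773594258299179), (438, 943823233426499168467147253376267922),
  (456, 332578448995930838903720135881082039), (464, 819260011887567436383186353822028466), (500, 111127816281381812468144959567382245),
  (538, 113107757791346047734992013723422216), (550, 639408971103796378511879356365874891), (574, 758296092840330532733827058771264576),
  (600, 59317465573737292098069919107168997), (612, 980050232925895820122619294052099782), (650, 735466185622496344409606367014621420),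
  (658, 718663433593729272021488522959585315), (694, 549543121815987882555892283451391592), (712, 195379907315052079299616708663664165),
  (720, 964818478922543968915811132375423270), (748, 959532185282908470531298997938966031), (756, 67843693385300917675806606306258230),
  (792, 831242002766737918668322716156213431), (804, 916855595929272283262820152554012947), (828, 963962487939848087733617457780839860),
  (894, 799255705527418458935567565909429250), (904, 984818244535754528103549039458486304), (912, 101504877479213310936678243452471981),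
  (940, 984493369334060478447889424982281248), (1006, 651858490912184793150461151479566730), (1014, 346883174053212617776118973090413297),
  (2076, 279636617068915476281906451497191456), (2104, 971417182114610220033185368281424403), (2118, 935028872712930277352033192893829557),
  (2146, 761304186577163152650817748726126135), (2170, 295371056614008197792011201872929391), (2188, 16030934939965946836163855977468501),
  (2196, 473841934194406077433480759344291374), (2216, 339094520838518841054547550197291382), (2224, 766764466515864848393823673454169122),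
  (2254, 878799654348400439167294930988678416), (2262, 957139059022209929435872503500512580), (2290, 923627437425813555261569349902942707),
  (2310, 679727351080998169819968441896995841), (2334, 970442727715259196145866551778641923), (2338, 872974410151614699893671118875614757),
  (2362, 610272955748509643025474041237536865), (2372, 321525087306836962014797403677762067), (2396, 355717059869242723632052811578088780),
  (2400, 140781937022026225486991453354120788), (2454, 669808438213101254146569135927248622), (2474, 512821277961491720710428019712050350),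
  (2508, 797432184196316593095897346091816407), (2536, 554502478059154597521846954657611874), (2544, 9834062063230309978154314520250094),
  (2566, 589330252447441286380972786632537684), (2590, 927605880937941871770211366512057893), (2594, 963252674170052821100991001015269010),
  (2628, 8385911143167143241755182593491567), (2652, 8407355937252129753032870919855569), (2656, 965850053129701947987245895553529429),
  (2680, 875477166881663692598238913751523824), (2702, 967243368254080326691892915329390221), (2730, 485133035520457353832115481220251746),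
  (2738, 23738686339186281899546858814486711), (2772, 982939132794876541649637944966453547), (2792, 955882877469800243559800142753375947),
  (2820, 750946574046319250476802661919415761), (2848, 10605661382767568589038392668007625), (2872, 734999636627168552751878732328359346),
  (2910, 920884962111461193528232895601281056), (2938, 463534666552215064778025009701016237), (2956, 526394109380234123088842883917358795),
  (2964, 891952847995758434756821954458857158), (2992, 681491660746689331772958149671426763), (3022, 748387311315183466386474136102022358),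
  (3030, 932366186250460531180720362294490709), (3050, 227654928143089700304143361403820406), (3058, 112253217676529753072771466181030116)]

theorem wd_two_pow {a : ℕ} (ha : a < 24) : wd (2 ^ a) = e1 (Golay.G.pt a) := by
  funext p
  rw [wd, Golay.G.toF_two_pow ha, e1_apply, ind]
  simp only [mem_singleton]

theorem sW_wd {c : ℕ} (h : Mathieu.okM c = true) (m : ℕ) : sW (Mathieu.mk c) (wd m) = wd (Mathieu.img c m) := by
  have r : Mathieu.Rp _ c := Mathieu.mk_rep h
  rw [← ind_support (sW _ _), support_sW, wd, support_ind, r.smul_toF, wd]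

theorem sW_mem (σ : M24) {δ : W} (h : δ ∈ golayCode) : sW σ δ ∈ golayCode := (sC σ ⟨δ, h⟩).2

theorem exists_cls (ε : W) : ∃ i < 4096, ε + wd (i * 4096) ∈ golayCode := by
  obtain ⟨m, hm, rfl⟩ := exists_wd ε
  have c' := Golay.cw_spec (Golay.land_4095_lt m)
  generalize Golay.cw (Nat.land m 4095) = n at c'
  have k : (m ^^^ n) / 4096 * 4096 = m ^^^ n := Nat.div_mul_cancel (Nat.dvd_of_mod_eq_zero (by
    have := c'.2.2.1
    simp only [Nat.land_eq] at this
    rw [← Nat.and_two_pow_sub_one_eq_mod _ 12, Nat.and_xor_distrib_right]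
    exact Nat.xor_eq_zero_iff.2 this.symm))
  have l : m ^^^ n < 2 ^ 24 := Nat.xor_lt_two_pow hm c'.2.1
  refine ⟨(m ^^^ n) / 4096, by omega, ?_⟩
  rw [k, wd_xor, ← add_assoc, w_add_self, zero_add]
  exact wd_mem c'.2.2.2

open Golay Mathieu in
theorem sg_all : allB 4096 (fun i => force (i * 4096) fun v =>
    !(Nat.beq (pc v % 2) 0 && allL [5279, 622863, 3416079, 4196943, 8536111] fun O => Nat.beq (pc (O &&& v) % 2) 0) ||
    Nat.beq i 0 || isCW (v ^^^ 15) || anyL sgL (fun p => Nat.beq p.1 i) ||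
    anyB 24 fun a => anyB a fun b => isCW (v ^^^ (2 ^ a ^^^ 2 ^ b))) = true := by
  decide +kernel

open Golay Mathieu in
theorem sg_ok : allL sgL (fun p => okM p.2 && isCW (img p.2 15 ^^^ 15) && isCW (img p.2 (p.1 * 4096) ^^^ 16419)) = true := by
  decide +kernel

/-- As in `MT.mem_CW_of_fix` (Lib/MT/Fix): `ε = wd m` is congruent to `wd v`, `v = 4096 i`, `i < 4096`, modulo the code (the
hypotheses only depend on the class: code words are even and orthogonal).  The octads through `15` are `5279, 622863, 3416079,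
4196943, 8536111`.  `decide +kernel` (verified in Python): if `pc v` and the five `pc (v &&& O)` are even then `i = 0`, or
`isCW (v ^^^ 15)`, or `isCW (v ^^^ 2 ^ a ^^^ 2 ^ b)` for some `b < a < 24`, or `(i, c) ∈ sgL`; and for `(i, c) ∈ sgL`: `okM c`,
`isCW (img c 15 ^^^ 15)`, `isCW (img c (4096 * i) ^^^ 16419)`; `σ = Mathieu.mk c` (`mk_rep`, `Rp.smul_toF`, `support_sW`,
`sC`). -/
theorem exists_sigma {ε : W} (h : ε ⬝ᵥ 1 = 0) (hO : ∀ O : Cd, wt O = 8 → wd 15 * O = wd 15 → (O : W) ⬝ᵥ ε = 0) :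
    ε ∈ golayCode ∨ ε + wd 15 ∈ golayCode ∨ (∃ i j, i ≠ j ∧ ε + (e1 i + e1 j) ∈ golayCode) ∨
      ∃ σ : M24, sW σ (wd 15) + wd 15 ∈ golayCode ∧ sW σ ε + wd 16419 ∈ golayCode := by
  obtain ⟨i, hi, c⟩ := exists_cls ε
  have key {δ : W} (e : wd (i * 4096) + δ ∈ golayCode) : ε + δ ∈ golayCode := by
    have := add_mem c e
    rwa [add_assoc, ← add_assoc (wd _), w_add_self, zero_add] at this
  have dt (O : Cd) : (O : W) ⬝ᵥ wd (i * 4096) = (O : W) ⬝ᵥ ε := by
    have := dot_code O ⟨_, c⟩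
    rw [dotProduct_add] at this
    exact (z2_eq_iff.2 this).symm
  have ev' {n : ℕ} (e : (n : ZMod 2) = 0) : Nat.beq (n % 2) 0 = true :=
    Nat.beq_eq ▸ Nat.mod_eq_zero_of_dvd ((ZMod.natCast_eq_zero_iff _ _).1 e)
  have l : i * 4096 < 2 ^ 24 := by omega
  have p1 : Nat.beq (Golay.pc (i * 4096) % 2) 0 = true := by
    refine ev' ?_
    rw [← wt_wd l, wt_cast, dotProduct_comm, ← coe_Om, dt, coe_Om, dotProduct_comm, h]
  have p2 : Golay.allL [5279, 622863, 3416079, 4196943, 8536111]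
      (fun O => Nat.beq (Golay.pc (O &&& (i * 4096)) % 2) 0) = true := by
    refine Golay.allL_iff.2 fun O hO' => ev' ?_
    obtain ⟨a1, a2, a3, a4⟩ : O < 2 ^ 24 ∧ Golay.isCW O = true ∧ Golay.pc O = 8 ∧ 15 &&& O = 15 := by
      revert O; decide +kernel
    rw [← wd_dot a1]
    exact (dt ⟨_, wd_mem a2⟩).trans (hO ⟨_, wd_mem a2⟩ ((wt_wd a1).trans a3) ((wd_mul _ _).trans (congrArg wd a4)))
  have := Golay.allB_iff.1 sg_all i hi
  rw [Golay.force_eq, p1, p2] at this
  simp only [Bool.and_self, Bool.not_true, Bool.false_or, Bool.or_eq_true, Nat.beq_eq, Golay.anyL_iff,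
    Golay.anyB_iff] at this
  rcases this with ((rfl | e) | ⟨⟨j, t⟩, hp, rfl⟩) | ⟨a, ha, b, hb, e⟩
  · left
    have := key (δ := 0) (by rw [add_zero]; exact wd_mem (by decide +kernel))
    rwa [add_zero] at this
  · exact .inr (.inl (key (wd_xor _ _ ▸ wd_mem e)))
  · have := Golay.allL_iff.1 sg_ok _ hp
    simp only [Bool.and_eq_true] at this
    refine .inr (.inr (.inr ⟨Mathieu.mk t, ?_, ?_⟩))
    · rw [sW_wd this.1.1, ← wd_xor]; exact wd_mem this.1.2
    · have e1' := wd_mem this.2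
      rw [wd_xor, ← sW_wd this.1.1] at e1'
      have := add_mem (sW_mem (Mathieu.mk t) c) e1'
      rwa [sW_add, add_assoc, ← add_assoc (sW _ (wd _)), w_add_self, zero_add] at this
  · refine .inr (.inr (.inl ⟨Golay.G.pt a, Golay.G.pt b, fun e' => ?_, key ?_⟩))
    · exact hb.ne' (Mathieu.inj_pt _ ha _ (hb.trans ha) e')
    · rw [← wd_two_pow ha, ← wd_two_pow (hb.trans ha), ← wd_xor, ← wd_xor]; exact wd_mem e

/-- `Mathieu.exists_map4` to the points `0, 1, 2, 3`. -/
theorem exists_sigma4 {ε : W} (h : wt ε = 4) : ∃ σ : M24, sW σ ε = wd 15 := by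
  obtain ⟨a, b, c, d, h1, h2, h3, h4, h5, h6, e⟩ := card_eq_four.1 h
  obtain ⟨σ, e1, e2, e3, e4⟩ := Mathieu.exists_map4 (a := a) (b := b) (c := c) (d := d) (a' := some 0) (b' := some 1)
    (c' := some 2) (d' := some 3) (by simp [*]) (by decide)
  refine ⟨σ, ?_⟩
  rw [← ind_support (sW _ _), support_sW, e, wd, show Golay.G.toF 15 = {some 0, some 1, some 2, some 3} by decide +kernel]
  simp only [smul_finset_insert, smul_finset_singleton, Equiv.Perm.smul_def, e1, e2, e3, e4]

theorem exists_ne_fam {G ι : Type*} [Group G] [Finite ι] {U : Subgroup G} (f : ι → G) (h : Nat.card ι < Nat.card U) :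
    ∃ x ∈ U, ∀ i, x ≠ f i := by
  by_contra! hc
  choose k hk using hc
  exact h.not_ge (Nat.card_le_card_of_injective (fun x : U => k x x.2) fun a b e =>
    Subtype.ext ((hk a a.2).trans ((congrArg f e).trans (hk b b.2).symm)))

theorem le_of_fam {G ι : Type*} [Group G] [Finite ι] [Nonempty ι] {U U' : Subgroup G} {f : ι → G} (hf : Function.Injective f)
    (h : ∀ i, f i ∈ U) (h' : ∀ i, f i ∈ U') (e : Nat.card U = Nat.card ι) : U ≤ U' := fun x hx => by
  have : Finite U := Nat.finite_of_card_ne_zero (e ▸ Nat.card_pos.ne')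
  obtain ⟨i, hi⟩ := ((Nat.bijective_iff_injective_and_card fun i => (⟨f i, h i⟩ : U)).2
    ⟨fun a b e => hf (congrArg Subtype.val e), e.symm⟩).2 ⟨x, hx⟩
  exact (show f i = x from congrArg Subtype.val hi) ▸ h' i

theorem wt_15 : wt (wd 15) = 4 := (wt_wd (by decide)).trans (by decide +kernel)

theorem wd_ind {a b : ZMod 2} (h : a • wd 15 + b • wd 16419 ∈ golayCode) : a = 0 ∧ b = 0 := by
  rcases z2_cases a with rfl | rfl <;> rcases z2_cases b with rfl | rfl <;>
    simp only [zero_smul, one_smul, zero_add, add_zero, ← wd_xor] at h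
  · exact ⟨rfl, rfl⟩
  all_goals exact absurd ((wd_mem_iff (by decide)).1 h) (by decide +kernel)

theorem fam_even (a b : ZMod 2) : (a • wd 15 + b • wd 16419) ⬝ᵥ 1 = 0 := by
  rw [add_dotProduct, smul_dotProduct, smul_dotProduct, even_wt_iff.1 (wt_15 ▸ by decide),
    (even_wt_iff (u := wd 16419)).1 (by rw [wt_wd (by decide)]; decide +kernel), smul_zero, smul_zero, add_zero]

variable [MQ] [MN] {U : Subgroup Aut}

omit [MN] in
theorem ev_one : ev 0 0 0 = 1 := (ev_zero 0).trans bq_zero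

omit [MN] in
theorem ev_split (s n : ZMod 2) (δ : W) : ev s n δ = ev s n 0 * bq δ := by
  rw [← ev_zero, ev_mul _ _ _ _ (zero_dotProduct _), add_zero, add_zero, zero_add]

omit [MN] in
theorem ev0_mem (hz : zA ∈ U) (hw : wA ∈ U) (s n : ZMod 2) : ev s n 0 ∈ U := by
  rcases z2_cases s with rfl | rfl <;> rcases z2_cases n with rfl | rfl
  · exact ev_one ▸ U.one_mem
  · exact ev_w ▸ hw
  · exact ev_z ▸ hz
  · have := U.mul_mem hz hw
    rwa [← ev_z, ← ev_w, ev_mul _ _ _ _ (zero_dotProduct _), add_zero, zero_add, add_zero] at this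

omit [MN] in
theorem ev_mem_iff (hz : zA ∈ U) (hw : wA ∈ U) {s n : ZMod 2} {δ : W} : ev s n δ ∈ U ↔ bq δ ∈ U := by
  rw [ev_split, U.mul_mem_cancel_left (ev0_mem hz hw s n)]

omit [MN] in
theorem bq_congr {δ ε : W} (h : δ + ε ∈ golayCode) : bq δ = bq ε :=
  (ev_zero δ).symm.trans ((ev_congr h 0 0).trans (ev_zero ε))

omit [MN] in
theorem bq_smul_mem {δ : W} (h : bq δ ∈ U) (a : ZMod 2) : bq (a • δ) ∈ U := by
  rcases z2_cases a with rfl | rfl
  · rw [zero_smul, bq_zero]; exact U.one_mem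
  · rwa [one_smul]

omit [MN] in
theorem fam_inj {s n a b s' n' a' b' : ZMod 2}
    (h : ev s n (a • wd 15 + b • wd 16419) = ev s' n' (a' • wd 15 + b' • wd 16419)) : s = s' ∧ n = n' ∧ a = a' ∧ b = b' := by
  obtain ⟨h1, h2, h3⟩ := ev_eq_iff.1 h
  rw [add_add_add_comm, ← add_smul, ← add_smul] at h3
  exact ⟨h1, h2, z2_eq_iff.2 (wd_ind h3).1, z2_eq_iff.2 (wd_ind h3).2⟩

theorem zw_xp (hz : zA ∈ U) (hw : wA ∈ U) (σ : M24) : zA ∈ U ⋆⋆ (xp σ) ∧ wA ∈ U ⋆⋆ (xp σ) :=
  ⟨⟨_, hz, mul_inv_eq_of_eq_mul (mem_NV.1 (xp_mem σ)).1⟩, ⟨_, hw, mul_inv_eq_of_eq_mul (mem_NV.1 (xp_mem σ)).2⟩⟩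

theorem bq_xp {δ ε : W} (h : bq δ ∈ U) {σ : M24} (e : sW σ δ + ε ∈ golayCode) : bq ε ∈ U ⋆⋆ (xp σ) :=
  ⟨_, h, (xp_bq σ δ).trans (bq_congr e)⟩

theorem exists_ev (hU : gm.Sg U) (hz : zA ∈ U) (hw : wA ∈ U) {x : Aut} (hx : x ∈ U) :
    ∃ s n δ, δ ⬝ᵥ 1 = 0 ∧ x = ev s n δ :=
  mem_zw.1 ⟨(hU _ hz (gm_ax0.ne_one (B_z xd))).2 hx, (hU _ hw (gm_ax0.ne_one gm_Bw)).2 hx⟩

omit [MN] in
theorem not_duad (hU : gm.Sg U) {s n : ZMod 2} {δ : W} (hx : ev s n δ ∈ U) {i j : Pt} (h : i ≠ j) :
    δ + (e1 i + e1 j) ∉ golayCode := fun e =>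
  (ev_duad h s n).1 (hU _ (ev_congr e s n ▸ hx) (ev_duad h s n).2).1

/-- Take `u ≠ 1` in `U`, conjugate it to `zA`; take `v ∉ {1, zA}` in `U ≤ Q zA`, `v = qV x` is 2-central: `nm_of_isConj`,
`conj_w_of_nm`. -/
theorem step2 (hU : gm.Sg U) (h : 4 ≤ Nat.card U) : ∃ g, zA ∈ U ⋆⋆ g ∧ wA ∈ U ⋆⋆ g := by
  obtain ⟨u, hu, u1⟩ := exists_ne_fam (U := U) (fun _ : Unit => 1) (by rw [Nat.card_unique]; omega)
  obtain ⟨g, e⟩ := gm_ax0.tr (hU u hu (u1 ())).1 (B_z xd)
  have hz : zA ∈ U ⋆⋆ g := ⟨u, hu, e⟩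
  have hV := gm_ax0.sg_conj hU g
  obtain ⟨v, hv, v1⟩ := exists_ne_fam (U := U ⋆⋆ g) ![1, zA] (by rw [Dat.cj_card, Nat.card_fin]; omega)
  obtain ⟨x, rfl⟩ := gm_Qz.le ((hV _ hz (gm_ax0.ne_one (B_z xd))).2 hv)
  obtain ⟨_, e', hn⟩ := nm_of_isConj xd card_range_qV ⟨x, rfl⟩ (hV _ hv (v1 0)).1 (v1 1)
  obtain ⟨c, hc, e2⟩ := conj_w_of_nm hn (e'.symm.trans (piM_qV _))
  refine ⟨c⁻¹ * g, ?_⟩
  rw [← conj_conj']
  exact ⟨mem_conj'.2 (by rwa [inv_inv, mem_CZc.1 hc, mul_inv_cancel_right]), mem_conj'.2 (by rwa [inv_inv, e2])⟩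

/-- `U ≤ Q zA ⊓ Q wA`; some `x ∈ U` is none of the four `ev s n 0`; `x = ev s n δ` (`mem_zw`), `δ ∉ golayCode`, `even_cases`,
`ev_duad`: `x = ev s n ε` with `wt ε = 4`, `bq ε = ev s n 0 * x ∈ U`; `g = xp σ` (`exists_sigma4`, `xp_bq`, `xp_mem`). -/
theorem step3 (hU : gm.Sg U) (h : 8 ≤ Nat.card U) (hz : zA ∈ U) (hw : wA ∈ U) :
    ∃ g, zA ∈ U ⋆⋆ g ∧ wA ∈ U ⋆⋆ g ∧ bq (wd 15) ∈ U ⋆⋆ g := by
  obtain ⟨x, hx, hn⟩ := exists_ne_fam (U := U) (fun p : ZMod 2 × ZMod 2 => ev p.1 p.2 0)
    (by rw [Nat.card_prod, Nat.card_zmod]; omega)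
  obtain ⟨s, n, δ, hδ, rfl⟩ := exists_ev hU hz hw hx
  rcases even_cases hδ with e | ⟨i, j, hij, e⟩ | ⟨ε, h4, e⟩
  · exact (hn (s, n) (ev_congr (by rwa [add_zero]) s n)).elim
  · exact (not_duad hU hx hij e).elim
  · obtain ⟨σ, hσ⟩ := exists_sigma4 h4
    exact ⟨xp σ, (zw_xp hz hw σ).1, (zw_xp hz hw σ).2, bq_xp (bq_congr e ▸ (ev_mem_iff hz hw).1 hx)
      (by rw [hσ, w_add_self]; exact zero_mem _)⟩

/-- Some `x = ev s n ε ∈ U` is none of the eight `ev s n 0`, `ev s n (wd 15)`; `x ∈ Q (bq (wd 15))` (`hU`; `ev_zero`),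
`dot_of_mem`, `exists_sigma`, `ev_duad`; `g = xp σ` maps `bq (wd 15)` to itself and `bq ε ∈ U` to `bq (wd 16419)`. -/
theorem step4 (hU : gm.Sg U) (h : 16 ≤ Nat.card U) (hz : zA ∈ U) (hw : wA ∈ U) (ht : bq (wd 15) ∈ U) :
    ∃ g, zA ∈ U ⋆⋆ g ∧ wA ∈ U ⋆⋆ g ∧ bq (wd 15) ∈ U ⋆⋆ g ∧ bq (wd 16419) ∈ U ⋆⋆ g := by
  obtain ⟨x, hx, hn⟩ := exists_ne_fam (U := U) (fun p : ZMod 2 × ZMod 2 × ZMod 2 => ev p.1 p.2.1 (p.2.2 • wd 15))
    (by rw [Nat.card_prod, Nat.card_prod, Nat.card_zmod]; omega)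
  obtain ⟨s, n, ε, hε, rfl⟩ := exists_ev hU hz hw hx
  have t1 : bq (wd 15) ≠ 1 := fun e => absurd (wt_15.symm.trans (congrArg wt
    (eq_zero_of_wt_lt (bq_eq_one.1 e) (by rw [wt_15]; decide)))) (by rw [wt_zero]; decide)
  have hm : ev s n ε ∈ gm.Q (ev 0 0 (wd 15)) := by rw [ev_zero]; exact (hU _ ht t1).2 hx
  rcases exists_sigma hε fun O hO hs => dot_of_mem wt_15 (by rw [w_add_self]; exact zero_mem _) hO hs hε hm with
    e | e | ⟨i, j, hij, e⟩ | ⟨σ, e, e'⟩
  · exact (hn (s, n, 0) (ev_congr (by rwa [zero_smul, add_zero]) s n)).elim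
  · exact (hn (s, n, 1) (ev_congr (by rwa [one_smul]) s n)).elim
  · exact (not_duad hU hx hij e).elim
  · exact ⟨xp σ, (zw_xp hz hw σ).1, (zw_xp hz hw σ).2, bq_xp ht e, bq_xp ((ev_mem_iff hz hw).1 hx) e'⟩

/-- the standard singular `2 ^ 4` -/
def U4 : Subgroup Aut := closure {zA, wA, bq (wd 15), bq (wd 16419)}

omit [MN] in
theorem fam_mem (hz : zA ∈ U) (hw : wA ∈ U) (ht : bq (wd 15) ∈ U) (ht' : bq (wd 16419) ∈ U) (s n a b : ZMod 2) :
    ev s n (a • wd 15 + b • wd 16419) ∈ U := by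
  rw [ev_mem_iff hz hw, bq_add]
  exact U.mul_mem (bq_smul_mem ht a) (bq_smul_mem ht' b)

/-- closure induction (`ev_mul`, `ev_z`, `ev_w`, `ev_zero`; elements are involutions) -/
theorem mem_U4 {x : Aut} : x ∈ U4 ↔ ∃ s n a b : ZMod 2, x = ev s n (a • wd 15 + b • wd 16419) := by
  refine ⟨fun h => ?_, fun ⟨s, n, a, b, e⟩ => e ▸ fam_mem (subset_closure (by simp)) (subset_closure (by simp))
    (subset_closure (by simp)) (subset_closure (by simp)) s n a b⟩
  induction h using closure_induction with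
  | mem x hx =>
    rcases hx with rfl | rfl | rfl | rfl
    · exact ⟨1, 0, 0, 0, by rw [zero_smul, zero_smul, add_zero, ev_z]⟩
    · exact ⟨0, 1, 0, 0, by rw [zero_smul, zero_smul, add_zero, ev_w]⟩
    · exact ⟨0, 0, 1, 0, by rw [one_smul, zero_smul, add_zero, ev_zero]⟩
    · exact ⟨0, 0, 0, 1, by rw [one_smul, zero_smul, zero_add, ev_zero]⟩
  | one => exact ⟨0, 0, 0, 0, by rw [zero_smul, zero_smul, add_zero, ev_one]⟩
  | mul x y _ _ hx hy =>
    obtain ⟨s, n, a, b, rfl⟩ := hx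
    obtain ⟨s', n', a', b', rfl⟩ := hy
    exact ⟨s + s', n + n', a + a', b + b', by rw [ev_mul _ _ _ _ (fam_even a b), add_add_add_comm, add_smul, add_smul]⟩
  | inv x _ hx =>
    obtain ⟨s, n, a, b, rfl⟩ := hx
    exact ⟨s, n, a, b, inv_eq_of_mul_eq_one_right (by
      rw [ev_mul _ _ _ _ (fam_even a b), z2_add_self, z2_add_self, w_add_self, ev_one])⟩

/-- `mem_U4`, `ev_eq_iff`: `wd 15`, `wd 16419`, their sum have weight `4`. -/
theorem card_U4 : Nat.card U4 = 16 := by
  rw [← Nat.card_eq_of_bijective (fun p : ZMod 2 × ZMod 2 × ZMod 2 × ZMod 2 =>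
    (⟨_, mem_U4.2 ⟨p.1, p.2.1, p.2.2.1, p.2.2.2, rfl⟩⟩ : U4)) ⟨fun p q e => ?_, fun x => ?_⟩]
  · simp
  · obtain ⟨h1, h2, h3, h4⟩ := fam_inj (congrArg Subtype.val e)
    exact Prod.ext h1 (Prod.ext h2 (Prod.ext h3 h4))
  · obtain ⟨s, n, a, b, e⟩ := mem_U4.1 x.2
    exact ⟨(s, n, a, b), Subtype.ext e.symm⟩

theorem step23 (hU : gm.Sg U) (h : 8 ≤ Nat.card U) : ∃ g, zA ∈ U ⋆⋆ g ∧ wA ∈ U ⋆⋆ g ∧ bq (wd 15) ∈ U ⋆⋆ g := by
  obtain ⟨g, hz, hw⟩ := step2 hU (by omega)
  obtain ⟨k, hk⟩ := step3 (gm_ax0.sg_conj hU g) (by rwa [Dat.cj_card]) hz hw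
  exact ⟨k * g, by rwa [← conj_conj']⟩

/-- `step2`, `step3`, `step4` (`gm_ax0.sg_conj`, `conj_conj'`), `card_U4`. -/
theorem eq_U4 (hU : gm.Sg U) (h : Nat.card U = 16) : ∃ g, U ⋆⋆ g = U4 := by
  obtain ⟨g, hz, hw, ht⟩ := step23 hU (by omega)
  obtain ⟨k, h1, h2, h3, h4⟩ := step4 (gm_ax0.sg_conj hU g) (by rw [Dat.cj_card, h]) hz hw ht
  rw [conj_conj'] at h1 h2 h3 h4
  have e : Nat.card (U ⋆⋆ (k * g)) = 16 := by rw [Dat.cj_card, h]
  have : Finite (U ⋆⋆ (k * g)) := Nat.finite_of_card_ne_zero (by omega)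
  refine ⟨k * g, (eq_of_le_of_card_ge (fun x hx => ?_) (by rw [e, card_U4])).symm⟩
  obtain ⟨s, n, a, b, rfl⟩ := mem_U4.1 hx
  exact fam_mem h1 h2 h3 h4 s n a b

/-- Both groups are conjugate to `closure {zA, wA}`, `closure {zA, wA, bq (wd 15)}` or `U4`: these have at least `4`, `8`, `16`
elements (injective families `ev s n 0`, `ev s n (a • wd 15)`). -/
theorem gm_trS {U' : Subgroup Aut} (hU : gm.Sg U) (hU' : gm.Sg U') (e : Nat.card U = Nat.card U')
    (h : Nat.card U = 4 ∨ Nat.card U = 8 ∨ Nat.card U = 16) : ∃ g, U' = U ⋆⋆ g := by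
  suffices ∃ g g', U ⋆⋆ g = U' ⋆⋆ g' from
    let ⟨g, g', e⟩ := this; ⟨g'⁻¹ * g, by rw [← conj_conj', e, conj_conj', inv_mul_cancel, conj_one']⟩
  rcases h with h | h | h
  · obtain ⟨g, hz, hw⟩ := step2 hU h.ge
    obtain ⟨g', hz', hw'⟩ := step2 hU' (e ▸ h).ge
    have hf : Function.Injective fun p : ZMod 2 × ZMod 2 => ev p.1 p.2 0 := fun p q e =>
      Prod.ext (ev_eq_iff.1 e).1 (ev_eq_iff.1 e).2.1
    have c : Nat.card (ZMod 2 × ZMod 2) = 4 := by simp
    exact ⟨g, g', le_antisymm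
      (le_of_fam hf (fun p => ev0_mem hz hw _ _) (fun p => ev0_mem hz' hw' _ _) (by rw [Dat.cj_card, h, c]))
      (le_of_fam hf (fun p => ev0_mem hz' hw' _ _) (fun p => ev0_mem hz hw _ _) (by rw [Dat.cj_card, ← e, h, c]))⟩
  · obtain ⟨g, hz, hw, ht⟩ := step23 hU h.ge
    obtain ⟨g', hz', hw', ht'⟩ := step23 hU' (e ▸ h).ge
    have hf : Function.Injective fun p : ZMod 2 × ZMod 2 × ZMod 2 => ev p.1 p.2.1 (p.2.2 • wd 15) := fun p q e => by
      obtain ⟨h1, h2, h3, -⟩ := fam_inj (b := 0) (b' := 0) (by simpa only [zero_smul, add_zero] using e)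
      exact Prod.ext h1 (Prod.ext h2 h3)
    have c : Nat.card (ZMod 2 × ZMod 2 × ZMod 2) = 8 := by simp
    have m := fun p : ZMod 2 × ZMod 2 × ZMod 2 => (ev_mem_iff (s := p.1) (n := p.2.1) hz hw).2 (bq_smul_mem ht p.2.2)
    have m' := fun p : ZMod 2 × ZMod 2 × ZMod 2 => (ev_mem_iff (s := p.1) (n := p.2.1) hz' hw').2 (bq_smul_mem ht' p.2.2)
    exact ⟨g, g', le_antisymm (le_of_fam hf m m' (by rw [Dat.cj_card, h, c]))
      (le_of_fam hf m' m (by rw [Dat.cj_card, ← e, h, c]))⟩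
  · obtain ⟨g, hg⟩ := eq_U4 hU h
    obtain ⟨g', hg'⟩ := eq_U4 hU' (e ▸ h)
    exact ⟨g, g', hg.trans hg'.symm⟩

end Cfsg.Lib.Griess.MT
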