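import Cfsg.Agent.Lib.ML.VS

/-!
# Maximal 2-local subgroups of the Monster: the table of a singular `2 ^ 4` (helper10)

`T0 = wd 15`, `T1 = wd 16419`; `d 0 = bq (wd 3)`, `d 1 = bq (wd 576)`, `d 2 = bq (wd 65792)` (duads `{0,1}`, `{6,9}`, `{8,16}`),
`e = bq (wd 66371)`.  All data below are verified in Python; the four columns are `(a, b) = (0,0), (1,0), (0,1), (1,1)` for
`u = ev s n (a • T0 + b • T1)`.
-/

set_option autoImplicit false
set_option maxRecDepth 100000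

namespace Cfsg.Lib.Griess.MT

open Finset Matrix Subgroup Cfsg.Lib.Leech Cfsg.Lib.Mon Cfsg.Lib.ES Cfsg.Lib.ML Cfsg.Lib.M5

namespace VT

open Golay

/-- scalar multiple of a mask -/
def sc (a : ZMod 2) (m : ℕ) : ℕ := if a = 1 then m else 0

theorem wd_zero : wd 0 = 0 := by
  have := wd_xor 0 0
  rwa [w_add_self] at this

theorem wd_sc (a : ZMod 2) (m : ℕ) : wd (sc a m) = a • wd m := by
  rcases z2_cases a with rfl | rfl
  · rw [zero_smul]; exact wd_zero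
  · rw [one_smul]; rfl

theorem wd_full : wd 16777215 = 1 := by
  funext p
  simp [wd, ind, Golay.toF_full]

theorem wd_apply {m i : ℕ} (hi : i < 24) (h : m.testBit i = true) : wd m (G.pt i) = 1 :=
  if_pos (G.mem_toF.2 (by rwa [G.idx_pt i hi]))

theorem wd_pow {i : ℕ} (hi : i < 24) : wd (2 ^ i) = e1 (G.pt i) := by
  funext p
  rw [wd, G.toF_two_pow hi, e1_apply]
  simp [ind]

theorem pt_ne {i j : ℕ} (hi : i < 24) (hj : j < 24) (h : i ≠ j) : G.pt i ≠ G.pt j := fun e =>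
  h ((G.idx_pt i hi).symm.trans ((congrArg G.idx e).trans (G.idx_pt j hj)))

theorem dot_iff {a : ℕ} (ha : a < 2 ^ 24) (b : ℕ) : wd a ⬝ᵥ wd b = 0 ↔ pc (a &&& b) % 2 = 0 := by
  rw [wd_dot ha, ZMod.natCast_eq_zero_iff, Nat.dvd_iff_mod_eq_zero]

theorem even {a : ℕ} (h : a < 2 ^ 24 ∧ pc (a &&& 16777215) % 2 = 0) : wd a ⬝ᵥ 1 = 0 := by
  rw [← wd_full]; exact (dot_iff h.1 _).2 h.2

theorem add_mem {a b : ℕ} (h : isCW (a ^^^ b) = true) : wd a + wd b ∈ golayCode := wd_xor a b ▸ wd_mem h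

/-- the duads -/
def dm : Fin 3 → ℕ := ![3, 576, 65792]

/-- the masks of `U4` -/
def um (a b : ZMod 2) : ℕ := sc a 15 ^^^ sc b 16419

/-- tetrads -/
def TL : List ℕ := [15, 4196928, 622848, 16419, 1728, 336128, 8519692, 8536096, 66368, 557632, 270912, 3146304, 4262144, 66944,
  69904, 65795, 557059, 270339, 3145731, 65804, 82208, 8585472, 579, 4196355, 1155, 4115, 588, 16992, 8520256]

/-- tetrads with an octad -/
def PL : List (ℕ × ℕ) := [(66368, 213833), (147462, 421910), (66944, 198058), (69904, 201013), (3600, 69395), (6784, 72588),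
  (2256, 84464), (7232, 277580), (579, 1647171), (588, 1090380), (1155, 1836419), (1164, 1410188), (3152, 150618), (6336, 153797),
  (2704, 133817), (7680, 138790), (3152, 1584464), (6336, 1161408), (2704, 1903248), (7680, 1351424)]

/-- `d` is a duad inside a tetrad congruent to `m` -/
abbrev In (m d : ℕ) : Prop := ∃ T ∈ TL, T < 2 ^ 24 ∧ pc T = 4 ∧ isCW (m ^^^ T) = true ∧
  ∃ i < 24, T.testBit i = true ∧ ∃ j < 24, T.testBit j = true ∧ i ≠ j ∧ d = 2 ^ i ^^^ 2 ^ j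

/-- an octad through a tetrad congruent to `m` is odd on `d` -/
abbrev Out (m d : ℕ) : Prop := (d < 2 ^ 24 ∧ pc (d &&& 16777215) % 2 = 0) ∧ ∃ p ∈ PL, p.1 < 2 ^ 24 ∧ pc p.1 = 4 ∧
  isCW (m ^^^ p.1) = true ∧ isCW p.2 = true ∧ pc p.2 = 8 ∧ p.1 &&& p.2 = p.1 ∧ pc (p.2 &&& d) % 2 ≠ 0

variable [MQ]

theorem mul {a : ℕ} (h : a < 2 ^ 24 ∧ pc (a &&& 16777215) % 2 = 0) (s n : ZMod 2) (b : ℕ) :
    bq (wd a) * ev s n (wd b) = ev s n (wd (a ^^^ b)) := by
  rw [← ev_zero, ev_mul _ _ _ _ (even h), zero_add, zero_add, wd_xor]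

theorem mul' {a : ℕ} (h : a < 2 ^ 24 ∧ pc (a &&& 16777215) % 2 = 0) (b : ℕ) : bq (wd a) * bq (wd b) = bq (wd (a ^^^ b)) := by
  rw [← ev_zero (wd b), mul h, ev_zero]

theorem duad {m : ℕ} (h : ∃ i < 24, ∃ j < 24, i ≠ j ∧ isCW (m ^^^ (2 ^ i ^^^ 2 ^ j)) = true) (s n : ZMod 2) :
    ¬ gm.B (ev s n (wd m)) ∧ ev s n (wd m) ≠ 1 := by
  obtain ⟨i, hi, j, hj, ne, e⟩ := h
  rw [ev_congr (add_mem e), wd_xor, wd_pow hi, wd_pow hj]
  exact ev_duad (pt_ne hi hj ne) s n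

variable [MN]

theorem mem {m d : ℕ} (h : In m d) (s n : ZMod 2) : bq (wd d) ∈ gm.Q (ev s n (wd m)) := by
  obtain ⟨T, -, h1, h2, h3, i, hi, ti, j, hj, tj, ne, rfl⟩ := h
  rw [wd_xor, wd_pow hi, wd_pow hj]
  exact duad_mem ((wt_wd h1).trans h2) (add_mem h3) (pt_ne hi hj ne) (wd_apply hi ti) (wd_apply hj tj) s n

theorem mem' {m d : ℕ} (h : In m d) : bq (wd d) ∈ gm.Q (bq (wd m)) := ev_zero (wd m) ▸ mem h 0 0

theorem dot {m T O : ℕ} (h : T < 2 ^ 24 ∧ pc T = 4 ∧ isCW (m ^^^ T) = true ∧ isCW O = true ∧ pc O = 8 ∧ T &&& O = T)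
    {s n t k : ZMod 2} {ε : W} (he : ε ⬝ᵥ 1 = 0) (hm : ev t k ε ∈ gm.Q (ev s n (wd m))) : wd O ⬝ᵥ ε = 0 := by
  obtain ⟨h1, h2, h3, h4, h5, h6⟩ := h
  exact dot_of_mem (O := ⟨wd O, wd_mem h4⟩) ((wt_wd h1).trans h2) (add_mem h3) ((wt_wd (lt_of_isCW h4)).trans h5)
    (by rw [wd_mul, h6]) he hm

theorem out {m d : ℕ} (h : Out m d) (s n : ZMod 2) : gm.B (ev s n (wd m)) ∧ bq (wd d) ∉ gm.Q (ev s n (wd m)) := by
  obtain ⟨hd, p, -, h1, h2, h3, h4, h5, h6, h7⟩ := h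
  refine ⟨ev_congr (add_mem h3) s n ▸ ev_tet ((wt_wd h1).trans h2) s n, fun e => h7 ?_⟩
  exact (dot_iff (lt_of_isCW h4) d).1 (dot ⟨h1, h2, h3, h4, h5, h6⟩ (even hd) (ev_zero (wd d) ▸ e))

theorem zw {a : ℕ} (h : a < 2 ^ 24 ∧ pc (a &&& 16777215) % 2 = 0) : bq (wd a) ∈ gm.Q zA ∧ bq (wd a) ∈ gm.Q wA :=
  mem_zw.2 ⟨0, 0, _, even h, (ev_zero _).symm⟩

theorem tet {a : ℕ} (h : a < 2 ^ 24 ∧ pc a = 4) : gm.B (bq (wd a)) := ev_zero (wd a) ▸ ev_tet ((wt_wd h.1).trans h.2) 0 0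

theorem memU {x : Aut} : x ∈ U4 ↔ ∃ s n a b : ZMod 2, x = ev s n (wd (um a b)) := by
  simp only [mem_U4, um, wd_xor, wd_sc]

end VT

open VT Golay in
/-- If `ε` is orthogonal to `1` and to the octads `5279, 622863, 3416079, 4196943` (they contain `15`), `18147, 337856` (they
contain the tetrad `1728 ≡ 16419`), it is congruent to a combination of `T0, T1, d0, d1, d2`: the coefficients are the products
with the dual code words `1282008, 1188915, 198058, 69395, 1090380`; the twelve code words span the code (`mem_code_of_dot`,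
`add_induction`; or reduce `ε` to a class `4096 i` as in `exists_sigma` and `decide +kernel`). -/
theorem cov_aux {ε : W} (h : ε ⬝ᵥ 1 = 0) (hO : ∀ m ∈ [5279, 622863, 3416079, 4196943, 18147, 337856], wd m ⬝ᵥ ε = 0) :
    ∃ a b c₀ c₁ c₂ : ZMod 2, ε + (a • wd 15 + b • wd 16419 + c₀ • wd 3 + c₁ • wd 576 + c₂ • wd 65792) ∈ golayCode := by
  obtain ⟨m, hm, rfl⟩ := exists_wd ε
  have c' := cw_spec (land_4095_lt m)
  generalize cw (Nat.land m 4095) = n at c'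
  have c : wd n ∈ golayCode := wd_mem c'.2.2.2
  have k : (m ^^^ n) / 4096 * 4096 = m ^^^ n := Nat.div_mul_cancel (Nat.dvd_of_mod_eq_zero (by
    have := c'.2.2.1
    simp only [Nat.land_eq] at this ⊢
    rw [← Nat.and_two_pow_sub_one_eq_mod _ 12, Nat.and_xor_distrib_right]
    exact Nat.xor_eq_zero_iff.2 this.symm))
  have l : m ^^^ n < 2 ^ 24 := Nat.xor_lt_two_pow hm c'.2.1
  have e : ∀ O ∈ [16777215, 5279, 622863, 3416079, 4196943, 18147, 337856], pc (O &&& (m ^^^ n)) % 2 = 0 := fun O hO' => by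
    have i : isCW O = true := by revert O; decide +kernel
    rw [← dot_iff (lt_of_isCW i), wd_xor, dotProduct_add, dot_code ⟨_, wd_mem i⟩ ⟨_, c⟩, add_zero]
    rcases List.mem_cons.1 hO' with rfl | hO'
    · rw [wd_full, dotProduct_comm, h]
    · exact hO O hO'
  have := allB_iff.1 (by decide +kernel : allB 4096 (fun i => force (i * 4096) fun v =>
    !([16777215, 5279, 622863, 3416079, 4196943, 18147, 337856].all fun O => decide (pc (O &&& v) % 2 = 0)) || decide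
      (∃ a b c₀ c₁ c₂ : ZMod 2, isCW (v ^^^ (sc a 15 ^^^ sc b 16419 ^^^ sc c₀ 3 ^^^ sc c₁ 576 ^^^ sc c₂ 65792)) = true)) = true)
    ((m ^^^ n) / 4096) (by omega)
  rw [force_eq, k, List.all_eq_true.2 fun O hO => decide_eq_true (e O hO), Bool.not_true, Bool.false_or, decide_eq_true_iff] at this
  obtain ⟨a, b, c₀, c₁, c₂, h'⟩ := this
  refine ⟨a, b, c₀, c₁, c₂, ?_⟩
  have := golayCode.add_mem (VT.add_mem h') c
  simp only [wd_xor, wd_sc] at this
  rwa [add_right_comm, add_assoc (wd m), w_add_self, add_zero] at this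

variable [MQ] [MN]

/-- `gm_ax0.sg_closure`: the generators are 2-central (`B_z`, `gm_Bw`, `ev_tet`), lie in `Q zA ∩ Q wA` (`mem_zw`);
`zA, wA ∈ Q (bq T)` (`Ax0.sym`); `bq T0 = bq {0,1} * bq {2,3}` (`{2,3} ⊆ 8519692 ≡ T1`), `bq T1 = bq {0,1} * bq {5,14}`
(`{5,14} ⊆ 8536096 ≡ T0`), `duad_mem`. -/
theorem sg_U4 : gm.Sg U4 := by
  have b0 : gm.B (bq (wd 15)) := VT.tet (by decide +kernel)
  have b1 : gm.B (bq (wd 16419)) := VT.tet (by decide +kernel)
  have z0 := VT.zw (a := 15) (by decide +kernel)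
  have z1 := VT.zw (a := 16419) (by decide +kernel)
  have zz := mem_zw.2 ⟨1, 0, 0, zero_dotProduct _, ev_z.symm⟩
  have ww := mem_zw.2 ⟨0, 1, 0, zero_dotProduct _, ev_w.symm⟩
  refine gm_ax0.sg_closure ?_ ?_
  · rintro u (rfl | rfl | rfl | rfl)
    exacts [B_z xd, gm_Bw, b0, b1]
  · rintro u (rfl | rfl | rfl | rfl) v (rfl | rfl | rfl | rfl)
    exacts [zz.1, ww.1, z0.1, z1.1, zz.2, ww.2, z0.2, z1.2, gm_ax0.sym (B_z xd) b0 z0.1, gm_ax0.sym gm_Bw b0 z0.2,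
      gm_ax0.self_mem b0, VT.mul' (a := 3) (by decide +kernel) 16416 ▸
        mul_mem (VT.mem' (by decide +kernel)) (VT.mem' (by decide +kernel)),
      gm_ax0.sym (B_z xd) b1 z1.1, gm_ax0.sym gm_Bw b1 z1.2, VT.mul' (a := 3) (by decide +kernel) 12 ▸
        mul_mem (VT.mem' (by decide +kernel)) (VT.mem' (by decide +kernel)), gm_ax0.self_mem b1]

/-- Closure induction on `u ∈ U4` for `u = 1 ∨ x ∈ Q u` (`sg_U4`, `gm_ax0.inf`). -/
theorem mem_QU4 {x : Aut} : x ∈ gm.QU U4 ↔ x ∈ gm.Q zA ∧ x ∈ gm.Q wA ∧ x ∈ gm.Q (bq (wd 15)) ∧ x ∈ gm.Q (bq (wd 16419)) := by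
  rw [gm.mem_QU]
  refine ⟨fun h => ?_, fun ⟨h1, h2, h3, h4⟩ u hu => ?_⟩
  · exact ⟨h _ (subset_closure (by simp)) (gm_ax0.ne_one (B_z xd)), h _ (subset_closure (by simp)) (gm_ax0.ne_one gm_Bw),
      h _ (subset_closure (by simp)) (gm_ax0.ne_one (VT.tet (by decide +kernel))),
      h _ (subset_closure (by simp)) (gm_ax0.ne_one (VT.tet (by decide +kernel)))⟩
  induction hu using closure_induction with
  | mem u hu =>
    rcases hu with rfl | rfl | rfl | rfl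
    exacts [fun _ => h1, fun _ => h2, fun _ => h3, fun _ => h4]
  | one => exact fun e => absurd rfl e
  | mul u v hu hv iu iv =>
    intro n
    by_cases u1 : u = 1
    · rw [u1, one_mul] at n ⊢
      exact iv n
    by_cases v1 : v = 1
    · rw [v1, mul_one] at n ⊢
      exact iu n
    exact gm_ax0.inf (sg_U4 u hu u1).1 (sg_U4 v hv v1).1 ((sg_U4 u hu u1).2 hv)
      (fun e => n (by rw [e]; exact gm_ax0.sg_sq sg_U4 hu)) (iu u1) (iv v1)
  | inv u hu iu => rwa [inv_eq_of_mul_eq_one_right (gm_ax0.sg_sq sg_U4 hu)]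

/-- `mem`: `mem_QU4`, `duad_mem` with the tetrads `15, 4196928, 622848 ≡ T0` and `16419, 1728, 336128 ≡ T1`.
`cov`: `mem_QU4`, `mem_zw`, `dot_of_mem`, `cov_aux`, `ev_congr`, `ev_mul`, `mem_U4` (eight cases for `c₀, c₁, c₂`).
`nB`: `ev_duad`; `d i + u` is congruent to the duads `{0,1},{2,3},{5,14},{17,23}`; `{6,9},{11,22},{7,10},{4,12}`;
`{8,16},{15,19},{13,18},{20,21}`.
`c1`: `ev_tet`, `duad_mem`, `dot_of_mem`.  Tetrads `≡ d i + e + u` that contain `d j`: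
`i = 0`: `j = 1`: `66368, 557632, 270912, 3146304`; `j = 2`: `66368, 4262144, 66944, 69904`;
`i = 1`: `j = 0`: `65795, 557059, 270339, 3145731`; `j = 2`: `65795, 65804, 82208, 8585472`;
`i = 2`: `j = 0`: `579, 4196355, 1155, 4115`; `j = 1`: `579, 588, 16992, 8520256`.
Pairs (tetrad `≡ d i + e + u`, octad through it that is odd on `d i`):
`i = 0`: `(66368, 213833), (147462, 421910), (66944, 198058), (69904, 201013)`;
`i = 1`: `(3600, 69395), (6784, 72588), (2256, 84464), (7232, 277580)`;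
`i = 2`: `(579, 1647171), (588, 1090380), (1155, 1836419), (1164, 1410188)`.
`c0`: pairs (tetrad `≡ e + u`, octad odd on `d j`): `j = 0, 1`: `(3152, 150618), (6336, 153797), (2704, 133817), (7680, 138790)`;
`j = 2`: `(3152, 1584464), (6336, 1161408), (2704, 1903248), (7680, 1351424)`.
(Best state mask versions of `ev_duad`, `ev_tet`, `duad_mem`, `dot_of_mem` with one Boolean hypothesis first.) -/
theorem tab_U4 : gm.Tab U4 ![bq (wd 3), bq (wd 576), bq (wd 65792)] (bq (wd 66371)) := by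
  have hd : ∀ i, ![bq (wd 3), bq (wd 576), bq (wd 65792)] i = bq (wd (VT.dm i)) := fun i => by fin_cases i <;> rfl
  have ed : ∀ i, VT.dm i < 2 ^ 24 ∧ Golay.pc (VT.dm i &&& 16777215) % 2 = 0 := by decide +kernel
  have ee : ∀ i, VT.dm i ^^^ 66371 < 2 ^ 24 ∧ Golay.pc ((VT.dm i ^^^ 66371) &&& 16777215) % 2 = 0 := by decide +kernel
  have e0 : 66371 < 2 ^ 24 ∧ Golay.pc (66371 &&& 16777215) % 2 = 0 := by decide +kernel
  refine ⟨?_, fun i => ?_, fun x hx => ?_, fun i u hu => ?_, fun i u hu => ?_, fun u hu => ?_⟩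
  · rw [hd, hd, hd, VT.mul' (ed 0), VT.mul' (by decide +kernel)]
    rfl
  · rw [hd]
    exact mem_QU4.2 ⟨(VT.zw (ed i)).1, (VT.zw (ed i)).2, VT.mem' (by revert i; decide +kernel),
      VT.mem' (by revert i; decide +kernel)⟩
  · obtain ⟨h1, h2, h3, h4⟩ := mem_QU4.1 hx
    obtain ⟨s, n, ε, he, rfl⟩ := mem_zw.1 ⟨h1, h2⟩
    rw [← ev_zero] at h3 h4
    obtain ⟨a, b, c₀, c₁, c₂, h⟩ := cov_aux he (by
      simp only [List.mem_cons, List.not_mem_nil, or_false, forall_eq_or_imp, forall_eq]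
      exact ⟨VT.dot (T := 15) (by decide +kernel) he h3, VT.dot (T := 15) (by decide +kernel) he h3,
        VT.dot (T := 15) (by decide +kernel) he h3, VT.dot (T := 15) (by decide +kernel) he h3,
        VT.dot (T := 1728) (by decide +kernel) he h4, VT.dot (T := 1728) (by decide +kernel) he h4⟩)
    have e : ev s n ε = ev s n (wd ((VT.sc c₀ 3 ^^^ VT.sc c₁ 576 ^^^ VT.sc c₂ 65792) ^^^ VT.um a b)) := by
      rw [ev_congr h]
      simp only [VT.um, wd_xor, VT.wd_sc]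
      congr 1
      abel
    have m : ev s n (wd (VT.um a b)) ∈ U4 := VT.memU.2 ⟨s, n, a, b, rfl⟩
    have k : ∀ c₀ c₁ c₂ : ZMod 2, ∀ C, C = VT.sc c₀ 3 ^^^ VT.sc c₁ 576 ^^^ VT.sc c₂ 65792 →
        C = 0 ∨ (∃ i, C = VT.dm i) ∨ (∃ i, C = VT.dm i ^^^ 66371) ∨ C = 66371 := by
      simp only [forall_eq]
      decide +kernel
    rw [e]
    rcases k c₀ c₁ c₂ _ rfl with h | ⟨i, h⟩ | ⟨i, h⟩ | h <;> rw [h]
    · exact .inl (by rwa [Nat.zero_xor])
    · exact .inr (.inl ⟨i, _, m, by rw [hd, VT.mul (ed i)]⟩)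
    · exact .inr (.inr (.inl ⟨i, _, m, by rw [hd, VT.mul' (ed i), VT.mul (ee i)]⟩))
    · exact .inr (.inr (.inr ⟨_, m, by rw [VT.mul e0]⟩))
  · obtain ⟨s, n, a, b, rfl⟩ := VT.memU.1 hu
    rw [hd, VT.mul (ed i)]
    exact VT.duad (by clear hu; revert i a b; decide +kernel) s n
  · obtain ⟨s, n, a, b, rfl⟩ := VT.memU.1 hu
    rw [hd, VT.mul' (ed i), VT.mul (ee i)]
    have o := VT.out (m := VT.dm i ^^^ 66371 ^^^ VT.um a b) (d := VT.dm i) (by clear hu; revert i a b; decide +kernel) s n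
    refine ⟨o.1, fun j => ?_⟩
    rw [hd]
    exact ⟨fun e c => o.2 (c ▸ e), fun c => VT.mem (by clear hu o; revert i j a b; decide +kernel) s n⟩
  · obtain ⟨s, n, a, b, rfl⟩ := VT.memU.1 hu
    rw [VT.mul e0]
    have o := fun j => VT.out (m := 66371 ^^^ VT.um a b) (d := VT.dm j) (by clear hu; revert j a b; decide +kernel) s n
    exact ⟨(o 0).1, fun j => hd j ▸ (o j).2⟩

/-- `eq_U4`, `tab_U4`, `gm_ax0.tab_conj sg_U4`, `conj_conj'`. -/
theorem gm_tab {U : Subgroup Aut} (hU : gm.Sg U) (h : Nat.card U = 16) : ∃ d e, gm.Tab U d e := by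
  obtain ⟨g, e⟩ := eq_U4 hU h
  have := gm_ax0.tab_conj sg_U4 tab_U4 g⁻¹
  rw [← e, conj_conj', inv_mul_cancel, conj_one'] at this
  exact ⟨_, _, this⟩

end Cfsg.Lib.Griess.MT
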