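import Cfsg.Agent.Lib.ML.VDef

/-!
# Maximal 2-local subgroups of the Monster: pure subgroups of `Q` (helper10)
-/

set_option autoImplicit false

namespace Cfsg.Lib.ML

open Subgroup MulAction Cfsg.Lib.Leech Cfsg.Lib.ES Cfsg.Spor Cfsg.Lib.Mon Cfsg.Lib.M5

theorem vu_neg (w : leechLattice) : ((-w : leechLattice) : L2) = w := L2_eq_iff.2 (code_neg w)

/-- `nm(v + w) + nm(v - w) = 128`, so one of them is `≤ 64`, and it is congruent to `s` modulo `2Λ`: `nm_eq_of_mk` gives norm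
`32` (`sqNorm_add`, `sqNorm_sub`; `(-w : L2) = w`). -/
theorem dot_of_short {v w s : leechLattice} (hv : nm(v) = 32) (hw : nm(w) = 32) (hs : nm(s) = 32)
    (e : (v : L2) + (w : L2) = (s : L2)) : dt(v, w) = 16 ∨ dt(v, w) = -16 := by
  have a := sqNorm_add (v : GolayPt → ℤ) w
  have b := sqNorm_add (v : GolayPt → ℤ) (-w : leechLattice)
  rw [AddSubgroup.coe_neg, sqNorm_neg, dot_neg_right] at b
  rcases le_total dt(v, w) 0 with c | c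
  · have := nm_eq_of_mk (x := v + w) (y := s) (by rw [AddSubgroup.coe_add]; omega) (by omega) e
    rw [AddSubgroup.coe_add] at this
    omega
  · have := nm_eq_of_mk (x := v + -w) (y := s) (by rw [AddSubgroup.coe_add, AddSubgroup.coe_neg]; omega) (by omega)
      (by rw [QuotientAddGroup.mk_add, vu_neg, e])
    rw [AddSubgroup.coe_add, AddSubgroup.coe_neg] at this
    omega

theorem vu_sign {v w s : leechLattice} (hv : nm(v) = 32) (hw : nm(w) = 32) (hs : nm(s) = 32)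
    (e : (v : L2) + (w : L2) = (s : L2)) : ∃ w' : leechLattice, (w' : L2) = w ∧ nm(w') = 32 ∧ dt(v, w') = 16 := by
  rcases dot_of_short hv hw hs e with a | a
  · exact ⟨w, rfl, hw, a⟩
  · exact ⟨-w, vu_neg w, by rw [AddSubgroup.coe_neg, sqNorm_neg, hw], by rw [AddSubgroup.coe_neg, dot_neg_right, a]; rfl⟩

/-- Change the signs of `v₂`, `v₃` so that `dt(v₁, v₂) = dt(v₁, v₃) = -16`; `w = v₁ + v₂` is short and
`dt(w, v₃) = -16 + dt(v₂, v₃) ∈ {0, -32}`, against `dot_of_short`. -/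
theorem not_three {v₁ v₂ v₃ s₁₂ s₁₃ s₂₃ s : leechLattice} (h1 : nm(v₁) = 32) (h2 : nm(v₂) = 32) (h3 : nm(v₃) = 32)
    (h12 : nm(s₁₂) = 32) (h13 : nm(s₁₃) = 32) (h23 : nm(s₂₃) = 32) (hs : nm(s) = 32)
    (e12 : (v₁ : L2) + (v₂ : L2) = (s₁₂ : L2)) (e13 : (v₁ : L2) + (v₃ : L2) = (s₁₃ : L2))
    (e23 : (v₂ : L2) + (v₃ : L2) = (s₂₃ : L2)) (e : (v₁ : L2) + (v₂ : L2) + (v₃ : L2) = (s : L2)) : False := by
  obtain ⟨w₂, a2, b2, c2⟩ := vu_sign h1 h2 h12 e12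
  obtain ⟨w₃, a3, b3, c3⟩ := vu_sign h1 h3 h13 e13
  have d := dot_of_short b2 b3 h23 (by rw [a2, a3, e23])
  have n : nm(-v₁ + w₂) = 32 := by
    rw [AddSubgroup.coe_add, AddSubgroup.coe_neg, sqNorm_add, sqNorm_neg, dot_neg_left]; omega
  have d' := dot_of_short n b3 hs (by rw [QuotientAddGroup.mk_add, vu_neg, a2, a3, e])
  rw [AddSubgroup.coe_add, AddSubgroup.coe_neg, dot_add_left, dot_neg_left] at d'
  omega

/-- Change signs so that both inner products are `16`; `exists_smul_pair32` with `(16, vXA, 4600) ∈ co2_L`, twice. -/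
theorem exists_pair {v₁ v₂ s w₁ w₂ r : leechLattice} (h1 : nm(v₁) = 32) (h2 : nm(v₂) = 32) (hs : nm(s) = 32)
    (k1 : nm(w₁) = 32) (k2 : nm(w₂) = 32) (hr : nm(r) = 32) (e : (v₁ : L2) + (v₂ : L2) = (s : L2))
    (e' : (w₁ : L2) + (w₂ : L2) = (r : L2)) : ∃ g : Co1, g • (v₁ : L2) = w₁ ∧ g • (v₂ : L2) = w₂ := by
  obtain ⟨v, a2, b2, c2⟩ := vu_sign h1 h2 hs e
  obtain ⟨w, a3, b3, c3⟩ := vu_sign k1 k2 hr e'
  have m : ((16 : ℤ), vXA, 4600) ∈ co2_L := by simp [co2_L]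
  obtain ⟨g, g1, g2⟩ := exists_smul_pair32 m h1 b2 c2
  obtain ⟨k, l1, l2⟩ := exists_smul_pair32 m k1 b3 c3
  refine ⟨(k * g⁻¹ : Co0), ?_, ?_⟩
  · rw [mk_smul_mk, ← g1, mul_smul, inv_smul_smul, l1]
  · rw [← a2, ← a3, mk_smul_mk, ← g2, mul_smul, inv_smul_smul, l2]

theorem vu_pick {G : Type*} [Group G] [DecidableEq G] (V : Subgroup G) (s : Finset G) (h : s.card < Nat.card V) :
    ∃ x ∈ V, x ∉ s := by
  by_contra! a
  have := Set.ncard_le_ncard (s := (V : Set G)) (t := (s : Set G)) a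
  rw [Set.ncard_coe_finset] at this
  exact absurd h (not_lt.2 this)

theorem vu_ne {G : Type*} [Group G] {x y : G} (hx : x * x = 1) (h : y ≠ x) : x * y ≠ 1 := fun a =>
  h (mul_left_cancel (a.trans hx.symm))

variable {G : Type*} [Group G] [Finite G] {z : G} {Q : Subgroup G} {D : XD z Q Co1 L2} {R : Subgroup G} {t : G}
  (h : St D R t)
include h

/-- `x ≠ z`; `nm_cases`, and norm `64` gives `IsConj z x` (`isConj_of_nm` as in `St.cls`). -/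
theorem _root_.Cfsg.Lib.M5.St.short {x : G} (hx : x ∈ Q) (h2 : x * x = 1) (h1 : x ≠ 1) (n : ¬ IsConj z x) :
    ∃ v : leechLattice, D.π x = v ∧ nm(v) = 32 := by
  obtain ⟨v, hv, a | a⟩ := nm_cases D hx (orderOf_eq_prime (by rw [sq, h2]) h1) fun e => n (e ▸ IsConj.refl _)
  · exact ⟨v, hv, a⟩
  · obtain ⟨g, rfl, -⟩ := h.cj
    exact absurd (isConj_of_nm D h.card h.pr.mem_l h.pr.ne hx hv a) n

/-- Conjugate `u` to `z` (`Ax0.pure_conj`, `dat_Q`).  If `|V| > 4` take `x₁ ≠ 1`, `x₂ ∉ {1, x₁}`, `x₃ ∉ {1, x₁, x₂, x₁ x₂}` in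
`V`; all seven products are `≠ 1` (`x * x = 1` on `V`), hence `short`; `π_mul`, `not_three`. -/
theorem _root_.Cfsg.Lib.M5.St.pure4 {u : G} {V : Subgroup G} (hu : (dat D).B u) (hV : (dat D).Pure V) (m : V ≤ (dat D).Q u) :
    Nat.card V ≤ 4 := by
  classical
  obtain ⟨g, rfl⟩ := isConj_iff.1 hu
  rw [dat_Q D rfl] at m
  have hW := (ax0 D h.card).pure_conj hV g⁻¹
  have mW : V ⋆⋆ g⁻¹ ≤ Q := fun x hx => by simpa [mul_assoc] using mem_conj'.1 (m (mem_conj'.1 hx))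
  rw [← (card_map_of_injective (MulAut.conj g⁻¹).injective : Nat.card (V ⋆⋆ g⁻¹) = Nat.card V)]
  generalize V ⋆⋆ g⁻¹ = W at hW mW ⊢
  by_contra! c
  obtain ⟨x₁, m₁, n₁⟩ := vu_pick W {1} (by rw [Finset.card_singleton]; omega)
  obtain ⟨x₂, m₂, n₂⟩ := vu_pick W {1, x₁} (Finset.card_le_two.trans_lt (by omega))
  obtain ⟨x₃, m₃, n₃⟩ := vu_pick W {1, x₁, x₂, x₁ * x₂} (Finset.card_le_four.trans_lt c)
  simp only [Finset.mem_insert, Finset.mem_singleton, not_or] at n₁ n₂ n₃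
  have S : ∀ x ∈ W, x ≠ 1 → ∃ v : leechLattice, D.π x = v ∧ nm(v) = 32 := fun x hx n =>
    h.short (mW hx) (hW x hx).1 n (hW x hx).2
  obtain ⟨v₁, p₁, q₁⟩ := S _ m₁ n₁
  obtain ⟨v₂, p₂, q₂⟩ := S _ m₂ n₂.1
  obtain ⟨v₃, p₃, q₃⟩ := S _ m₃ n₃.1
  obtain ⟨s₁₂, p₁₂, q₁₂⟩ := S _ (W.mul_mem m₁ m₂) (vu_ne (hW _ m₁).1 n₂.2)
  obtain ⟨s₁₃, p₁₃, q₁₃⟩ := S _ (W.mul_mem m₁ m₃) (vu_ne (hW _ m₁).1 n₃.2.1)
  obtain ⟨s₂₃, p₂₃, q₂₃⟩ := S _ (W.mul_mem m₂ m₃) (vu_ne (hW _ m₂).1 n₃.2.2.1)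
  obtain ⟨s, p, q⟩ := S _ (W.mul_mem (W.mul_mem m₁ m₂) m₃) (vu_ne (hW _ (W.mul_mem m₁ m₂)).1 n₃.2.2.2)
  rw [D.π_mul _ (mW (W.mul_mem m₁ m₂)) _ (mW m₃)] at p
  rw [D.π_mul _ (mW m₁) _ (mW m₂), p₁, p₂] at p₁₂ p
  rw [D.π_mul _ (mW m₁) _ (mW m₃), p₁, p₃] at p₁₃
  rw [D.π_mul _ (mW m₂) _ (mW m₃), p₂, p₃] at p₂₃
  exact not_three q₁ q₂ q₃ q₁₂ q₁₃ q₂₃ q p₁₂ p₁₃ p₂₃ (p₃ ▸ p)

theorem vu_base {V : Subgroup G} (hV : (dat D).Pure V) (m : V ≤ Q) (c : Nat.card V = 4) :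
    ∃ x₁ ∈ V, ∃ x₂ ∈ V, x₁ ≠ 1 ∧ x₂ ≠ 1 ∧ x₂ ≠ x₁ ∧ V ≤ closure {x₁, x₂} ∧ ∃ v₁ v₂ s : leechLattice,
      D.π x₁ = v₁ ∧ D.π x₂ = v₂ ∧ nm(v₁) = 32 ∧ nm(v₂) = 32 ∧ nm(s) = 32 ∧ (v₁ : L2) + (v₂ : L2) = (s : L2) := by
  classical
  obtain ⟨x₁, m₁, n₁⟩ := vu_pick V {1} (by rw [Finset.card_singleton]; omega)
  obtain ⟨x₂, m₂, n₂⟩ := vu_pick V {1, x₁} (Finset.card_le_two.trans_lt (by omega))
  simp only [Finset.mem_insert, Finset.mem_singleton, not_or] at n₁ n₂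
  have S : ∀ x ∈ V, x ≠ 1 → ∃ v : leechLattice, D.π x = v ∧ nm(v) = 32 := fun x hx n =>
    h.short (m hx) (hV x hx).1 n (hV x hx).2
  obtain ⟨v₁, p₁, q₁⟩ := S _ m₁ n₁
  obtain ⟨v₂, p₂, q₂⟩ := S _ m₂ n₂.1
  obtain ⟨s, p, q⟩ := S _ (V.mul_mem m₁ m₂) (vu_ne (hV _ m₁).1 n₂.2)
  rw [D.π_mul _ (m m₁) _ (m m₂), p₁, p₂] at p
  refine ⟨x₁, m₁, x₂, m₂, n₁, n₂.1, n₂.2, fun y hy => ?_, v₁, v₂, s, p₁, p₂, q₁, q₂, q, p⟩
  by_contra ny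
  have k₁ : x₁ ∈ closure ({x₁, x₂} : Set G) := subset_closure (by simp)
  have k₂ : x₂ ∈ closure ({x₁, x₂} : Set G) := subset_closure (by simp)
  have y0 : y ≠ 1 := fun e => ny (e ▸ one_mem _)
  have y1 : y ≠ x₁ := fun e => ny (e ▸ k₁)
  have y2 : y ≠ x₂ := fun e => ny (e ▸ k₂)
  have y3 : y ≠ x₁ * x₂ := fun e => ny (e ▸ mul_mem k₁ k₂)
  have d0 : x₁ * x₂ ≠ 1 := vu_ne (hV _ m₁).1 n₂.2
  have d1 : x₁ * x₂ ≠ x₁ := fun e => n₂.1 (by simpa using e)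
  have d2 : x₁ * x₂ ≠ x₂ := fun e => n₁ (by simpa using e)
  have := Set.ncard_le_ncard (s := (({y, x₁ * x₂, x₂, x₁, 1} : Finset G) : Set G)) (t := (V : Set G)) (by
    intro a ha
    simp only [Finset.coe_insert, Finset.coe_singleton, Set.mem_insert_iff, Set.mem_singleton_iff] at ha
    rcases ha with rfl | rfl | rfl | rfl | rfl
    exacts [hy, V.mul_mem m₁ m₂, m₂, m₁, V.one_mem])
  rw [Set.ncard_coe_finset, Finset.card_insert_of_notMem (by simp [*]), Finset.card_insert_of_notMem (by simp [*]),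
    Finset.card_insert_of_notMem (by simp [*]), Finset.card_pair n₁] at this
  exact absurd (this.trans_eq c) (by norm_num)

theorem vu_trP0 {V V' : Subgroup G} (hV : (dat D).Pure V) (hV' : (dat D).Pure V') (m : V ≤ Q) (m' : V' ≤ Q)
    (c : Nat.card V = 4) (c' : Nat.card V' = 4) : ∃ g, V' = V ⋆⋆ g := by
  obtain ⟨x₁, a₁, x₂, a₂, -, -, -, -, v₁, v₂, s, p₁, p₂, q₁, q₂, q, e⟩ := vu_base h hV m c
  obtain ⟨y₁, b₁, y₂, b₂, -, n₂, n₃, l, w₁, w₂, r, r₁, r₂, t₁, t₂, t₃, e'⟩ := vu_base h hV' m' c'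
  obtain ⟨k, k₁, k₂⟩ := exists_pair q₁ q₂ q t₁ t₂ t₃ e e'
  obtain ⟨d, rfl, d₁⟩ := D.exists_conj (m a₁) (m' b₁) (g := k)
    (by rw [p₁]; exact mk_ne_zero (by omega) (by omega)) (by rw [p₁, r₁, k₁])
  have fin : ∀ g : G, g * x₁ * g⁻¹ = y₁ → g * x₂ * g⁻¹ = y₂ → V' = V ⋆⋆ g := fun g g₁ g₂ =>
    eq_of_le_of_card_ge (l.trans ((closure_le _).2 (by
      rintro _ (rfl | rfl)
      exacts [⟨x₁, a₁, g₁⟩, ⟨x₂, a₂, g₂⟩]))) (by rw [card_map_of_injective (MulAut.conj g).injective, c, c'])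
  rcases (D.π_eq_iff (m' b₂) (D.conj_mem d (m a₂))).1 (by rw [D.π_conj _ _ (m a₂), p₂, k₂, r₂]) with a | a
  · exact ⟨d, fin d d₁ a⟩
  have zc : ∀ y ∈ Q, z * y = y * z := fun y hy => (mem_centralizer_singleton_iff.1 (D.lg.cent hy)).symm
  have zV : z ∉ V' := fun a => (hV' z a).2 (B_z D)
  obtain ⟨f, hf, f₂⟩ := D.lg.toSy.exists_conj_of_not_mem D.es (H := closure {z, y₁}) ((closure_le _).2 (by
    rintro _ (rfl | rfl)
    exacts [D.lg.mem, m' b₁])) (subset_closure (by simp)) (m' b₂) (by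
      rw [mem_closure_pair_iff D.lg.mul_self (hV' _ b₁).1 (zc _ (m' b₁))]
      rintro (a | a | a | a)
      exacts [n₂ a, zV (a ▸ b₂), n₃ a, zV (by simpa [a] using V'.mul_mem b₂ (V'.inv_mem b₁))])
  have f₁ : y₁ * f = f * y₁ := hf.2 y₁ (subset_closure (by simp))
  refine ⟨f⁻¹ * d, fin _ ?_ ?_⟩
  · rw [show f⁻¹ * d * x₁ * (f⁻¹ * d)⁻¹ = f⁻¹ * (d * x₁ * (d : G)⁻¹ * f) by group, d₁, f₁, inv_mul_cancel_left]
  · rw [show f⁻¹ * d * x₂ * (f⁻¹ * d)⁻¹ = f⁻¹ * (d * x₂ * (d : G)⁻¹) * f by group, a, ← f₂]; group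

/-- Conjugate `u` to `z`.  `V = {1, x₁, x₂, x₁ x₂}`, `V' = {1, y₁, y₂, y₁ y₂}`; `short`, `exists_pair` give `k` with
`k • π x_i = π y_i`; `D.exists_conj` gives `c` with `ρ c = k`, `c x₁ c⁻¹ = y₁`, and `c x₂ c⁻¹ ∈ {y₂, z y₂}` (`π_eq_iff`).  In the
second case correct by `D.lg.toSy.exists_conj_of_not_mem D.es` for `H = closure {z, y₁}` (`y₂ ∉ H` by `mem_closure_pair_iff`:
`z ∉ V'`).  Then `V ⋆⋆ g ≤ V'`... (or `V' ≤ V ⋆⋆ g`) and the orders agree. -/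
theorem _root_.Cfsg.Lib.M5.St.trP {u : G} {V V' : Subgroup G} (hu : (dat D).B u) (hV : (dat D).Pure V) (hV' : (dat D).Pure V')
    (m : V ≤ (dat D).Q u) (m' : V' ≤ (dat D).Q u) (c : Nat.card V = 4) (c' : Nat.card V' = 4) : ∃ g, V' = V ⋆⋆ g := by
  obtain ⟨g, rfl⟩ := isConj_iff.1 hu
  rw [dat_Q D rfl] at m m'
  have mW : ∀ {V : Subgroup G}, V ≤ Q ⋆⋆ g → V ⋆⋆ g⁻¹ ≤ Q := fun {V} m x hx => by
    simpa [mul_assoc] using mem_conj'.1 (m (mem_conj'.1 hx))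
  obtain ⟨k, e⟩ := vu_trP0 h ((ax0 D h.card).pure_conj hV g⁻¹) ((ax0 D h.card).pure_conj hV' g⁻¹) (mW m) (mW m')
    (by rw [card_map_of_injective (MulAut.conj g⁻¹).injective, c])
    (by rw [card_map_of_injective (MulAut.conj g⁻¹).injective, c'])
  refine ⟨g * k * g⁻¹, ?_⟩
  rw [mul_assoc, ← conj_conj', ← conj_conj', ← e, conj_conj', mul_inv_cancel, conj_one']

end Cfsg.Lib.ML
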