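import Cfsg.Agent.Lib.ML.VD
import Cfsg.Agent.Lib.ML.VT
import Cfsg.Agent.Lib.ML.VL
import Cfsg.Agent.Lib.ML.VU
import Cfsg.Agent.Lib.ML.VO
import Cfsg.Agent.Lib.ML.Main
import Cfsg.Agent.Lib.MT.Mk

/-!
# Maximal 2-local subgroups of the Monster: the axioms hold (helper10)
-/

set_option autoImplicit false

namespace Cfsg.Lib.Griess.MT

open Subgroup Cfsg.Lib.Leech Cfsg.Lib.Mon Cfsg.Lib.ES Cfsg.Lib.ML Cfsg.Lib.M5

theorem gm_ax [MQ] [MN] (hr : PRankLE 2 15 Aut) : gm.Ax where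
  toAx0 := gm_ax0
  rank := hr
  exK := ⟨_, ark_A0 xd⟩
  trK := trK xd
  frm := gm_st.frm'
  pt := gm_st.at'
  oc := gm_st.oc'
  dich := gm_dich
  twoA := gm_twoA
  trA := gm_trA
  pure4 := gm_st.pure4
  trP := gm_st.trP
  trS := gm_trS
  tab := gm_tab
  lemP := gm_st.lemP

theorem seven_of_xd {G : Type*} [Group G] [Finite G] {z s : G} {R : Subgroup G} (D : XD z R Spor.Co1 L2)
    (hc : Nat.card R = 2 ^ (2 * 12 + 1)) (hs : s ∈ R) (h : IsConj z s) (hne : s ≠ z) (hr : PRankLE 2 15 G) :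
    ∃ S : Finset (Subgroup G), S.card = 7 ∧ (∀ H ∈ S, IsTwoLocal H) ∧
      ∀ H : Subgroup G, IsMaximalTwoLocal H → ∃ H₀ ∈ S, ∃ g : G, H = H₀.map (MulAut.conj g).toMonoidHom := by
  obtain ⟨D, e⟩ := exists_base D hc hs h hne
  obtain ⟨f, f1, rfl, rfl, rfl, f2⟩ := exists_qV D hs (e.trans om_eq.symm)
  let _ : MQ := ⟨G, f, f1, D, f2⟩
  obtain ⟨_⟩ := nonempty_MN h
  exact (gm_ax hr).main

end Cfsg.Lib.Griess.MT
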